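import Mathlib
import Cfsg.Prelude.Def_Classical

/-!
# Isometry groups through a model space

For a function `Q : (ι → F) → F` (a quadratic form in coordinates) and a linear isomorphism
`ψ : (ι → F) ≃ₗ[F] W` onto a "model" space `W` carrying a function `N` with `N (ψ v) = Q v`, the
group `Cfsg.isometryGroup F Q` is isomorphic to the group `isoUnits N` of units of `End(W)`
preserving `N` (`isoEquiv`).  Also: generic lemmas for computing `Ω / Z(Ω)` for
`Ω = commutator`.
-/

set_option autoImplicit false

namespace Cfsg.Agent.Lib.Helper99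

open Cfsg Matrix
open scoped commutatorElement

section model

variable {ι : Type} [Fintype ι] [DecidableEq ι] {F : Type*} [Field F]
variable {W : Type*} [AddCommGroup W] [Module F W]

/-- the ring isomorphism `End(W) ≃ Matrix ι ι F` induced by coordinates `ψ` -/
noncomputable def endEquivMat (ψ : (ι → F) ≃ₗ[F] W) : Module.End F W ≃+* Matrix ι ι F :=
  (ψ.symm.conjRingEquiv).trans (LinearMap.toMatrixAlgEquiv' (R := F) (n := ι)).toRingEquiv

theorem endEquivMat_mulVec (ψ : (ι → F) ≃ₗ[F] W) (f : Module.End F W) (v : ι → F) :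
    endEquivMat ψ f *ᵥ v = ψ.symm (f (ψ v)) := by
  unfold endEquivMat
  rw [RingEquiv.trans_apply, ← Matrix.toLinAlgEquiv'_apply]
  simp [LinearEquiv.conjRingEquiv]

theorem endEquivMat_symm_apply (ψ : (ι → F) ≃ₗ[F] W) (M : Matrix ι ι F) (w : W) :
    (endEquivMat ψ).symm M w = ψ (M *ᵥ ψ.symm w) := by
  obtain ⟨f, rfl⟩ := (endEquivMat ψ).surjective M
  rw [RingEquiv.symm_apply_apply, endEquivMat_mulVec]
  simp

/-- the units of `End(W)` preserving the function `N` -/
def isoUnits (N : W → F) : Subgroup (Module.End F W)ˣ where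
  carrier := {u | ∀ w, N ((u : Module.End F W) w) = N w}
  mul_mem' := by
    intro a b ha hb w
    rw [Units.val_mul, Module.End.mul_apply, ha, hb]
  one_mem' := by intro w; simp
  inv_mem' := by
    intro a ha w
    have := ha ((↑a⁻¹ : Module.End F W) w)
    rw [← Module.End.mul_apply, ← Units.val_mul, mul_inv_cancel, Units.val_one,
      Module.End.one_apply] at this
    exact this.symm

theorem mem_isoUnits (N : W → F) (u : (Module.End F W)ˣ) :
    u ∈ isoUnits N ↔ ∀ w, N ((u : Module.End F W) w) = N w := Iff.rfl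

/-- the isometry group in coordinates is isomorphic to the model isometry group -/
noncomputable def isoEquiv (ψ : (ι → F) ≃ₗ[F] W) (Q : (ι → F) → F) (N : W → F)
    (hN : ∀ v, N (ψ v) = Q v) : isoUnits N ≃* isometryGroup F Q :=
  ((Units.mapEquiv (endEquivMat ψ).toMulEquiv).subgroupMap (isoUnits N)).trans
    (MulEquiv.subgroupCongr (by
      ext g
      constructor
      · rintro ⟨u, hu, rfl⟩
        intro v _
        have h2 : ((Units.mapEquiv (endEquivMat ψ).toMulEquiv u : (Matrix ι ι F)ˣ) :
            Matrix ι ι F) = endEquivMat ψ (u : Module.End F W) := rfl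
        show Q (((Units.mapEquiv (endEquivMat ψ).toMulEquiv u : (Matrix ι ι F)ˣ) :
            Matrix ι ι F) *ᵥ v) = Q v
        rw [h2, endEquivMat_mulVec, ← hN, LinearEquiv.apply_symm_apply, hu (ψ v), hN]
      · intro h
        refine ⟨(Units.mapEquiv (endEquivMat ψ).toMulEquiv).symm g, ?_,
          MulEquiv.apply_symm_apply _ g⟩
        intro w
        have h2 : (((Units.mapEquiv (endEquivMat ψ).toMulEquiv).symm g : (Module.End F W)ˣ) :
            Module.End F W) = (endEquivMat ψ).symm (g : Matrix ι ι F) := rfl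
        rw [h2, endEquivMat_symm_apply, hN]
        have h3 := h (ψ.symm w) (ψ.symm w)
        have h4 : N w = Q (ψ.symm w) := by rw [← hN, LinearEquiv.apply_symm_apply]
        rw [h4]
        exact h3))

/-- lift a monoid hom from a group into `End(W)` with values preserving `N` to `isoUnits N` -/
def liftU {G : Type*} [Group G] (N : W → F) (f : G →* Module.End F W)
    (hf : ∀ g w, N (f g w) = N w) : G →* isoUnits N :=
  f.toHomUnits.codRestrict (isoUnits N) (fun g => hf g)

/-- the underlying endomorphism of an element of `isoUnits N` -/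
def appHom (N : W → F) : isoUnits N →* Module.End F W :=
  (Units.coeHom _).comp (isoUnits N).subtype

theorem appHom_injective (N : W → F) : Function.Injective (appHom (F := F) N) := by
  intro a b h
  exact Subtype.ext (Units.ext h)

theorem appHom_liftU {G : Type*} [Group G] (N : W → F) (f : G →* Module.End F W)
    (hf : ∀ g w, N (f g w) = N w) (g : G) : appHom N (liftU N f hf g) = f g := rfl

theorem N_appHom (N : W → F) (u : isoUnits N) (w : W) : N (appHom N u w) = N w := u.2 w

theorem appHom_inv_apply (N : W → F) (u : isoUnits N) (w : W) :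
    appHom N u⁻¹ (appHom N u w) = w := by
  rw [← Module.End.mul_apply, ← map_mul, inv_mul_cancel, map_one, Module.End.one_apply]

/-- an element of `isoUnits N` from an endomorphism with a two-sided inverse -/
def mkU (N : W → F) (f g : Module.End F W) (h1 : f * g = 1) (h2 : g * f = 1)
    (hf : ∀ w, N (f w) = N w) : isoUnits N :=
  ⟨⟨f, g, h1, h2⟩, hf⟩

theorem appHom_mkU (N : W → F) (f g : Module.End F W) (h1 : f * g = 1) (h2 : g * f = 1)
    (hf : ∀ w, N (f w) = N w) : appHom N (mkU N f g h1 h2 hf) = f := rfl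

end model

section groups

theorem comm_of_mul_eq {G : Type*} [Group G] {X Y Z : G} (h : X * Y = Z * Y * X) : ⁅X, Y⁆ = Z := by
  rw [commutatorElement_def, h]; group

/-- if `G = N K` with `N` normal and the elements of `K` commuting modulo `N`, then the commutator
subgroup lies in `N` -/
theorem commutator_le_of_normal_mul {G : Type*} [Group G] (N : Subgroup G) [N.Normal] (K : Set G)
    (hK : ∀ a ∈ K, ∀ b ∈ K, ⁅a, b⁆ ∈ N) (hG : ∀ g : G, ∃ n ∈ N, ∃ k ∈ K, g = n * k) :
    commutator G ≤ N := by
  rw [commutator_def, Subgroup.commutator_le]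
  intro g₁ _ g₂ _
  obtain ⟨n₁, hn₁, k₁, hk₁, rfl⟩ := hG g₁
  obtain ⟨n₂, hn₂, k₂, hk₂, rfl⟩ := hG g₂
  rw [← QuotientGroup.eq_one_iff]
  have e1 : ((n₁ * k₁ : G) : G ⧸ N) = (k₁ : G ⧸ N) := by
    rw [QuotientGroup.mk_mul, (QuotientGroup.eq_one_iff n₁).mpr hn₁, one_mul]
  have e2 : ((n₂ * k₂ : G) : G ⧸ N) = (k₂ : G ⧸ N) := by
    rw [QuotientGroup.mk_mul, (QuotientGroup.eq_one_iff n₂).mpr hn₂, one_mul]
  have h3 : ((⁅n₁ * k₁, n₂ * k₂⁆ : G) : G ⧸ N) = ((⁅k₁, k₂⁆ : G) : G ⧸ N) := by
    have := map_commutatorElement (QuotientGroup.mk' N) (n₁ * k₁) (n₂ * k₂)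
    have h' := map_commutatorElement (QuotientGroup.mk' N) k₁ k₂
    simp only [QuotientGroup.mk'_apply] at this h'
    rw [this, h', e1, e2]
  rw [h3]
  exact (QuotientGroup.eq_one_iff _).mpr (hK k₁ hk₁ k₂ hk₂)

/-- `Ω / Z(Ω) ≅ P` when `Ω` is the image of `f : A → B`, `π : A → P` is onto with central kernel
containing `ker f`, and `P` has trivial centre. -/
theorem quotient_center_equiv {A B P : Type*} [Group A] [Group B] [Group P] (f : A →* B)
    (Ω : Subgroup B) (hrange : f.range = Ω) (π : A →* P) (hπ : Function.Surjective π)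
    (h1 : f.ker ≤ π.ker) (h2 : π.ker ≤ Subgroup.center A)
    (h3 : ∀ x ∈ Subgroup.center P, x = 1) :
    Nonempty (Ω ⧸ Subgroup.center Ω ≃* P) := by
  subst hrange
  let Φ : A →* f.range ⧸ Subgroup.center f.range :=
    (QuotientGroup.mk' (Subgroup.center f.range)).comp f.rangeRestrict
  have hΦ : Function.Surjective Φ :=
    (QuotientGroup.mk'_surjective _).comp f.rangeRestrict_surjective
  have hker : Φ.ker = π.ker := by
    ext a
    rw [MonoidHom.mem_ker, MonoidHom.mem_ker]
    show ((f.rangeRestrict a : f.range) : f.range ⧸ Subgroup.center f.range) = 1 ↔ _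
    rw [QuotientGroup.eq_one_iff, Subgroup.mem_center_iff]
    constructor
    · intro hc
      apply h3
      rw [Subgroup.mem_center_iff]
      intro p
      obtain ⟨b, rfl⟩ := hπ p
      have hb := hc (f.rangeRestrict b)
      rw [← map_mul, ← map_mul] at hb
      have hb' : f (b * a) = f (a * b) := congrArg Subtype.val hb
      have hk : (a * b)⁻¹ * (b * a) ∈ f.ker := by
        rw [MonoidHom.mem_ker, map_mul, map_inv, hb', inv_mul_cancel]
      have hk' := h1 hk
      rw [MonoidHom.mem_ker, map_mul, map_inv, inv_mul_eq_one] at hk'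
      rw [← map_mul, ← map_mul, hk']
    · intro ha y
      obtain ⟨b, rfl⟩ := f.rangeRestrict_surjective y
      have hac := Subgroup.mem_center_iff.mp (h2 (MonoidHom.mem_ker.mpr ha)) b
      rw [← map_mul, ← map_mul, hac]
  exact ⟨((QuotientGroup.quotientKerEquivOfSurjective Φ hΦ).symm.trans
    (QuotientGroup.quotientMulEquivOfEq hker)).trans
    (QuotientGroup.quotientKerEquivOfSurjective π hπ)⟩

/-- the same, with the image transported along a group isomorphism `e : U ≃* B` and `Ω` the
commutator subgroup -/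
theorem commutator_quotient_center_equiv {A U B P : Type*} [Group A] [Group U] [Group B]
    [Group P] (e : U ≃* B) (f : A →* U) (hrange : f.range = commutator U) (π : A →* P)
    (hπ : Function.Surjective π) (h1 : f.ker ≤ π.ker) (h2 : π.ker ≤ Subgroup.center A)
    (h3 : ∀ x ∈ Subgroup.center P, x = 1) :
    Nonempty (commutator B ⧸ Subgroup.center (commutator B) ≃* P) := by
  refine quotient_center_equiv (e.toMonoidHom.comp f) (commutator B) ?_ π hπ ?_ h2 h3
  · rw [MonoidHom.range_comp, hrange, commutator_def, commutator_def, Subgroup.map_commutator,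
      Subgroup.map_top_of_surjective _ e.surjective]
  · intro a ha
    apply h1
    rw [MonoidHom.mem_ker] at ha ⊢
    exact e.injective (by rw [map_one]; exact ha)

end groups

end Cfsg.Agent.Lib.Helper99
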