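import Mathlib
import Cfsg.Agent.Lib.Helper99.IsoModel

/-!
# The commutator subgroup from a normal subgroup and generators of a complement

If `G = N ⟨S⟩`, the elements of `S` normalise `N` and commute pairwise modulo `N`, then `N` is
normal and contains the commutator subgroup of `G`.
-/

set_option autoImplicit false

namespace Cfsg.Agent.Lib.Helper99

open scoped commutatorElement

theorem commutator_le_of_generators {G : Type*} [Group G] (N : Subgroup G) (S : Set G)
    (hconj : ∀ s ∈ S, ∀ n ∈ N, s * n * s⁻¹ ∈ N ∧ s⁻¹ * n * s ∈ N)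
    (hcomm : ∀ x ∈ S, ∀ y ∈ S, ⁅x, y⁆ ∈ N)
    (hgen : ∀ g : G, ∃ n ∈ N, ∃ k ∈ Subgroup.closure S, g = n * k) :
    N.Normal ∧ commutator G ≤ N := by
  have hS : Subgroup.closure S ≤ Subgroup.normalizer (N : Set G) := by
    rw [Subgroup.closure_le]
    intro s hs
    rw [SetLike.mem_coe, Subgroup.mem_normalizer_iff]
    intro n
    constructor
    · intro hn
      exact (hconj s hs n hn).1
    · intro hn
      have h := (hconj s hs _ hn).2
      have e : s⁻¹ * (s * n * s⁻¹) * s = n := by group
      rwa [e] at h
  have hnorm : N.Normal := by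
    constructor
    intro n hn g
    obtain ⟨m, hm, k, hk, rfl⟩ := hgen g
    have h1 := (Subgroup.mem_normalizer_iff.mp (hS hk) n).mp hn
    have h2 := N.mul_mem (N.mul_mem hm h1) (N.inv_mem hm)
    have e : m * k * n * (m * k)⁻¹ = m * (k * n * k⁻¹) * m⁻¹ := by group
    rw [e]
    exact h2
  refine ⟨hnorm, ?_⟩
  have := hnorm
  refine commutator_le_of_normal_mul N (Subgroup.closure S : Set G) ?_ hgen
  have key : ∀ x ∈ Subgroup.closure S, ∀ y ∈ Subgroup.closure S,
      Commute (x : G ⧸ N) (y : G ⧸ N) := by
    intro x hx y hy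
    induction hx, hy using Subgroup.closure_induction₂ with
    | mem x y hx hy =>
      have h := hcomm x hx y hy
      rw [← QuotientGroup.eq_one_iff] at h
      have h' := map_commutatorElement (QuotientGroup.mk' N) x y
      simp only [QuotientGroup.mk'_apply] at h'
      rw [h] at h'
      exact commutatorElement_eq_one_iff_commute.mp h'.symm
    | one_left x hx => rw [QuotientGroup.mk_one]; exact Commute.one_left _
    | one_right x hx => rw [QuotientGroup.mk_one]; exact Commute.one_right _
    | mul_left x y z hx hy hz h1 h2 => rw [QuotientGroup.mk_mul]; exact h1.mul_left h2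
    | mul_right y z x hy hz hx h1 h2 => rw [QuotientGroup.mk_mul]; exact h1.mul_right h2
    | inv_left x y hx hy h => rw [QuotientGroup.mk_inv]; exact h.inv_left
    | inv_right x y hx hy h => rw [QuotientGroup.mk_inv]; exact h.inv_right
  intro x hx y hy
  rw [← QuotientGroup.eq_one_iff]
  have h' := map_commutatorElement (QuotientGroup.mk' N) x y
  simp only [QuotientGroup.mk'_apply] at h'
  rw [h']
  exact commutatorElement_eq_one_iff_commute.mpr (key x hx y hy)

end Cfsg.Agent.Lib.Helper99
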