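import Mathlib
import Cfsg.Agent.Lib.Helper99.IsoModel
import Cfsg.Agent.Lib.Helper99.GenComm

/-!
# Isometries of `H ⊥ V`, `H` a hyperbolic plane

For a function `N₀ : V → F` with `N₀ 0 = 0` and the form `N (x, y, v) = x y + N₀ v` on
`F × F × V`: a subgroup of the isometry group of `N` which is transitive enough on singular
vectors and contains the pointwise stabiliser of the hyperbolic pair is the whole group
(`eq_top_of_hyp`).  Also: the commutator subgroup from a normal subgroup and generators
(`commutator_le_of_sup_eq_top`), and kernels of homs from perfect groups with simple central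
quotient.
-/

set_option autoImplicit false
set_option linter.unusedSectionVars false

namespace Cfsg.Agent.Lib.Helper99

open scoped commutatorElement

section hyp

variable {F : Type*} [Field F] {V : Type*} [AddCommGroup V] [Module F V]

/-- the form `x y + N₀ v` on `F × F × V` -/
def hypN (N₀ : V → F) (w : F × F × V) : F := w.1 * w.2.1 + N₀ w.2.2

/-- the first hyperbolic vector -/
def hex : F × F × V := (1, 0, 0)

/-- the second hyperbolic vector -/
def hey : F × F × V := (0, 1, 0)

/-- the embedding of `V` -/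
def hez (v : V) : F × F × V := (0, 0, v)

/-- an endomorphism of `V`, extended by the identity on the hyperbolic plane -/
def hext (τ : Module.End F V) : Module.End F (F × F × V) :=
  LinearMap.prodMap LinearMap.id (LinearMap.prodMap LinearMap.id τ)

theorem hext_apply (τ : Module.End F V) (w : F × F × V) : hext τ w = (w.1, w.2.1, τ w.2.2) := rfl

theorem hext_mul (τ τ' : Module.End F V) : hext (τ * τ') = hext τ * hext τ' := by
  refine LinearMap.ext fun w => ?_
  rfl

theorem hext_one : hext (1 : Module.End F V) = 1 := by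
  refine LinearMap.ext fun w => ?_
  rfl

theorem hypN_hext (N₀ : V → F) (τ : Module.End F V) (hτ : ∀ v, N₀ (τ v) = N₀ v)
    (w : F × F × V) : hypN N₀ (hext τ w) = hypN N₀ w := by
  rw [hext_apply, hypN, hypN, hτ]

theorem hypN_hez (N₀ : V → F) (v : V) : hypN N₀ (hez v) = N₀ v := by
  simp [hypN, hez]

theorem fix_hex_hey (N₀ : V → F) (h0 : N₀ 0 = 0) (T : Module.End F (F × F × V))
    (hT : ∀ w, hypN N₀ (T w) = hypN N₀ w) (hx : T hex = hex) :
    T hey = (-N₀ (T hey).2.2, 1, (T hey).2.2) := by
  have h1 := hT hey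
  have h2 := hT (hex + hey)
  rw [map_add, hx] at h2
  generalize T hey = v at h1 h2 ⊢
  obtain ⟨p, q, r⟩ := v
  simp [hypN, hex, hey, h0] at h1 h2
  have hq : q = 1 := by linear_combination h2 - h1
  subst hq
  have hp : p = -N₀ r := by linear_combination h1
  subst hp
  rfl

theorem stab_hex_hey (N₀ : V → F) (_h0 : N₀ 0 = 0) (T : Module.End F (F × F × V))
    (hT : ∀ w, hypN N₀ (T w) = hypN N₀ w) (hx : T hex = hex) (hy : T hey = hey) :
    ∃ τ : Module.End F V, (∀ v, N₀ (τ v) = N₀ v) ∧ T = hext τ := by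
  have h1 : ∀ z : V, T (hez z) = hez (T (hez z)).2.2 := by
    intro z
    have e0 := hT (hez z)
    have e1 := hT (hez z + hex)
    have e2 := hT (hez z + hey)
    rw [map_add, hx] at e1
    rw [map_add, hy] at e2
    generalize T (hez z) = v at e0 e1 e2 ⊢
    obtain ⟨p, q, r⟩ := v
    simp [hypN, hex, hey, hez] at e0 e1 e2
    have hq : q = 0 := by linear_combination e1 - e0
    have hp : p = 0 := by linear_combination e2 - e0
    subst hq hp
    rfl
  refine ⟨(LinearMap.snd F F V ∘ₗ LinearMap.snd F F (F × V)) ∘ₗ T ∘ₗ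
    (LinearMap.inr F F (F × V) ∘ₗ LinearMap.inr F F V), ?_, ?_⟩
  · intro v
    have e0 := hT (hez v)
    rw [h1 v, hypN_hez, hypN_hez] at e0
    exact e0
  · refine LinearMap.ext fun w => ?_
    have hw : w = w.1 • hex + w.2.1 • hey + hez w.2.2 := by
      obtain ⟨x, y, z⟩ := w
      simp [hex, hey, hez]
    conv_lhs => rw [hw]
    rw [map_add, map_add, map_smul, map_smul, hx, hy, h1, hext_apply]
    simp [hex, hey, hez]

/-- a subgroup of the isometry group of `H ⊥ V` containing enough elements is everything -/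
theorem eq_top_of_hyp (N₀ : V → F) (h0 : N₀ 0 = 0) (H : Subgroup (isoUnits (hypN N₀)))
    (ha : ∀ u : F × F × V, u ≠ 0 → hypN N₀ u = 0 → ∃ n ∈ H, appHom (hypN N₀) n hex = u)
    (hb : ∀ v : V, ∃ n ∈ H, appHom (hypN N₀) n hex = hex ∧
      appHom (hypN N₀) n hey = (-N₀ v, 1, v))
    (hc : ∀ T : isoUnits (hypN N₀), appHom (hypN N₀) T hex = hex →
      appHom (hypN N₀) T hey = hey → T ∈ H) : H = ⊤ := by
  rw [eq_top_iff]
  intro u _
  have hv0 : appHom (hypN N₀) u hex ≠ 0 := by
    intro h
    have h' := appHom_inv_apply (hypN N₀) u hex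
    rw [h, map_zero] at h'
    have h'' : (0 : F) = 1 := congrArg Prod.fst h'
    exact zero_ne_one h''
  have hvN : hypN N₀ (appHom (hypN N₀) u hex) = 0 := by
    have h := N_appHom (hypN N₀) u hex
    rw [h]
    simp [hypN, hex, h0]
  obtain ⟨n₁, hn₁, hn₁x⟩ := ha _ hv0 hvN
  obtain ⟨u₁, hu₁⟩ : ∃ u₁, u₁ = n₁⁻¹ * u := ⟨_, rfl⟩
  have hu₁x : appHom (hypN N₀) u₁ hex = hex := by
    rw [hu₁, map_mul, Module.End.mul_apply, ← hn₁x, appHom_inv_apply]
  have hu₁y := fix_hex_hey N₀ h0 (appHom (hypN N₀) u₁) (N_appHom (hypN N₀) u₁) hu₁x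
  obtain ⟨n₂, hn₂, hn₂x, hn₂y⟩ := hb (appHom (hypN N₀) u₁ hey).2.2
  rw [← hu₁y] at hn₂y
  obtain ⟨u₂, hu₂⟩ : ∃ u₂, u₂ = n₂⁻¹ * u₁ := ⟨_, rfl⟩
  have hu₂x : appHom (hypN N₀) u₂ hex = hex := by
    rw [hu₂, map_mul, Module.End.mul_apply, hu₁x]
    nth_rewrite 1 [← hn₂x]
    rw [appHom_inv_apply]
  have hu₂y : appHom (hypN N₀) u₂ hey = hey := by
    rw [hu₂, map_mul, Module.End.mul_apply, ← hn₂y, appHom_inv_apply]
  have hu₂H := hc u₂ hu₂x hu₂y
  have hu : u = n₁ * (n₂ * u₂) := by rw [hu₂, hu₁]; group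
  rw [hu]
  exact H.mul_mem hn₁ (H.mul_mem hn₂ hu₂H)

/-- the stabiliser of the hyperbolic pair, on the level of the group -/
theorem stab_units (N₀ : V → F) (h0 : N₀ 0 = 0) (T : isoUnits (hypN N₀))
    (hx : appHom (hypN N₀) T hex = hex) (hy : appHom (hypN N₀) T hey = hey) :
    ∃ τ τ' : Module.End F V, (∀ v, N₀ (τ v) = N₀ v) ∧ (∀ v, τ' (τ v) = v) ∧
      appHom (hypN N₀) T = hext τ := by
  obtain ⟨τ, hτ, h1⟩ := stab_hex_hey N₀ h0 _ (N_appHom (hypN N₀) T) hx hy
  have hx' : appHom (hypN N₀) T⁻¹ hex = hex := by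
    have h := appHom_inv_apply (hypN N₀) T hex
    rwa [hx] at h
  have hy' : appHom (hypN N₀) T⁻¹ hey = hey := by
    have h := appHom_inv_apply (hypN N₀) T hey
    rwa [hy] at h
  obtain ⟨τ', _, h2⟩ := stab_hex_hey N₀ h0 _ (N_appHom (hypN N₀) T⁻¹) hx' hy'
  refine ⟨τ, τ', hτ, ?_, h1⟩
  intro v
  have h := appHom_inv_apply (hypN N₀) T (hez v)
  rw [h1, h2, hext_apply, hext_apply] at h
  exact congrArg (fun w : F × F × V => w.2.2) h

end hyp

section groups

/-- if `G = ⟨N, S⟩`, the elements of `S` normalise `N` and commute pairwise modulo `N`, then `N` is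
normal and contains the commutator subgroup of `G` -/
theorem commutator_le_of_sup_eq_top {G : Type*} [Group G] (N : Subgroup G) (S : Set G)
    (hconj : ∀ s ∈ S, ∀ n ∈ N, s * n * s⁻¹ ∈ N ∧ s⁻¹ * n * s ∈ N)
    (hcomm : ∀ x ∈ S, ∀ y ∈ S, ⁅x, y⁆ ∈ N)
    (hsup : N ⊔ Subgroup.closure S = ⊤) :
    N.Normal ∧ commutator G ≤ N := by
  have hS : Subgroup.closure S ≤ Subgroup.normalizer (N : Set G) := by
    rw [Subgroup.closure_le]
    intro s hs
    rw [SetLike.mem_coe, Subgroup.mem_normalizer_iff]
    intro n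
    constructor
    · intro hn
      exact (hconj s hs n hn).1
    · intro hn
      have h := (hconj s hs _ hn).2
      have e : s⁻¹ * (s * n * s⁻¹) * s = n := by group
      rwa [e] at h
  have hnorm : N.Normal := by
    rw [← Subgroup.normalizer_eq_top_iff, eq_top_iff, ← hsup]
    exact sup_le Subgroup.le_normalizer hS
  refine commutator_le_of_generators N S hconj hcomm ?_
  intro g
  have hg : g ∈ N ⊔ Subgroup.closure S := by rw [hsup]; trivial
  obtain ⟨n, hn, k, hk, rfl⟩ := Subgroup.mem_sup_of_normal_left.mp hg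
  exact ⟨n, hn, k, hk, rfl⟩

/-- the centre of a simple quotient `A / Z(A)` of a perfect group is trivial -/
theorem center_quotient_trivial_of_simple {A : Type*} [Group A] (hperf : commutator A = ⊤)
    [IsSimpleGroup (A ⧸ Subgroup.center A)] (x : A ⧸ Subgroup.center A)
    (hx : x ∈ Subgroup.center (A ⧸ Subgroup.center A)) : x = 1 := by
  rcases (inferInstance : (Subgroup.center (A ⧸ Subgroup.center A)).Normal).eq_bot_or_eq_top
    with h | h
  · rw [h] at hx
    exact hx
  · have hcomm : commutator A ≤ Subgroup.center A := by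
      rw [commutator_def, Subgroup.commutator_le]
      intro a _ b _
      rw [← QuotientGroup.eq_one_iff]
      have h' := map_commutatorElement (QuotientGroup.mk' (Subgroup.center A)) a b
      simp only [QuotientGroup.mk'_apply] at h'
      rw [h']
      have ha : (a : A ⧸ Subgroup.center A) ∈ Subgroup.center (A ⧸ Subgroup.center A) := by
        rw [h]; trivial
      exact commutatorElement_eq_one_iff_commute.mpr
        ((Subgroup.mem_center_iff.mp ha b).symm)
    rw [hperf] at hcomm
    obtain ⟨a, rfl⟩ := QuotientGroup.mk_surjective x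
    exact (QuotientGroup.eq_one_iff a).mpr (hcomm (Subgroup.mem_top a))

/-- a nontrivial hom from a perfect group with simple central quotient has central kernel -/
theorem ker_le_center_of_simple {A B : Type*} [Group A] [Group B] (hperf : commutator A = ⊤)
    [IsSimpleGroup (A ⧸ Subgroup.center A)] (f : A →* B) (hf : ∃ a, f a ≠ 1) :
    f.ker ≤ Subgroup.center A := by
  have hnorm : (f.ker.map (QuotientGroup.mk' (Subgroup.center A))).Normal :=
    Subgroup.Normal.map inferInstance _ (QuotientGroup.mk'_surjective _)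
  rcases hnorm.eq_bot_or_eq_top with h | h
  · intro a ha
    have h1 : (a : A ⧸ Subgroup.center A) ∈ f.ker.map (QuotientGroup.mk' (Subgroup.center A)) :=
      Subgroup.mem_map_of_mem _ ha
    rw [h] at h1
    exact (QuotientGroup.eq_one_iff a).mp h1
  · exfalso
    obtain ⟨a₀, ha₀⟩ := hf
    have hrep : ∀ a : A, ∃ z ∈ Subgroup.center A, f a = f z := by
      intro a
      have h1 : (a : A ⧸ Subgroup.center A) ∈
          f.ker.map (QuotientGroup.mk' (Subgroup.center A)) := by rw [h]; trivial
      obtain ⟨k, hk, hka⟩ := h1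
      have h2 : k⁻¹ * a ∈ Subgroup.center A := by
        rw [← QuotientGroup.eq_one_iff, QuotientGroup.mk_mul, QuotientGroup.mk_inv]
        rw [QuotientGroup.mk'_apply] at hka
        rw [hka, inv_mul_cancel]
      refine ⟨k⁻¹ * a, h2, ?_⟩
      rw [map_mul, map_inv, MonoidHom.mem_ker.mp hk, inv_one, one_mul]
    have hcomm : commutator A ≤ f.ker := by
      rw [commutator_def, Subgroup.commutator_le]
      intro a _ b _
      rw [MonoidHom.mem_ker, map_commutatorElement]
      obtain ⟨z, hz, hza⟩ := hrep a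
      obtain ⟨z', hz', hzb⟩ := hrep b
      rw [hza, hzb, ← map_commutatorElement]
      have : ⁅z, z'⁆ = 1 := commutatorElement_eq_one_iff_commute.mpr
        ((Subgroup.mem_center_iff.mp hz z').symm)
      rw [this, map_one]
    rw [hperf] at hcomm
    exact ha₀ (MonoidHom.mem_ker.mp (hcomm (Subgroup.mem_top a₀)))

end groups

end Cfsg.Agent.Lib.Helper99
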