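import Mathlib
import Cfsg.Prelude.Def_Classical
import Cfsg.Agent.Lib.Helper99.IsoModel
import Cfsg.Agent.Lib.Helper99.HypExt

/-!
# The Klein correspondence: `SL₄(F)` acting on the 6-dimensional plus type orthogonal space

The model is `W = F × F × M₂(F)` with the form `N (x, y, B) = x y - det B`; a vector is the
alternating 4 x 4 matrix `[[x J, B], [-Bᵀ, y J]]`, the form is the Pfaffian, and `g ∈ M₄(F)` acts
by `A ↦ g A gᵀ`.
-/

set_option autoImplicit false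
set_option linter.unusedSectionVars false
set_option linter.unnecessarySeqFocus false

namespace Cfsg.Agent.Lib.Helper99.Klein

open Cfsg Matrix Cfsg.Agent.Lib.Helper99
open scoped commutatorElement

/-- the model space `F × F × M₂(F)` -/
abbrev KW (F : Type*) [Field F] : Type _ := F × F × Matrix (Fin 2) (Fin 2) F

variable {F : Type*} [Field F]

/-- minus the determinant -/
def kN₀ (B : Matrix (Fin 2) (Fin 2) F) : F := -B.det

theorem kN₀_zero : kN₀ (0 : Matrix (Fin 2) (Fin 2) F) = 0 := by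
  simp [kN₀]

/-- coordinates -/
def kpsi : ((Fin 3 ⊕ Fin 3) → F) ≃ₗ[F] KW F where
  toFun v := (v (.inl 0), v (.inr 0), !![v (.inl 1), v (.inl 2); v (.inr 2), -v (.inr 1)])
  invFun w := Sum.elim ![w.1, w.2.2 0 0, w.2.2 0 1] ![w.2.1, -w.2.2 1 1, w.2.2 1 0]
  map_add' u v := by
    refine Prod.ext rfl (Prod.ext rfl ?_)
    refine Matrix.ext fun i j => ?_
    fin_cases i <;> fin_cases j <;> simp <;> ring
  map_smul' c v := by
    refine Prod.ext rfl (Prod.ext rfl ?_)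
    refine Matrix.ext fun i j => ?_
    fin_cases i <;> fin_cases j <;> simp
  left_inv v := by
    funext i
    rcases i with i | i <;> fin_cases i <;> simp
  right_inv w := by
    refine Prod.ext rfl (Prod.ext rfl ?_)
    refine Matrix.ext fun i j => ?_
    fin_cases i <;> fin_cases j <;> simp

theorem hypN_kpsi (v : (Fin 3 ⊕ Fin 3) → F) :
    hypN kN₀ (kpsi v) = quadFormPlus 3 F v := by
  simp [kpsi, hypN, kN₀, quadFormPlus, Matrix.det_fin_two, Fin.sum_univ_three]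
  ring

theorem det4 (g : Matrix (Fin 4) (Fin 4) F) :
    g.det = g 0 0 * (g 1 1 * (g 2 2 * g 3 3 - g 2 3 * g 3 2) - g 1 2 * (g 2 1 * g 3 3 - g 2 3 * g 3 1)
        + g 1 3 * (g 2 1 * g 3 2 - g 2 2 * g 3 1))
      - g 0 1 * (g 1 0 * (g 2 2 * g 3 3 - g 2 3 * g 3 2) - g 1 2 * (g 2 0 * g 3 3 - g 2 3 * g 3 0)
        + g 1 3 * (g 2 0 * g 3 2 - g 2 2 * g 3 0))
      + g 0 2 * (g 1 0 * (g 2 1 * g 3 3 - g 2 3 * g 3 1) - g 1 1 * (g 2 0 * g 3 3 - g 2 3 * g 3 0)
        + g 1 3 * (g 2 0 * g 3 1 - g 2 1 * g 3 0))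
      - g 0 3 * (g 1 0 * (g 2 1 * g 3 2 - g 2 2 * g 3 1) - g 1 1 * (g 2 0 * g 3 2 - g 2 2 * g 3 0)
        + g 1 2 * (g 2 0 * g 3 1 - g 2 1 * g 3 0)) := by
  rw [Matrix.det_succ_row_zero]
  simp [Fin.sum_univ_succ, Matrix.det_fin_three, Fin.succAbove]
  ring

/-- a vector as an alternating matrix -/
def Hm4 : KW F →ₗ[F] Matrix (Fin 4) (Fin 4) F where
  toFun w := !![0, w.1, w.2.2 0 0, w.2.2 0 1;
     -w.1, 0, w.2.2 1 0, w.2.2 1 1;
     -w.2.2 0 0, -w.2.2 1 0, 0, w.2.1;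
     -w.2.2 0 1, -w.2.2 1 1, -w.2.1, 0]
  map_add' u v := by
    refine Matrix.ext fun i j => ?_
    fin_cases i <;> fin_cases j <;> simp <;> ring
  map_smul' c v := by
    refine Matrix.ext fun i j => ?_
    fin_cases i <;> fin_cases j <;> simp

theorem Hm4_apply (w : KW F) : Hm4 w = !![0, w.1, w.2.2 0 0, w.2.2 0 1;
     -w.1, 0, w.2.2 1 0, w.2.2 1 1;
     -w.2.2 0 0, -w.2.2 1 0, 0, w.2.1;
     -w.2.2 0 1, -w.2.2 1 1, -w.2.1, 0] := rfl

/-- a matrix to a vector -/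
def Hinv4 : Matrix (Fin 4) (Fin 4) F →ₗ[F] KW F where
  toFun X := (X 0 1, X 2 3, !![X 0 2, X 0 3; X 1 2, X 1 3])
  map_add' X Y := by
    refine Prod.ext rfl (Prod.ext rfl ?_)
    refine Matrix.ext fun i j => ?_
    fin_cases i <;> fin_cases j <;> simp
  map_smul' c X := by
    refine Prod.ext rfl (Prod.ext rfl ?_)
    refine Matrix.ext fun i j => ?_
    fin_cases i <;> fin_cases j <;> simp

theorem Hinv4_apply (X : Matrix (Fin 4) (Fin 4) F) :
    Hinv4 X = (X 0 1, X 2 3, !![X 0 2, X 0 3; X 1 2, X 1 3]) := rfl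

theorem Hinv4_Hm4 (w : KW F) : Hinv4 (Hm4 w) = w := by
  rw [Hm4_apply, Hinv4_apply]
  refine Prod.ext rfl (Prod.ext rfl ?_)
  refine Matrix.ext fun i j => ?_
  fin_cases i <;> fin_cases j <;> simp

theorem Hm4_transpose (w : KW F) : (Hm4 w)ᵀ = -Hm4 w := by
  rw [Hm4_apply]
  refine Matrix.ext fun i j => ?_
  fin_cases i <;> fin_cases j <;> simp

theorem Hm4_Hinv4_of (Y : Matrix (Fin 4) (Fin 4) F) (hY : Yᵀ = -Y) (hd : ∀ i, Y i i = 0) :
    Hm4 (Hinv4 Y) = Y := by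
  have h : ∀ i j, Y j i = -Y i j := fun i j => by
    have h0 := congrFun (congrFun hY i) j
    simpa using h0
  rw [Hinv4_apply, Hm4_apply]
  refine Matrix.ext fun i j => ?_
  fin_cases i <;> fin_cases j <;>
    simp [h 0 1, h 0 2, h 0 3, h 1 2, h 1 3, h 2 3, hd]

theorem conj_diag4 (g : Matrix (Fin 4) (Fin 4) F) (w : KW F) (i : Fin 4) :
    (g * Hm4 w * gᵀ) i i = 0 := by
  rw [Hm4_apply]
  simp [Matrix.mul_apply, Fin.sum_univ_four]
  ring

theorem Hm4_Hinv4_conj (g : Matrix (Fin 4) (Fin 4) F) (w : KW F) :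
    Hm4 (Hinv4 (g * Hm4 w * gᵀ)) = g * Hm4 w * gᵀ := by
  apply Hm4_Hinv4_of
  · rw [Matrix.transpose_mul, Matrix.transpose_mul, Matrix.transpose_transpose, Hm4_transpose,
      Matrix.neg_mul, Matrix.mul_neg, Matrix.mul_assoc]
  · exact conj_diag4 g w

/-- `X ↦ g X gᵀ` -/
def conj4 (g : Matrix (Fin 4) (Fin 4) F) : Module.End F (Matrix (Fin 4) (Fin 4) F) where
  toFun X := g * X * gᵀ
  map_add' X Y := by rw [Matrix.mul_add, Matrix.add_mul]
  map_smul' c X := by simp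

/-- the action of `M₄(F)` on the model space -/
def act4 : Matrix (Fin 4) (Fin 4) F →* Module.End F (KW F) where
  toFun g := Hinv4 ∘ₗ conj4 g ∘ₗ Hm4
  map_one' := by
    refine LinearMap.ext fun w => ?_
    show Hinv4 (1 * Hm4 w * 1ᵀ) = w
    rw [Matrix.transpose_one, Matrix.one_mul, Matrix.mul_one, Hinv4_Hm4]
  map_mul' g h := by
    refine LinearMap.ext fun w => ?_
    show Hinv4 ((g * h) * Hm4 w * (g * h)ᵀ) = Hinv4 (g * Hm4 (Hinv4 (h * Hm4 w * hᵀ)) * gᵀ)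
    rw [Hm4_Hinv4_conj, Matrix.transpose_mul]
    simp only [Matrix.mul_assoc]

theorem act4_apply (g : Matrix (Fin 4) (Fin 4) F) (w : KW F) :
    act4 g w = Hinv4 (g * Hm4 w * gᵀ) := rfl

theorem Hm4_act4 (g : Matrix (Fin 4) (Fin 4) F) (w : KW F) :
    Hm4 (act4 g w) = g * Hm4 w * gᵀ := Hm4_Hinv4_conj g w

theorem hypN_act4 (g : Matrix (Fin 4) (Fin 4) F) (w : KW F) :
    hypN kN₀ (act4 g w) = g.det * hypN kN₀ w := by
  rw [act4_apply, Hinv4_apply, Hm4_apply, det4]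
  simp only [hypN, kN₀, Matrix.det_fin_two, Matrix.mul_apply, Fin.sum_univ_four,
    Matrix.transpose_apply]
  simp
  ring


theorem conj_entry (g : Matrix (Fin 4) (Fin 4) F) (w : KW F) (k l : Fin 4) :
    (g * Hm4 w * gᵀ) k l = (g k 0 * g l 1 - g k 1 * g l 0) * w.1
      + (g k 2 * g l 3 - g k 3 * g l 2) * w.2.1
      + (g k 0 * g l 2 - g k 2 * g l 0) * w.2.2 0 0
      + (g k 0 * g l 3 - g k 3 * g l 0) * w.2.2 0 1
      + (g k 1 * g l 2 - g k 2 * g l 1) * w.2.2 1 0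
      + (g k 1 * g l 3 - g k 3 * g l 1) * w.2.2 1 1 := by
  rw [Hm4_apply]
  simp [Matrix.mul_apply, Fin.sum_univ_four]
  ring

theorem kw_ext {u v : KW F} (h1 : u.1 = v.1) (h2 : u.2.1 = v.2.1) (h00 : u.2.2 0 0 = v.2.2 0 0)
    (h01 : u.2.2 0 1 = v.2.2 0 1) (h10 : u.2.2 1 0 = v.2.2 1 0) (h11 : u.2.2 1 1 = v.2.2 1 1) :
    u = v := by
  refine Prod.ext h1 (Prod.ext h2 ?_)
  refine Matrix.ext fun i j => ?_
  fin_cases i <;> fin_cases j
  · exact h00
  · exact h01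
  · exact h10
  · exact h11

theorem act4_fst (g : Matrix (Fin 4) (Fin 4) F) (w : KW F) :
    (act4 g w).1 = (g * Hm4 w * gᵀ) 0 1 := rfl

theorem act4_snd (g : Matrix (Fin 4) (Fin 4) F) (w : KW F) :
    (act4 g w).2.1 = (g * Hm4 w * gᵀ) 2 3 := rfl

theorem act4_00 (g : Matrix (Fin 4) (Fin 4) F) (w : KW F) :
    (act4 g w).2.2 0 0 = (g * Hm4 w * gᵀ) 0 2 := rfl

theorem act4_01 (g : Matrix (Fin 4) (Fin 4) F) (w : KW F) :
    (act4 g w).2.2 0 1 = (g * Hm4 w * gᵀ) 0 3 := rfl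

theorem act4_10 (g : Matrix (Fin 4) (Fin 4) F) (w : KW F) :
    (act4 g w).2.2 1 0 = (g * Hm4 w * gᵀ) 1 2 := rfl

theorem act4_11 (g : Matrix (Fin 4) (Fin 4) F) (w : KW F) :
    (act4 g w).2.2 1 1 = (g * Hm4 w * gᵀ) 1 3 := rfl

/-- the Hodge star -/
def starLin : Module.End F (KW F) where
  toFun w := (w.2.1, w.1, !![-w.2.2 1 1, w.2.2 1 0; w.2.2 0 1, -w.2.2 0 0])
  map_add' u v := by
    apply kw_ext <;> simp <;> ring
  map_smul' c v := by
    apply kw_ext <;> simp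

theorem starLin_apply (w : KW F) :
    starLin w = (w.2.1, w.1, !![-w.2.2 1 1, w.2.2 1 0; w.2.2 0 1, -w.2.2 0 0]) := rfl

theorem act4_transpose_star (g : Matrix (Fin 4) (Fin 4) F) (w : KW F) :
    act4 gᵀ (starLin (act4 g w)) = g.det • starLin w := by
  rw [det4]
  apply kw_ext
  · simp only [act4_fst, act4_snd, act4_00, act4_01, act4_10, act4_11, conj_entry, starLin_apply,
      Matrix.transpose_apply, Prod.smul_mk, smul_eq_mul]
    simp
    ring
  · simp only [act4_fst, act4_snd, act4_00, act4_01, act4_10, act4_11, conj_entry, starLin_apply,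
      Matrix.transpose_apply, Prod.smul_mk, smul_eq_mul]
    simp
    ring
  · simp only [act4_fst, act4_snd, act4_00, act4_01, act4_10, act4_11, conj_entry, starLin_apply,
      Matrix.transpose_apply, Prod.smul_mk, smul_eq_mul]
    simp
    ring
  · simp only [act4_fst, act4_snd, act4_00, act4_01, act4_10, act4_11, conj_entry, starLin_apply,
      Matrix.transpose_apply, Prod.smul_mk, smul_eq_mul]
    simp
    ring
  · simp only [act4_fst, act4_snd, act4_00, act4_01, act4_10, act4_11, conj_entry, starLin_apply,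
      Matrix.transpose_apply, Prod.smul_mk, smul_eq_mul]
    simp
    ring
  · simp only [act4_fst, act4_snd, act4_00, act4_01, act4_10, act4_11, conj_entry, starLin_apply,
      Matrix.transpose_apply, Prod.smul_mk, smul_eq_mul]
    simp
    ring

end Cfsg.Agent.Lib.Helper99.Klein
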