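import Mathlib
import Cfsg.Prelude.Def_ChevB2
import Cfsg.Agent.Lib.Helper99.Klein

/-!
# The Chevalley group of type `B₂` and the adjoint representation of `Sp₄`

`Sp₄(F)` acts on the symmetric `4 × 4` matrices by `S ↦ g S gᵀ`; in a suitable basis the root
elements `1 + t e_r` of `Sp₄(F)` act as the generators `x_r(t)` of the Chevalley group of type `B₂`.
-/

set_option autoImplicit false
set_option linter.unusedSectionVars false
set_option linter.unnecessarySeqFocus false

namespace Cfsg.Agent.Lib.Helper99.B2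

open Cfsg Cfsg.Lie Matrix Cfsg.Agent.Lib.Helper99 Cfsg.Agent.Lib.Helper99.Klein

variable {F : Type*} [Field F]

/-- the index set of the Chevalley basis: two coroots and eight roots -/
abbrev I10 : Type := Fin 2 ⊕ Fin 8

/-- the root elements of `Sp₄` (for the form `J4`) -/
def xs (r : Fin 8) (t : F) : Matrix (Fin 4) (Fin 4) F :=
  match r with
  | 0 => !![1, 0, 0, 0; 0, 1, 0, 0; t, 0, 1, 0; 0, 0, 0, 1]
  | 1 => !![1, 0, 0, 0; 0, 1, 0, 0; 0, t, 1, 0; t, 0, 0, 1]
  | 2 => !![1, 0, 0, 0; t, 1, 0, 0; 0, 0, 1, -t; 0, 0, 0, 1]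
  | 3 => !![1, 0, 0, 0; 0, 1, 0, 0; 0, 0, 1, 0; 0, -t, 0, 1]
  | 4 => !![1, 0, 0, 0; 0, 1, 0, -t; 0, 0, 1, 0; 0, 0, 0, 1]
  | 5 => !![1, t, 0, 0; 0, 1, 0, 0; 0, 0, 1, 0; 0, 0, -t, 1]
  | 6 => !![1, 0, 0, t; 0, 1, t, 0; 0, 0, 1, 0; 0, 0, 0, 1]
  | 7 => !![1, 0, t, 0; 0, 1, 0, 0; 0, 0, 1, 0; 0, 0, 0, 1]

/-- the symmetric matrix with given coordinates in the Chevalley basis -/
def sMap : (I10 → F) →ₗ[F] Matrix (Fin 4) (Fin 4) F where
  toFun c := !![c (Sum.inr 7), c (Sum.inr 6), -c (Sum.inl 0), -c (Sum.inr 5);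
    c (Sum.inr 6), -c (Sum.inr 4), -c (Sum.inr 2), c (Sum.inl 0) - c (Sum.inl 1);
    -c (Sum.inl 0), -c (Sum.inr 2), -c (Sum.inr 0), -c (Sum.inr 1);
    -c (Sum.inr 5), c (Sum.inl 0) - c (Sum.inl 1), -c (Sum.inr 1), c (Sum.inr 3)]
  map_add' u v := by
    refine Matrix.ext fun i j => ?_
    fin_cases i <;> fin_cases j <;> simp <;> ring
  map_smul' a v := by
    refine Matrix.ext fun i j => ?_
    fin_cases i <;> fin_cases j <;> simp <;> ring

theorem sMap_apply (c : I10 → F) : sMap c =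
    !![c (Sum.inr 7), c (Sum.inr 6), -c (Sum.inl 0), -c (Sum.inr 5);
    c (Sum.inr 6), -c (Sum.inr 4), -c (Sum.inr 2), c (Sum.inl 0) - c (Sum.inl 1);
    -c (Sum.inl 0), -c (Sum.inr 2), -c (Sum.inr 0), -c (Sum.inr 1);
    -c (Sum.inr 5), c (Sum.inl 0) - c (Sum.inl 1), -c (Sum.inr 1), c (Sum.inr 3)] := rfl

/-- the coordinates of a symmetric matrix in the Chevalley basis -/
def rMap : Matrix (Fin 4) (Fin 4) F →ₗ[F] (I10 → F) where
  toFun S := Sum.elim ![-S 0 2, -S 0 2 - S 1 3]
    ![-S 2 2, -S 2 3, -S 1 2, S 3 3, -S 1 1, -S 0 3, S 0 1, S 0 0]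
  map_add' S T := by
    funext i
    rcases i with i | i <;> fin_cases i <;> simp <;> ring
  map_smul' a S := by
    funext i
    rcases i with i | i <;> fin_cases i <;> simp <;> ring

theorem rMap_apply (S : Matrix (Fin 4) (Fin 4) F) : rMap S = Sum.elim ![-S 0 2, -S 0 2 - S 1 3]
    ![-S 2 2, -S 2 3, -S 1 2, S 3 3, -S 1 1, -S 0 3, S 0 1, S 0 0] := rfl

theorem rMap_sMap (c : I10 → F) : rMap (sMap c) = c := by
  funext i
  rw [rMap_apply, sMap_apply]
  rcases i with i | i <;> fin_cases i <;> simp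

theorem sMap_transpose (c : I10 → F) : (sMap c)ᵀ = sMap c := by
  refine Matrix.ext fun i j => ?_
  rw [sMap_apply]
  fin_cases i <;> fin_cases j <;> simp

theorem sMap_rMap (S : Matrix (Fin 4) (Fin 4) F) (hS : Sᵀ = S) : sMap (rMap S) = S := by
  have h10 : S 1 0 = S 0 1 := congrFun (congrFun hS 0) 1
  have h20 : S 2 0 = S 0 2 := congrFun (congrFun hS 0) 2
  have h30 : S 3 0 = S 0 3 := congrFun (congrFun hS 0) 3
  have h21 : S 2 1 = S 1 2 := congrFun (congrFun hS 1) 2
  have h31 : S 3 1 = S 1 3 := congrFun (congrFun hS 1) 3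
  have h32 : S 3 2 = S 2 3 := congrFun (congrFun hS 2) 3
  refine Matrix.ext fun i j => ?_
  rw [sMap_apply, rMap_apply]
  fin_cases i <;> fin_cases j <;> simp [h10, h20, h30, h21, h31, h32]

/-- the adjoint action of `4 × 4` matrices on the coordinates of symmetric matrices -/
def phi : Matrix (Fin 4) (Fin 4) F →* Module.End F (I10 → F) where
  toFun g := rMap ∘ₗ conj4 g ∘ₗ sMap
  map_one' := by
    refine LinearMap.ext fun c => ?_
    show rMap (1 * sMap c * 1ᵀ) = c
    rw [Matrix.transpose_one, Matrix.one_mul, Matrix.mul_one, rMap_sMap]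
  map_mul' g h := by
    refine LinearMap.ext fun c => ?_
    show rMap ((g * h) * sMap c * (g * h)ᵀ) = rMap (g * sMap (rMap (h * sMap c * hᵀ)) * gᵀ)
    rw [sMap_rMap, Matrix.transpose_mul]
    · simp only [Matrix.mul_assoc]
    · rw [Matrix.transpose_mul, Matrix.transpose_mul, Matrix.transpose_transpose, sMap_transpose,
        Matrix.mul_assoc]

theorem phi_apply (g : Matrix (Fin 4) (Fin 4) F) (c : I10 → F) :
    phi g c = rMap (g * sMap c * gᵀ) := rfl

/-- the image of a symmetric matrix -/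
theorem sMap_phi (g : Matrix (Fin 4) (Fin 4) F) (c : I10 → F) :
    sMap (phi g c) = g * sMap c * gᵀ := by
  rw [phi_apply, sMap_rMap]
  rw [Matrix.transpose_mul, Matrix.transpose_mul, Matrix.transpose_transpose, sMap_transpose,
    Matrix.mul_assoc]

/-- the generators of the Chevalley group of type `B₂` -/
def xm (r : Fin 8) (t : F) : Matrix I10 I10 F := chevB2.xMat F r t

theorem xm_apply (r : Fin 8) (t : F) (row col : I10) : xm r t row col =
    match col with
    | Sum.inl i =>
      (match row with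
       | Sum.inl i' => if i' = i then 1 else 0
       | Sum.inr u => if u = r then
          - (((chevB2.cartanSR.getD i.val #[]).getD r.val 0 : ℤ) : F) * t else 0)
    | Sum.inr s =>
      if s = r then (match row with | Sum.inr u => if u = r then 1 else 0 | Sum.inl _ => 0)
      else if s.val = chevB2.negIdx.getD r.val 0 then
        (match row with
         | Sum.inl i => (((chevB2.coroot.getD r.val #[]).getD i.val 0 : ℤ) : F) * t
         | Sum.inr u => if u = s then 1 else if u = r then -(t ^ 2) else 0)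
      else
        (match row with
         | Sum.inl _ => 0
         | Sum.inr u => (if u = s then 1 else 0) +
             ((chevB2.chainCoeff r.val s.val u.val).map fun km => ((km.2 : ℤ) : F) * t ^ km.1).sum) := by
  rcases row with i' | u <;> rcases col with i | s <;> rfl

end Cfsg.Agent.Lib.Helper99.B2
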