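import Mathlib
import Cfsg.Prelude.Def_ChevB2
import Cfsg.Agent.Lib.Helper99.Klein
import Cfsg.Agent.Lib.Helper99.B2Basis

/-!
# The root elements of `Sp₄` act as the generators of the Chevalley group of type `B₂`
-/

set_option autoImplicit false
set_option linter.unusedSectionVars false
set_option linter.unnecessarySeqFocus false

namespace Cfsg.Agent.Lib.Helper99.B2

open Cfsg Cfsg.Lie Matrix Cfsg.Agent.Lib.Helper99 Cfsg.Agent.Lib.Helper99.Klein

variable {F : Type*} [Field F]

set_option maxHeartbeats 4000000 in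
/-- the root element `1 + t e_r` of `Sp₄` acts as `x_r(t)` -/
theorem phi_xs (r : Fin 8) (t : F) (c : I10 → F) : phi (xs r t) c = xm r t *ᵥ c := by
  funext i
  rw [phi_apply, rMap_apply, sMap_apply]
  fin_cases r <;> rcases i with i | i <;> fin_cases i <;>
    simp [xs, Matrix.mulVec, dotProduct, Fintype.sum_sum_type, Fin.sum_univ_two, Fin.sum_univ_eight,
      xm_apply, chevB2, chevB2CartanSR, chevB2Coroot, chevB2NegIdx, chevB2Chain,
      ChevalleyDatum.chainCoeff, chevB2Chain0, chevB2Chain1, chevB2Chain2, chevB2Chain3,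
      chevB2Chain4, chevB2Chain5, chevB2Chain6, chevB2Chain7, Matrix.mul_apply, Fin.sum_univ_four] <;>
    ring

theorem phi_xs_eq (r : Fin 8) (t : F) : phi (xs r t) = Matrix.toLin' (xm r t) :=
  LinearMap.ext fun c => by rw [phi_xs, Matrix.toLin'_apply]

end Cfsg.Agent.Lib.Helper99.B2
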