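import Mathlib
import Cfsg.Prelude.Def_Classical
import Cfsg.Agent.Lib.Helper99.IsoModel
import Cfsg.Agent.Lib.Helper99.HypExt
import Cfsg.Agent.Lib.Helper99.Klein
import Cfsg.Agent.S0299

/-!
# The isometry group of the Klein quadric is generated by `SL₄(F)` and a complement
-/

set_option autoImplicit false
set_option linter.unusedSectionVars false
set_option linter.unnecessarySeqFocus false

namespace Cfsg.Agent.Lib.Helper99.Klein

open Cfsg Matrix Cfsg.Agent.Lib.Helper99
open scoped commutatorElement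

variable {F : Type*} [Field F]

theorem act4_hex (g : Matrix (Fin 4) (Fin 4) F) :
    act4 g hex = (g 0 0 * g 1 1 - g 0 1 * g 1 0, g 2 0 * g 3 1 - g 2 1 * g 3 0,
      !![g 0 0 * g 2 1 - g 0 1 * g 2 0, g 0 0 * g 3 1 - g 0 1 * g 3 0;
         g 1 0 * g 2 1 - g 1 1 * g 2 0, g 1 0 * g 3 1 - g 1 1 * g 3 0]) := by
  apply kw_ext <;>
    simp [act4_fst, act4_snd, act4_00, act4_01, act4_10, act4_11, conj_entry, hex]

theorem act4_hey (g : Matrix (Fin 4) (Fin 4) F) :
    act4 g hey = (g 0 2 * g 1 3 - g 0 3 * g 1 2, g 2 2 * g 3 3 - g 2 3 * g 3 2,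
      !![g 0 2 * g 2 3 - g 0 3 * g 2 2, g 0 2 * g 3 3 - g 0 3 * g 3 2;
         g 1 2 * g 2 3 - g 1 3 * g 2 2, g 1 2 * g 3 3 - g 1 3 * g 3 2]) := by
  apply kw_ext <;>
    simp [act4_fst, act4_snd, act4_00, act4_01, act4_10, act4_11, conj_entry, hey]

theorem exists_move_hex_of_ne (u : KW F) (hx : u.1 ≠ 0) (hN : hypN kN₀ u = 0) :
    ∃ g : Matrix (Fin 4) (Fin 4) F, g.det = 1 ∧ act4 g hex = u := by
  obtain ⟨x, y, B⟩ := u
  have hx' : x ≠ 0 := hx
  have hN' : x * y = B 0 0 * B 1 1 - B 0 1 * B 1 0 := by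
    have h := hN
    simp only [hypN, kN₀, Matrix.det_fin_two] at h
    linear_combination h
  refine ⟨!![x, 0, 0, 0; 0, 1, 0, 0; -B 1 0, B 0 0 / x, x⁻¹, 0; -B 1 1, B 0 1 / x, 0, 1], ?_, ?_⟩
  · rw [det4]
    simp
    field_simp
  · rw [act4_hex]
    apply kw_ext
    · simp
    · simp
      field_simp
      linear_combination -hN'
    · simp
      field_simp
    · simp
      field_simp
    · simp
    · simp

theorem exists_first_ne (u : KW F) (hu : u ≠ 0) :
    ∃ h : Matrix (Fin 4) (Fin 4) F, h.det = 1 ∧ (act4 h u).1 ≠ 0 := by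
  obtain ⟨x, y, B⟩ := u
  by_cases hx : x = 0
  · by_cases hy : y = 0
    · by_cases h00 : B 0 0 = 0
      · by_cases h01 : B 0 1 = 0
        · by_cases h10 : B 1 0 = 0
          · have h11 : B 1 1 ≠ 0 := by
              intro h11
              apply hu
              apply kw_ext
              · exact hx
              · exact hy
              · exact h00
              · exact h01
              · exact h10
              · exact h11
            refine ⟨!![0, 1, 0, 0; 0, 0, 0, 1; 0, 0, 1, 0; 1, 0, 0, 0], ?_, ?_⟩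
            · rw [det4]; simp
            · rw [act4_fst, conj_entry]
              simpa using h11
          · refine ⟨!![0, 1, 0, 0; 0, 0, 1, 0; 1, 0, 0, 0; 0, 0, 0, 1], ?_, ?_⟩
            · rw [det4]; simp
            · rw [act4_fst, conj_entry]
              simpa using h10
        · refine ⟨!![1, 0, 0, 0; 0, 0, 0, 1; 0, 0, 1, 0; 0, -1, 0, 0], ?_, ?_⟩
          · rw [det4]; simp
          · rw [act4_fst, conj_entry]
            simpa using h01
      · refine ⟨!![1, 0, 0, 0; 0, 0, 1, 0; 0, -1, 0, 0; 0, 0, 0, 1], ?_, ?_⟩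
        · rw [det4]; simp
        · rw [act4_fst, conj_entry]
          simpa using h00
    · refine ⟨!![0, 0, 1, 0; 0, 0, 0, 1; -1, 0, 0, 0; 0, -1, 0, 0], ?_, ?_⟩
      · rw [det4]; simp
      · rw [act4_fst, conj_entry]
        simpa using hy
  · refine ⟨1, Matrix.det_one, ?_⟩
    rw [map_one]
    exact hx

theorem exists_move_hex (u : KW F) (hu : u ≠ 0) (hN : hypN kN₀ u = 0) :
    ∃ g : Matrix (Fin 4) (Fin 4) F, g.det = 1 ∧ act4 g hex = u := by
  obtain ⟨h, hh, h1⟩ := exists_first_ne u hu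
  have hN' : hypN kN₀ (act4 h u) = 0 := by rw [hypN_act4, hN, mul_zero]
  obtain ⟨g', hg', h2⟩ := exists_move_hex_of_ne _ h1 hN'
  refine ⟨adjugate h * g', ?_, ?_⟩
  · rw [det_mul, det_adjugate, hh, hg', one_pow, one_mul]
  · rw [map_mul, Module.End.mul_apply, h2, ← Module.End.mul_apply, ← map_mul, adjugate_mul, hh,
      one_smul, map_one, Module.End.one_apply]

theorem exists_move_hey (v : Matrix (Fin 2) (Fin 2) F) :
    ∃ g : Matrix (Fin 4) (Fin 4) F, g.det = 1 ∧ act4 g hex = hex ∧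
      act4 g hey = (-kN₀ v, 1, v) := by
  refine ⟨!![1, 0, v 0 1, -v 0 0; 0, 1, v 1 1, -v 1 0; 0, 0, 1, 0; 0, 0, 0, 1], ?_, ?_, ?_⟩
  · rw [det4]; simp
  · rw [act4_hex]
    apply kw_ext <;> simp [hex]
  · rw [act4_hey]
    apply kw_ext <;> simp [kN₀, Matrix.det_fin_two]
    ring


/-! ### block diagonal matrices -/

/-- block diagonal matrix -/
def bd (P S : Matrix (Fin 2) (Fin 2) F) : Matrix (Fin 4) (Fin 4) F :=
  !![P 0 0, P 0 1, 0, 0; P 1 0, P 1 1, 0, 0; 0, 0, S 0 0, S 0 1; 0, 0, S 1 0, S 1 1]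

theorem det_bd (P S : Matrix (Fin 2) (Fin 2) F) : (bd P S).det = P.det * S.det := by
  rw [det4, det_fin_two, det_fin_two]
  simp [bd]
  ring

theorem act4_bd (P S : Matrix (Fin 2) (Fin 2) F) (w : KW F) :
    act4 (bd P S) w = (P.det * w.1, S.det * w.2.1, P * w.2.2 * Sᵀ) := by
  apply kw_ext <;>
    simp only [act4_fst, act4_snd, act4_00, act4_01, act4_10, act4_11, conj_entry] <;>
    simp [bd, Matrix.det_fin_two, Matrix.mul_apply, Fin.sum_univ_two] <;> ring

theorem hext_lr (A C : Matrix (Fin 2) (Fin 2) F) (hA : A.det = 1) (hC : C.det = 1) :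
    hext (Cfsg.Agent.S0299.lr A C) = act4 (bd A Cᵀ) := by
  refine LinearMap.ext fun w => ?_
  rw [hext_apply, act4_bd, Cfsg.Agent.S0299.lr_apply, hA, det_transpose, hC, one_mul, one_mul,
    transpose_transpose]

/-! ### the complement -/

/-- `(x, y, B) ↦ (t x, t⁻¹ y, B)` -/
def kdLin (t : F) : Module.End F (KW F) where
  toFun w := (t * w.1, t⁻¹ * w.2.1, w.2.2)
  map_add' u v := by
    refine Prod.ext ?_ (Prod.ext ?_ rfl) <;> simp <;> ring
  map_smul' c v := by
    refine Prod.ext ?_ (Prod.ext ?_ rfl) <;> simp <;> ring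

theorem kdLin_apply (t : F) (w : KW F) : kdLin t w = (t * w.1, t⁻¹ * w.2.1, w.2.2) := rfl

theorem kdLin_mul (s t : F) : kdLin (F := F) s * kdLin t = kdLin (s * t) := by
  refine LinearMap.ext fun w => ?_
  rw [Module.End.mul_apply, kdLin_apply, kdLin_apply, kdLin_apply]
  refine Prod.ext ?_ (Prod.ext ?_ rfl) <;> simp <;> ring

theorem kdLin_one : kdLin (F := F) 1 = 1 := by
  refine LinearMap.ext fun w => ?_
  rw [kdLin_apply]
  simp

theorem hypN_kdLin (t : F) (ht : t ≠ 0) (w : KW F) : hypN kN₀ (kdLin t w) = hypN kN₀ w := by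
  rw [kdLin_apply, hypN, hypN]
  simp
  field_simp

/-- the diagonal `(t, t, 1, 1)` -/
def dv (t : F) : Fin 4 → F := ![t, t, 1, 1]

theorem dv_ne (t : F) (ht : t ≠ 0) (i : Fin 4) : dv t i ≠ 0 := by
  fin_cases i <;> simp [dv, ht]

/-- conjugation by the diagonal matrix `(t, t, 1, 1)` -/
def cj4 (t : F) (M : Matrix (Fin 4) (Fin 4) F) : Matrix (Fin 4) (Fin 4) F :=
  Matrix.of fun i j => dv t i * M i j * (dv t j)⁻¹

theorem diag_mul4 (t : F) (ht : t ≠ 0) (M : Matrix (Fin 4) (Fin 4) F) :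
    Matrix.diagonal (dv t) * M = cj4 t M * Matrix.diagonal (dv t) := by
  refine Matrix.ext fun i j => ?_
  rw [Matrix.diagonal_mul, Matrix.mul_diagonal, cj4, Matrix.of_apply]
  have := dv_ne t ht j
  field_simp

theorem det_cj4 (t : F) (ht : t ≠ 0) (M : Matrix (Fin 4) (Fin 4) F) : (cj4 t M).det = M.det := by
  have h := congrArg Matrix.det (diag_mul4 t ht M)
  rw [det_mul, det_mul, mul_comm] at h
  have hd : (Matrix.diagonal (dv t)).det ≠ 0 := by
    rw [Matrix.det_diagonal, Finset.prod_ne_zero_iff]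
    intro i _
    exact dv_ne t ht i
  exact (mul_right_cancel₀ hd h).symm

theorem kdLin_eq (t : F) (ht : t ≠ 0) :
    kdLin (F := F) t = t⁻¹ • act4 (Matrix.diagonal (dv t)) := by
  refine LinearMap.ext fun w => ?_
  rw [LinearMap.smul_apply, kdLin_apply]
  apply kw_ext <;>
    simp only [Prod.smul_fst, Prod.smul_snd, Matrix.smul_apply, smul_eq_mul, act4_fst, act4_snd,
      act4_00, act4_01, act4_10, act4_11, conj_entry] <;>
    simp [dv] <;> field_simp

theorem kdLin_mul_act4 (t : F) (ht : t ≠ 0) (M : Matrix (Fin 4) (Fin 4) F) :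
    kdLin t * act4 M = act4 (cj4 t M) * kdLin t := by
  rw [kdLin_eq t ht, smul_mul_assoc, mul_smul_comm, ← map_mul, ← map_mul, diag_mul4 t ht]

/-- the adjugate on the `M₂` part -/
def kalphaLin : Module.End F (KW F) := hext Cfsg.Agent.S0299.adjLin

theorem kalphaLin_apply (w : KW F) :
    kalphaLin w = (w.1, w.2.1, !![w.2.2 1 1, -w.2.2 0 1; -w.2.2 1 0, w.2.2 0 0]) := rfl

theorem kalphaLin_mul_self : kalphaLin (F := F) * kalphaLin = 1 := by
  rw [kalphaLin, ← hext_mul, Cfsg.Agent.S0299.adjLin_mul_self, hext_one]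

theorem hypN_kalphaLin (w : KW F) : hypN kN₀ (kalphaLin w) = hypN kN₀ w := by
  apply hypN_hext
  intro v
  rw [kN₀, kN₀, Cfsg.Agent.S0299.det_adjLin]

theorem kdLin_kalphaLin_comm (t : F) : kdLin (F := F) t * kalphaLin = kalphaLin * kdLin t := by
  refine LinearMap.ext fun w => ?_
  rfl

/-- the matrix whose action composed with the Hodge star is the adjugate on the `M₂` part -/
def g0 : Matrix (Fin 4) (Fin 4) F :=
  !![0, 0, -1, 0; 0, 0, 0, -1; -1, 0, 0, 0; 0, -1, 0, 0]

theorem det_g0 : (g0 (F := F)).det = 1 := by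
  rw [det4]
  simp [g0]

theorem kalphaLin_eq : kalphaLin (F := F) = act4 g0 * starLin := by
  refine LinearMap.ext fun w => ?_
  rw [Module.End.mul_apply, kalphaLin_apply, starLin_apply]
  apply kw_ext <;>
    simp only [act4_fst, act4_snd, act4_00, act4_01, act4_10, act4_11, conj_entry] <;>
    simp [g0]

theorem starLin_mul_act4 (g : Matrix (Fin 4) (Fin 4) F) (hg : g.det = 1) :
    starLin * act4 g = act4 (adjugate g)ᵀ * starLin := by
  refine LinearMap.ext fun w => ?_
  rw [Module.End.mul_apply, Module.End.mul_apply]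
  have h := act4_transpose_star g w
  rw [hg, one_smul] at h
  rw [← h, ← Module.End.mul_apply (act4 (adjugate g)ᵀ) (act4 gᵀ), ← map_mul,
    ← Matrix.transpose_mul, Matrix.mul_adjugate, hg, one_smul, Matrix.transpose_one, map_one,
    Module.End.one_apply]

theorem kalphaLin_mul_act4 (g : Matrix (Fin 4) (Fin 4) F) (hg : g.det = 1) :
    kalphaLin * act4 g = act4 (g0 * (adjugate g)ᵀ * adjugate g0) * kalphaLin := by
  rw [kalphaLin_eq, mul_assoc, starLin_mul_act4 g hg, ← mul_assoc, ← mul_assoc, ← map_mul,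
    ← map_mul, Matrix.mul_assoc, Matrix.mul_assoc, Matrix.adjugate_mul, det_g0, one_smul,
    Matrix.mul_one]


/-! ### the group level -/

/-- the action of `SL₄(F)` -/
def kslHom : Matrix.SpecialLinearGroup (Fin 4) F →* Module.End F (KW F) where
  toFun g := act4 g.1
  map_one' := by simp
  map_mul' g h := by simp

/-- the action of `SL₄(F)` as a hom to the isometry group of the model -/
def kf : Matrix.SpecialLinearGroup (Fin 4) F →* isoUnits (F := F) (W := KW F) (hypN kN₀) :=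
  liftU _ kslHom (fun g w => by
    show hypN kN₀ (act4 g.1 w) = hypN kN₀ w
    rw [hypN_act4, g.2, one_mul])

theorem appHom_kf (g : Matrix.SpecialLinearGroup (Fin 4) F) :
    appHom (hypN kN₀) (kf g) = act4 g.1 := rfl

/-- the diagonal isometry `(x, y, B) ↦ (t x, t⁻¹ y, B)` -/
def kdd (t : F) (ht : t ≠ 0) : isoUnits (F := F) (W := KW F) (hypN kN₀) :=
  mkU _ (kdLin t) (kdLin t⁻¹) (by rw [kdLin_mul, mul_inv_cancel₀ ht, kdLin_one])
    (by rw [kdLin_mul, inv_mul_cancel₀ ht, kdLin_one]) (hypN_kdLin t ht)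

theorem appHom_kdd (t : F) (ht : t ≠ 0) : appHom (hypN kN₀) (kdd t ht) = kdLin t := rfl

/-- the adjugate on the `M₂` part, as an isometry -/
def kalpha : isoUnits (F := F) (W := KW F) (hypN kN₀) :=
  mkU _ kalphaLin kalphaLin kalphaLin_mul_self kalphaLin_mul_self hypN_kalphaLin

theorem appHom_kalpha : appHom (hypN kN₀) (kalpha (F := F)) = kalphaLin := rfl

/-- the generators of the complement -/
def KS : Set (isoUnits (F := F) (W := KW F) (hypN kN₀)) :=
  {k | (∃ (t : F) (ht : t ≠ 0), k = kdd t ht) ∨ k = kalpha}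

theorem KS_inv (k : isoUnits (F := F) (W := KW F) (hypN kN₀)) (hk : k ∈ KS) : k⁻¹ ∈ KS := by
  rcases hk with ⟨t, ht, rfl⟩ | rfl
  · refine Or.inl ⟨t⁻¹, inv_ne_zero ht, ?_⟩
    rw [inv_eq_iff_mul_eq_one]
    apply appHom_injective
    rw [map_mul, appHom_kdd, appHom_kdd, kdLin_mul, mul_inv_cancel₀ ht, kdLin_one, map_one]
  · refine Or.inr ?_
    rw [inv_eq_iff_mul_eq_one]
    apply appHom_injective
    rw [map_mul, appHom_kalpha, kalphaLin_mul_self, map_one]

theorem KS_mul_kf (k : isoUnits (F := F) (W := KW F) (hypN kN₀)) (hk : k ∈ KS)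
    (g : Matrix.SpecialLinearGroup (Fin 4) F) : ∃ g', k * kf g = kf g' * k := by
  rcases hk with ⟨t, ht, rfl⟩ | rfl
  · obtain ⟨g', hg'⟩ : ∃ g' : Matrix.SpecialLinearGroup (Fin 4) F, g'.1 = cj4 t g.1 :=
      ⟨⟨cj4 t g.1, by rw [det_cj4 t ht, g.2]⟩, rfl⟩
    refine ⟨g', ?_⟩
    apply appHom_injective
    rw [map_mul, map_mul]
    show kdLin t * act4 g.1 = act4 g'.1 * kdLin t
    rw [hg']
    exact kdLin_mul_act4 t ht g.1
  · obtain ⟨g', hg'⟩ : ∃ g' : Matrix.SpecialLinearGroup (Fin 4) F,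
        g'.1 = g0 * (adjugate g.1)ᵀ * adjugate g0 :=
      ⟨⟨g0 * (adjugate g.1)ᵀ * adjugate g0, by
        rw [det_mul, det_mul, det_transpose, det_adjugate, det_adjugate, det_g0, g.2]
        simp⟩, rfl⟩
    refine ⟨g', ?_⟩
    apply appHom_injective
    rw [map_mul, map_mul]
    show kalphaLin * act4 g.1 = act4 g'.1 * kalphaLin
    rw [hg']
    exact kalphaLin_mul_act4 g.1 g.2

theorem KS_conj (k : isoUnits (F := F) (W := KW F) (hypN kN₀)) (hk : k ∈ KS)
    (n : isoUnits (F := F) (W := KW F) (hypN kN₀)) (hn : n ∈ (kf (F := F)).range) :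
    k * n * k⁻¹ ∈ (kf (F := F)).range ∧ k⁻¹ * n * k ∈ (kf (F := F)).range := by
  obtain ⟨g, rfl⟩ := hn
  constructor
  · obtain ⟨g', hg'⟩ := KS_mul_kf k hk g
    exact ⟨g', by rw [hg']; group⟩
  · obtain ⟨g', hg'⟩ := KS_mul_kf k⁻¹ (KS_inv k hk) g
    refine ⟨g', ?_⟩
    have : k⁻¹ * kf g * k = k⁻¹ * kf g * k⁻¹⁻¹ := by rw [inv_inv]
    rw [this, hg']; group

theorem KS_comm (x : isoUnits (F := F) (W := KW F) (hypN kN₀)) (hx : x ∈ KS)
    (y : isoUnits (F := F) (W := KW F) (hypN kN₀)) (hy : y ∈ KS) :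
    ⁅x, y⁆ ∈ (kf (F := F)).range := by
  have hc : x * y = y * x := by
    rcases hx with ⟨t, ht, rfl⟩ | rfl <;> rcases hy with ⟨t', ht', rfl⟩ | rfl
    · apply appHom_injective
      rw [map_mul, map_mul, appHom_kdd, appHom_kdd, kdLin_mul, kdLin_mul, mul_comm]
    · apply appHom_injective
      rw [map_mul, map_mul, appHom_kdd, appHom_kalpha, kdLin_kalphaLin_comm]
    · apply appHom_injective
      rw [map_mul, map_mul, appHom_kdd, appHom_kalpha, kdLin_kalphaLin_comm]
    · rfl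
  have : Commute x y := hc
  rw [commutatorElement_eq_one_iff_commute.mpr this]
  exact Subgroup.one_mem _

end Cfsg.Agent.Lib.Helper99.Klein
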