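import Mathlib
import Cfsg.Prelude.Def_Classical
import Cfsg.Agent.Lib.Helper99.IsoModel
import Cfsg.Agent.Lib.Helper99.HypExt
import Cfsg.Agent.Lib.Helper99.Klein
import Cfsg.Agent.Lib.Helper99.KleinSurj
import Cfsg.Agent.S0298

/-!
# `Sp₄(F)` acting on the 5-dimensional orthogonal space

The model is `W₅ = F × F × F³`, embedded in the Klein model `F × F × M₂(F)` as the vectors with
trace zero matrix part (the orthogonal complement of the symplectic form); the symplectic group
(reindexed to `Fin 4`) preserves it.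
-/

set_option autoImplicit false
set_option linter.unusedSectionVars false
set_option linter.unnecessarySeqFocus false

namespace Cfsg.Agent.Lib.Helper99.Sp4

open Cfsg Matrix Cfsg.Agent.Lib.Helper99 Cfsg.Agent.Lib.Helper99.Klein Cfsg.Agent.S0298
open scoped commutatorElement

/-- the model space `F × F × F³` -/
abbrev W5 (F : Type*) [Field F] : Type _ := F × F × (I3 → F)

variable {F : Type*} [Field F]

/-- coordinates -/
def psi5 : ((Unit ⊕ (Fin 2 ⊕ Fin 2)) → F) ≃ₗ[F] W5 F where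
  toFun v := (v (.inr (.inl 0)), v (.inr (.inr 0)),
    vec3 (v (.inl ())) (v (.inr (.inl 1))) (v (.inr (.inr 1))))
  invFun w := Sum.elim (fun _ => w.2.2 (.inl ()))
    (Sum.elim ![w.1, w.2.2 (.inr (.inl 0))] ![w.2.1, w.2.2 (.inr (.inr 0))])
  map_add' u v := by
    refine Prod.ext rfl (Prod.ext rfl ?_)
    funext i
    rcases i with ⟨⟩ | i | i <;> rfl
  map_smul' c v := by
    refine Prod.ext rfl (Prod.ext rfl ?_)
    funext i
    rcases i with ⟨⟩ | i | i <;> rfl
  left_inv v := by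
    funext i
    rcases i with ⟨⟩ | i | i
    · rfl
    · fin_cases i <;> rfl
    · fin_cases i <;> rfl
  right_inv w := by
    refine Prod.ext rfl (Prod.ext rfl ?_)
    exact (vec3_eta _).symm

theorem hypN_psi5 (v : (Unit ⊕ (Fin 2 ⊕ Fin 2)) → F) :
    hypN (quadFormOdd 1 F) (psi5 v) = quadFormOdd 2 F v := by
  simp [psi5, hypN, quadFormOdd, Fin.sum_univ_two]
  ring

theorem quadFormOdd_zero : quadFormOdd 1 F (0 : I3 → F) = 0 := by
  simp [quadFormOdd]

/-- the embedding into the Klein model -/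
def iota : W5 F →ₗ[F] KW F where
  toFun w := (w.1, w.2.1, !![w.2.2 (.inl ()), w.2.2 (.inr (.inl 0));
    w.2.2 (.inr (.inr 0)), -w.2.2 (.inl ())])
  map_add' u v := by
    apply kw_ext <;> simp
    ring
  map_smul' c v := by
    apply kw_ext <;> simp

theorem iota_apply (w : W5 F) : iota w = (w.1, w.2.1, !![w.2.2 (.inl ()), w.2.2 (.inr (.inl 0));
    w.2.2 (.inr (.inr 0)), -w.2.2 (.inl ())]) := rfl

/-- the projection from the Klein model -/
def proj : KW F →ₗ[F] W5 F where
  toFun k := (k.1, k.2.1, vec3 (k.2.2 0 0) (k.2.2 0 1) (k.2.2 1 0))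
  map_add' u v := by
    refine Prod.ext rfl (Prod.ext rfl ?_)
    funext i
    rcases i with ⟨⟩ | i | i <;> rfl
  map_smul' c v := by
    refine Prod.ext rfl (Prod.ext rfl ?_)
    funext i
    rcases i with ⟨⟩ | i | i <;> rfl

theorem proj_apply (k : KW F) : proj k = (k.1, k.2.1, vec3 (k.2.2 0 0) (k.2.2 0 1) (k.2.2 1 0)) :=
  rfl

theorem proj_iota (w : W5 F) : proj (iota w) = w := by
  rw [iota_apply, proj_apply]
  refine Prod.ext rfl (Prod.ext rfl ?_)
  exact (vec3_eta _).symm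

theorem iota_injective : Function.Injective (iota (F := F)) := by
  intro u v h
  rw [← proj_iota u, ← proj_iota v, h]

theorem iota_proj (k : KW F) (hk : k.2.2 0 0 + k.2.2 1 1 = 0) : iota (proj k) = k := by
  rw [proj_apply, iota_apply]
  apply kw_ext <;> simp
  linear_combination -hk

theorem hypN_iota (w : W5 F) : hypN kN₀ (iota w) = hypN (quadFormOdd 1 F) w := by
  rw [iota_apply]
  simp [hypN, kN₀, quadFormOdd, Matrix.det_fin_two]
  ring

/-- the symplectic form, on `Fin 4` -/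
def J4 : Matrix (Fin 4) (Fin 4) F := !![0, 0, -1, 0; 0, 0, 0, -1; 1, 0, 0, 0; 0, 1, 0, 0]

theorem tr_act4 (M : Matrix (Fin 4) (Fin 4) F) (h : Mᵀ * J4 * M = J4) (k : KW F) :
    (act4 M k).2.2 0 0 + (act4 M k).2.2 1 1 = k.2.2 0 0 + k.2.2 1 1 := by
  have h01 := congrFun (congrFun h 0) 1
  have h02 := congrFun (congrFun h 0) 2
  have h03 := congrFun (congrFun h 0) 3
  have h12 := congrFun (congrFun h 1) 2
  have h13 := congrFun (congrFun h 1) 3
  have h23 := congrFun (congrFun h 2) 3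
  simp [Matrix.mul_apply, Fin.sum_univ_four, J4] at h01 h02 h03 h12 h13 h23
  rw [act4_00, act4_11, conj_entry, conj_entry]
  linear_combination (-k.1) * h01 + (-k.2.1) * h23 + (-k.2.2 0 0) * h02 + (-k.2.2 0 1) * h03
    + (-k.2.2 1 0) * h12 + (-k.2.2 1 1) * h13

/-- the action on the 5-dimensional model -/
def act5 (M : Matrix (Fin 4) (Fin 4) F) : Module.End F (W5 F) := proj ∘ₗ act4 M ∘ₗ iota

theorem act5_apply (M : Matrix (Fin 4) (Fin 4) F) (w : W5 F) :
    act5 M w = proj (act4 M (iota w)) := rfl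

theorem iota_act5 (M : Matrix (Fin 4) (Fin 4) F) (h : Mᵀ * J4 * M = J4) (w : W5 F) :
    iota (act5 M w) = act4 M (iota w) := by
  rw [act5_apply, iota_proj]
  rw [tr_act4 M h, iota_apply]
  simp

theorem act5_one : act5 (1 : Matrix (Fin 4) (Fin 4) F) = 1 := by
  refine LinearMap.ext fun w => ?_
  rw [act5_apply, map_one, Module.End.one_apply, proj_iota, Module.End.one_apply]

theorem act5_mul (M M' : Matrix (Fin 4) (Fin 4) F) (h' : M'ᵀ * J4 * M' = J4) :
    act5 (M * M') = act5 M * act5 M' := by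
  refine LinearMap.ext fun w => ?_
  rw [Module.End.mul_apply, act5_apply, act5_apply, iota_act5 M' h', map_mul,
    Module.End.mul_apply]

theorem hypN_act5 (M : Matrix (Fin 4) (Fin 4) F) (h : Mᵀ * J4 * M = J4) (hdet : M.det = 1)
    (w : W5 F) : hypN (quadFormOdd 1 F) (act5 M w) = hypN (quadFormOdd 1 F) w := by
  rw [← hypN_iota, iota_act5 M h, hypN_act4, hdet, one_mul, hypN_iota]


/-! ### the symplectic group, reindexed -/

/-- the reindexing `Fin 2 ⊕ Fin 2 ≃ Fin 4` -/
def e4 : Fin 2 ⊕ Fin 2 ≃ Fin 4 where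
  toFun := Sum.elim ![0, 1] ![2, 3]
  invFun := ![Sum.inl 0, Sum.inl 1, Sum.inr 0, Sum.inr 1]
  left_inv := by
    rintro (i | i) <;> fin_cases i <;> rfl
  right_inv := by
    intro i
    fin_cases i <;> rfl

theorem J4_eq : (Matrix.J (Fin 2) F).submatrix e4.symm e4.symm = J4 := by
  refine Matrix.ext fun i j => ?_
  fin_cases i <;> fin_cases j <;> simp [J4, Matrix.J, e4]

/-- a symplectic matrix, reindexed -/
def toM4 : Matrix.symplecticGroup (Fin 2) F →* Matrix (Fin 4) (Fin 4) F where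
  toFun g := g.1.submatrix e4.symm e4.symm
  map_one' := by simp
  map_mul' g h := by
    show (g.1 * h.1).submatrix e4.symm e4.symm = _
    rw [Matrix.submatrix_mul_equiv]

theorem toM4_apply (g : Matrix.symplecticGroup (Fin 2) F) :
    toM4 g = g.1.submatrix e4.symm e4.symm := rfl

theorem toM4_sp (g : Matrix.symplecticGroup (Fin 2) F) : toM4 g * J4 * (toM4 g)ᵀ = J4 := by
  rw [toM4_apply, ← J4_eq, Matrix.transpose_submatrix, Matrix.submatrix_mul_equiv,
    Matrix.submatrix_mul_equiv, SymplecticGroup.mem_iff.mp g.2]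

theorem toM4_sp' (g : Matrix.symplecticGroup (Fin 2) F) : (toM4 g)ᵀ * J4 * toM4 g = J4 := by
  rw [toM4_apply, ← J4_eq, Matrix.transpose_submatrix, Matrix.submatrix_mul_equiv,
    Matrix.submatrix_mul_equiv, SymplecticGroup.mem_iff'.mp g.2]

theorem det_toM4 (g : Matrix.symplecticGroup (Fin 2) F) : (toM4 g).det = 1 := by
  rw [toM4_apply, Matrix.det_submatrix_equiv_self]
  exact SymplecticGroup.det_eq_one g.2

theorem exists_sp_of (M : Matrix (Fin 4) (Fin 4) F) (hM : M * J4 * Mᵀ = J4) :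
    ∃ g : Matrix.symplecticGroup (Fin 2) F, toM4 g = M := by
  have hJ : Matrix.J (Fin 2) F = J4.submatrix e4 e4 := by
    rw [← J4_eq]
    simp
  refine ⟨⟨M.submatrix e4 e4, ?_⟩, ?_⟩
  · rw [SymplecticGroup.mem_iff, hJ, Matrix.transpose_submatrix,
      Matrix.submatrix_mul_equiv, Matrix.submatrix_mul_equiv, hM]
  · rw [toM4_apply]
    simp

/-- the action of `Sp₄(F)` -/
def f5hom : Matrix.symplecticGroup (Fin 2) F →* Module.End F (W5 F) where
  toFun g := act5 (toM4 g)
  map_one' := by rw [map_one, act5_one]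
  map_mul' g h := by rw [map_mul, act5_mul _ _ (toM4_sp' h)]

/-- the action of `Sp₄(F)` as a hom to the isometry group of the model -/
def f5 : Matrix.symplecticGroup (Fin 2) F →*
    isoUnits (F := F) (W := W5 F) (hypN (quadFormOdd 1 F)) :=
  liftU _ f5hom (fun g w => hypN_act5 _ (toM4_sp' g) (det_toM4 g) w)

theorem appHom_f5 (g : Matrix.symplecticGroup (Fin 2) F) :
    appHom (hypN (quadFormOdd 1 F)) (f5 g) = act5 (toM4 g) := rfl

/-! ### the complement -/

/-- `(x, y, v) ↦ (t x, t⁻¹ y, v)` -/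
def kd5Lin (t : F) : Module.End F (W5 F) where
  toFun w := (t * w.1, t⁻¹ * w.2.1, w.2.2)
  map_add' u v := by
    refine Prod.ext ?_ (Prod.ext ?_ rfl) <;> simp <;> ring
  map_smul' c v := by
    refine Prod.ext ?_ (Prod.ext ?_ rfl) <;> simp <;> ring

theorem kd5Lin_apply (t : F) (w : W5 F) : kd5Lin t w = (t * w.1, t⁻¹ * w.2.1, w.2.2) := rfl

theorem iota_kd5Lin (t : F) (w : W5 F) : iota (kd5Lin t w) = kdLin t (iota w) := rfl

theorem kd5Lin_mul (s t : F) : kd5Lin (F := F) s * kd5Lin t = kd5Lin (s * t) := by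
  refine LinearMap.ext fun w => ?_
  rw [Module.End.mul_apply, kd5Lin_apply, kd5Lin_apply, kd5Lin_apply]
  refine Prod.ext ?_ (Prod.ext ?_ rfl) <;> simp <;> ring

theorem kd5Lin_one : kd5Lin (F := F) 1 = 1 := by
  refine LinearMap.ext fun w => ?_
  rw [kd5Lin_apply]
  simp

theorem hypN_kd5Lin (t : F) (ht : t ≠ 0) (w : W5 F) :
    hypN (quadFormOdd 1 F) (kd5Lin t w) = hypN (quadFormOdd 1 F) w := by
  rw [kd5Lin_apply, hypN, hypN]
  simp
  field_simp

theorem hypN_neg (w : W5 F) :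
    hypN (quadFormOdd 1 F) ((-1 : Module.End F (W5 F)) w) = hypN (quadFormOdd 1 F) w := by
  simp [hypN, quadFormOdd]

theorem D_J4_D (t : F) : Matrix.diagonal (dv t) * J4 * Matrix.diagonal (dv t) = t • J4 := by
  refine Matrix.ext fun i j => ?_
  rw [Matrix.mul_diagonal, Matrix.diagonal_mul, Matrix.smul_apply]
  fin_cases i <;> fin_cases j <;> simp [dv, J4]

theorem cj4_sp (t : F) (ht : t ≠ 0) (M : Matrix (Fin 4) (Fin 4) F) (hM : M * J4 * Mᵀ = J4) :
    cj4 t M * J4 * (cj4 t M)ᵀ = J4 := by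
  have h1 : Matrix.diagonal (dv t) * M = cj4 t M * Matrix.diagonal (dv t) := diag_mul4 t ht M
  have h2 : Mᵀ * Matrix.diagonal (dv t) = Matrix.diagonal (dv t) * (cj4 t M)ᵀ := by
    have h := congrArg Matrix.transpose h1
    rwa [Matrix.transpose_mul, Matrix.transpose_mul, Matrix.diagonal_transpose] at h
  have key : t • (cj4 t M * J4 * (cj4 t M)ᵀ) = t • J4 := by
    calc t • (cj4 t M * J4 * (cj4 t M)ᵀ)
        = cj4 t M * (Matrix.diagonal (dv t) * J4 * Matrix.diagonal (dv t)) * (cj4 t M)ᵀ := by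
          rw [D_J4_D, Matrix.mul_smul, Matrix.smul_mul]
      _ = (cj4 t M * Matrix.diagonal (dv t)) * J4 * (Matrix.diagonal (dv t) * (cj4 t M)ᵀ) := by
          simp only [Matrix.mul_assoc]
      _ = (Matrix.diagonal (dv t) * M) * J4 * (Mᵀ * Matrix.diagonal (dv t)) := by rw [h1, h2]
      _ = Matrix.diagonal (dv t) * (M * J4 * Mᵀ) * Matrix.diagonal (dv t) := by
          simp only [Matrix.mul_assoc]
      _ = t • J4 := by rw [hM, D_J4_D]
  exact smul_right_injective _ ht key

theorem kd5Lin_mul_act5 (t : F) (ht : t ≠ 0) (M : Matrix (Fin 4) (Fin 4) F)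
    (h : Mᵀ * J4 * M = J4) (h' : (cj4 t M)ᵀ * J4 * cj4 t M = J4) :
    kd5Lin t * act5 M = act5 (cj4 t M) * kd5Lin t := by
  refine LinearMap.ext fun w => ?_
  apply iota_injective
  rw [Module.End.mul_apply, Module.End.mul_apply, iota_kd5Lin, iota_act5 M h, iota_act5 _ h',
    iota_kd5Lin, ← Module.End.mul_apply (kdLin t) (act4 M), kdLin_mul_act4 t ht,
    Module.End.mul_apply]

end Cfsg.Agent.Lib.Helper99.Sp4
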