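import Mathlib
import Cfsg.Prelude.Def_ChevB2
import Cfsg.Agent.Lib.Helper99.Klein
import Cfsg.Agent.Lib.Helper99.Sp4Model
import Cfsg.Agent.Lib.Helper99.B2Basis
import Cfsg.Agent.Lib.Helper18.Symp

/-!
# `Sp₄(F)` is generated by its eight root subgroups
-/

set_option autoImplicit false
set_option linter.unusedSectionVars false
set_option linter.unnecessarySeqFocus false

namespace Cfsg.Agent.Lib.Helper99.B2

open Cfsg Matrix Cfsg.Agent.Lib.Helper99 Cfsg.Agent.Lib.Helper99.Klein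
  Cfsg.Agent.Lib.Helper99.Sp4 Cfsg.Agent.Lib.Helper18

variable {F : Type*} [Field F]

set_option maxHeartbeats 3200000 in
theorem xs_sp (r : Fin 8) (t : F) : xs r t * J4 * (xs r t)ᵀ = J4 := by
  refine Matrix.ext fun i j => ?_
  fin_cases r <;> fin_cases i <;> fin_cases j <;>
    simp [xs, J4, Matrix.mul_apply, Fin.sum_univ_four]

theorem toM4_injective : Function.Injective (toM4 (F := F)) := by
  intro g h hgh
  apply Subtype.ext
  refine Matrix.ext fun i j => ?_
  have h1 := congrFun (congrFun hgh (e4 i)) (e4 j)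
  simpa [toM4_apply] using h1

/-- the subgroup generated by the root elements -/
def rootGen : Subgroup (Matrix.symplecticGroup (Fin 2) F) :=
  Subgroup.closure {g | ∃ (r : Fin 8) (t : F), toM4 g = xs r t}

theorem exists_root (r : Fin 8) (t : F) :
    ∃ g : Matrix.symplecticGroup (Fin 2) F, g ∈ rootGen ∧ toM4 g = xs r t := by
  obtain ⟨g, hg⟩ := exists_sp_of _ (xs_sp r t)
  exact ⟨g, Subgroup.subset_closure ⟨r, t, hg⟩, hg⟩

/-- the symplectic transvection, on `Fin 4` -/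
def T4 (w : Fin 4 → F) (c : F) : Matrix (Fin 4) (Fin 4) F := 1 + c • vecMulVec w (J4 *ᵥ w)

theorem T4_conj (M : Matrix (Fin 4) (Fin 4) F) (hM : Mᵀ * J4 * M = J4) (w : Fin 4 → F) (c : F) :
    T4 (M *ᵥ w) c * M = M * T4 w c := by
  unfold T4
  have h1 : (J4 *ᵥ (M *ᵥ w)) ᵥ* M = J4 *ᵥ w := by
    have h : (J4 *ᵥ (M *ᵥ w)) ᵥ* M = Mᵀ *ᵥ (J4 *ᵥ (M *ᵥ w)) := (mulVec_transpose M _).symm
    rw [h, mulVec_mulVec, mulVec_mulVec, hM]
  rw [Matrix.add_mul, Matrix.mul_add, Matrix.one_mul, Matrix.mul_one, Matrix.smul_mul,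
    Matrix.mul_smul, vecMulVec_mul, mul_vecMulVec, h1]

theorem T4_zero (c : F) : T4 (0 : Fin 4 → F) c = 1 := by
  unfold T4
  simp

theorem T4_e1 (a c : F) : T4 ![a, 0, 0, 0] c = xs 7 (c * (a * a)) := by
  have hJ : (J4 : Matrix (Fin 4) (Fin 4) F) *ᵥ ![a, 0, 0, 0] = ![0, 0, a, 0] := by
    funext i
    fin_cases i <;> simp [J4, Matrix.mulVec, dotProduct, Fin.sum_univ_four]
  unfold T4
  rw [hJ]
  refine Matrix.ext fun i j => ?_
  fin_cases i <;> fin_cases j <;>
    simp [xs, vecMulVec_apply, Matrix.one_apply]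

/-- the root elements move a non-zero vector to one with non-zero first coordinate -/
theorem exists_first (w : Fin 4 → F) (hw : w ≠ 0) :
    ∃ g : Matrix.symplecticGroup (Fin 2) F, g ∈ rootGen ∧ (toM4 g *ᵥ w) 0 ≠ 0 := by
  by_cases h0 : w 0 = 0
  · by_cases h2 : w 2 = 0
    · by_cases h1 : w 1 = 0
      · have h3 : w 3 ≠ 0 := by
          intro h3
          apply hw
          funext i
          fin_cases i
          · exact h0
          · exact h1
          · exact h2
          · exact h3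
        obtain ⟨g, hg, hx⟩ := exists_root (F := F) 6 1
        refine ⟨g, hg, ?_⟩
        rw [hx]
        simpa [xs, Matrix.mulVec, dotProduct, Fin.sum_univ_four, h0] using h3
      · obtain ⟨g, hg, hx⟩ := exists_root (F := F) 5 1
        refine ⟨g, hg, ?_⟩
        rw [hx]
        simpa [xs, Matrix.mulVec, dotProduct, Fin.sum_univ_four, h0] using h1
    · obtain ⟨g, hg, hx⟩ := exists_root (F := F) 7 1
      refine ⟨g, hg, ?_⟩
      rw [hx]
      simpa [xs, Matrix.mulVec, dotProduct, Fin.sum_univ_four, h0] using h2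
  · exact ⟨1, Subgroup.one_mem _, by rw [map_one, Matrix.one_mulVec]; exact h0⟩

/-- the root elements move a vector with non-zero first coordinate to a multiple of the first
basis vector -/
theorem exists_reduce' (v : Fin 4 → F) (hv : v 0 ≠ 0) :
    ∃ g : Matrix.symplecticGroup (Fin 2) F, g ∈ rootGen ∧ toM4 g *ᵥ v = ![v 0, 0, 0, 0] := by
  obtain ⟨g₂, hg₂, hx₂⟩ := exists_root (F := F) 2 (-(v 1 / v 0))
  obtain ⟨g₁, hg₁, hx₁⟩ := exists_root (F := F) 1 (-(v 3 / v 0))
  obtain ⟨g₀, hg₀, hx₀⟩ := exists_root (F := F) 0 (-((v 2 + (v 1 / v 0) * v 3) / v 0))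
  refine ⟨g₀ * g₁ * g₂, Subgroup.mul_mem _ (Subgroup.mul_mem _ hg₀ hg₁) hg₂, ?_⟩
  rw [map_mul, map_mul, hx₀, hx₁, hx₂]
  funext i
  fin_cases i <;>
    simp [xs, Matrix.mulVec, dotProduct, Fin.sum_univ_four, Matrix.mul_apply] <;>
    field_simp <;> ring

theorem exists_reduce (w : Fin 4 → F) (hw : w ≠ 0) :
    ∃ g : Matrix.symplecticGroup (Fin 2) F, g ∈ rootGen ∧ ∃ a : F, toM4 g *ᵥ w = ![a, 0, 0, 0] := by
  obtain ⟨g, hg, h0⟩ := exists_first w hw
  obtain ⟨g', hg', h⟩ := exists_reduce' _ h0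
  refine ⟨g' * g, Subgroup.mul_mem _ hg' hg, (toM4 g *ᵥ w) 0, ?_⟩
  rw [map_mul, ← Matrix.mulVec_mulVec, h]

/-- every symplectic transvection lies in the subgroup generated by the root elements -/
theorem T4_mem (h : Matrix.symplecticGroup (Fin 2) F) (w : Fin 4 → F) (c : F)
    (hh : toM4 h = T4 w c) : h ∈ rootGen := by
  by_cases hw : w = 0
  · have h1 : h = 1 := by
      apply toM4_injective
      rw [hh, hw, T4_zero, map_one]
    rw [h1]
    exact Subgroup.one_mem _
  · obtain ⟨g, hg, a, hga⟩ := exists_reduce w hw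
    obtain ⟨x, hx, hxx⟩ := exists_root (F := F) 7 (c * (a * a))
    have h1 : g * h = x * g := by
      apply toM4_injective
      rw [map_mul, map_mul, hh, ← T4_conj _ (toM4_sp' g), hga, T4_e1, hxx]
    have h2 : h = g⁻¹ * (x * g) := by rw [← h1, inv_mul_cancel_left]
    rw [h2]
    exact Subgroup.mul_mem _ (Subgroup.inv_mem _ hg) (Subgroup.mul_mem _ hx hg)

theorem toM4_sympTransvection (A : Matrix.symplecticGroup (Fin 2) F) (w : Fin 2 ⊕ Fin 2 → F)
    (c : F) (hA : (A : Matrix (Fin 2 ⊕ Fin 2) (Fin 2 ⊕ Fin 2) F) = Cfsg.sympTransvection 2 w c) :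
    toM4 A = T4 (w ∘ e4.symm) c := by
  have hJ : J4 *ᵥ (w ∘ e4.symm) = (Matrix.J (Fin 2) F *ᵥ w) ∘ e4.symm := by
    rw [← J4_eq, Matrix.submatrix_mulVec_equiv]
    simp [Function.comp_def]
  rw [toM4_apply, hA, T4, hJ]
  refine Matrix.ext fun i j => ?_
  simp [Cfsg.sympTransvection, vecMulVec_apply, Matrix.one_apply]

/-- `Sp₄(F)` is generated by its root elements -/
theorem rootGen_eq_top : (rootGen : Subgroup (Matrix.symplecticGroup (Fin 2) F)) = ⊤ := by
  rw [eq_top_iff, ← closure_sympTransvection_eq_top, Subgroup.closure_le]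
  rintro A ⟨w, c, hA⟩
  exact T4_mem A (w ∘ e4.symm) c (toM4_sympTransvection A w c hA)

end Cfsg.Agent.Lib.Helper99.B2
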