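import Mathlib
import Cfsg.Prelude.Def_Classical
import Cfsg.Prelude.Def_ChevB2
import Cfsg.Agent.Lib.Helper99.Klein
import Cfsg.Agent.Lib.Helper99.Sp4Model
import Cfsg.Agent.Lib.Helper99.B2Basis
import Cfsg.Agent.Lib.Helper99.B2Act
import Cfsg.Agent.Lib.Helper99.B2Gen

/-!
# The Chevalley group of type `B₂` over `F` is isomorphic to `PSp₄(F)`
-/

set_option autoImplicit false
set_option linter.unusedSectionVars false
set_option linter.unnecessarySeqFocus false

namespace Cfsg.Agent.Lib.Helper99.B2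

open Cfsg Cfsg.Lie Matrix Cfsg.Agent.Lib.Helper99 Cfsg.Agent.Lib.Helper99.Klein
  Cfsg.Agent.Lib.Helper99.Sp4

variable {F : Type*} [Field F]

/-- the adjoint action as a matrix -/
def phiMat : Matrix (Fin 4) (Fin 4) F →* Matrix I10 I10 F :=
  (LinearMap.toMatrixAlgEquiv' (R := F) (n := I10)).toAlgHom.toRingHom.toMonoidHom.comp phi

theorem phiMat_apply (M : Matrix (Fin 4) (Fin 4) F) : phiMat M = LinearMap.toMatrix' (phi M) := rfl

/-- the adjoint representation of `Sp₄(F)` -/
def piGL : Matrix.symplecticGroup (Fin 2) F →* GL I10 F := (phiMat.comp toM4).toHomUnits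

theorem piGL_coe (g : Matrix.symplecticGroup (Fin 2) F) :
    (piGL g : Matrix I10 I10 F) = LinearMap.toMatrix' (phi (toM4 g)) := rfl

theorem piGL_xs (g : Matrix.symplecticGroup (Fin 2) F) (r : Fin 8) (t : F)
    (h : toM4 g = xs r t) : (piGL g : Matrix I10 I10 F) = xm r t := by
  rw [piGL_coe, h, phi_xs_eq, LinearMap.toMatrix'_toLin']

/-- the image of `Sp₄(F)` is the Chevalley group -/
theorem range_piGL : (piGL (F := F)).range = chevB2.group F := by
  rw [MonoidHom.range_eq_map, ← rootGen_eq_top, rootGen, MonoidHom.map_closure]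
  show Subgroup.closure _ = Subgroup.closure _
  congr 1
  ext x
  constructor
  · rintro ⟨g, ⟨r, t, h⟩, rfl⟩
    exact ⟨r, t, piGL_xs g r t h⟩
  · rintro ⟨r, t, h⟩
    obtain ⟨g, hg⟩ := exists_sp_of _ (xs_sp r t)
    refine ⟨g, ⟨r, t, hg⟩, Units.ext ?_⟩
    rw [piGL_xs g r t hg, h]
    rfl

/-- a matrix acting trivially on the symmetric matrices is `±1` -/
theorem scalar_of_phi (M : Matrix (Fin 4) (Fin 4) F) (h : phi M = 1) :
    M = M 0 0 • (1 : Matrix (Fin 4) (Fin 4) F) := by
  have key : ∀ S : Matrix (Fin 4) (Fin 4) F, Sᵀ = S → M * S * Mᵀ = S := by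
    intro S hS
    have h1 := sMap_phi M (rMap S)
    rw [h, Module.End.one_apply, sMap_rMap S hS] at h1
    exact h1.symm
  have k0 := key !![1, 0, 0, 0; 0, 0, 0, 0; 0, 0, 0, 0; 0, 0, 0, 0]
    (by refine Matrix.ext fun i j => ?_; fin_cases i <;> fin_cases j <;> rfl)
  have k1 := key !![0, 0, 0, 0; 0, 1, 0, 0; 0, 0, 0, 0; 0, 0, 0, 0]
    (by refine Matrix.ext fun i j => ?_; fin_cases i <;> fin_cases j <;> rfl)
  have k2 := key !![0, 0, 0, 0; 0, 0, 0, 0; 0, 0, 1, 0; 0, 0, 0, 0]
    (by refine Matrix.ext fun i j => ?_; fin_cases i <;> fin_cases j <;> rfl)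
  have k3 := key !![0, 0, 0, 0; 0, 0, 0, 0; 0, 0, 0, 0; 0, 0, 0, 1]
    (by refine Matrix.ext fun i j => ?_; fin_cases i <;> fin_cases j <;> rfl)
  have k01 := key !![0, 1, 0, 0; 1, 0, 0, 0; 0, 0, 0, 0; 0, 0, 0, 0]
    (by refine Matrix.ext fun i j => ?_; fin_cases i <;> fin_cases j <;> rfl)
  have k02 := key !![0, 0, 1, 0; 0, 0, 0, 0; 1, 0, 0, 0; 0, 0, 0, 0]
    (by refine Matrix.ext fun i j => ?_; fin_cases i <;> fin_cases j <;> rfl)
  have k03 := key !![0, 0, 0, 1; 0, 0, 0, 0; 0, 0, 0, 0; 1, 0, 0, 0]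
    (by refine Matrix.ext fun i j => ?_; fin_cases i <;> fin_cases j <;> rfl)
  have a00 := congrFun (congrFun k0 0) 0
  have a11 := congrFun (congrFun k0 1) 1
  have a22 := congrFun (congrFun k0 2) 2
  have a33 := congrFun (congrFun k0 3) 3
  have b00 := congrFun (congrFun k1 0) 0
  have b22 := congrFun (congrFun k1 2) 2
  have b33 := congrFun (congrFun k1 3) 3
  have c00 := congrFun (congrFun k2 0) 0
  have c11 := congrFun (congrFun k2 1) 1
  have c33 := congrFun (congrFun k2 3) 3
  have d00 := congrFun (congrFun k3 0) 0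
  have d11 := congrFun (congrFun k3 1) 1
  have d22 := congrFun (congrFun k3 2) 2
  have e01 := congrFun (congrFun k01 0) 1
  have e02 := congrFun (congrFun k02 0) 2
  have e03 := congrFun (congrFun k03 0) 3
  simp [Matrix.mul_apply, Fin.sum_univ_four] at a00 a11 a22 a33 b00 b22 b33 c00 c11 c33 d00 d11 d22
  simp [Matrix.mul_apply, Fin.sum_univ_four, a11, a22, a33, b00, b22, b33, c00, c11, c33, d00, d11,
    d22] at e01 e02 e03
  have hne : M 0 0 ≠ 0 := by
    intro h0
    rw [h0, mul_zero] at a00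
    exact zero_ne_one a00
  have e11 : M 1 1 = M 0 0 := mul_left_cancel₀ hne (by rw [e01, a00])
  have e22 : M 2 2 = M 0 0 := mul_left_cancel₀ hne (by rw [e02, a00])
  have e33 : M 3 3 = M 0 0 := mul_left_cancel₀ hne (by rw [e03, a00])
  refine Matrix.ext fun i j => ?_
  fin_cases i <;> fin_cases j <;>
    simp [a11, a22, a33, b00, b22, b33, c00, c11, c33, d00, d11, d22, e11, e22, e33]

/-- an element of `Sp₄(F)` with scalar matrix is central -/
theorem central_of_scalar (g : Matrix.symplecticGroup (Fin 2) F) (c : F)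
    (h : toM4 g = c • (1 : Matrix (Fin 4) (Fin 4) F)) :
    g ∈ Subgroup.center (Matrix.symplecticGroup (Fin 2) F) := by
  rw [Subgroup.mem_center_iff]
  intro x
  apply toM4_injective
  rw [map_mul, map_mul, h, Matrix.smul_mul, Matrix.mul_smul, Matrix.one_mul, Matrix.mul_one]

theorem ker_piGL_le_center :
    (piGL (F := F)).ker ≤ Subgroup.center (Matrix.symplecticGroup (Fin 2) F) := by
  intro g hg
  rw [MonoidHom.mem_ker] at hg
  have h1 : LinearMap.toMatrix' (phi (toM4 g)) = 1 := by
    rw [← piGL_coe, hg]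
    rfl
  have h2 : phi (toM4 g) = 1 := by
    apply LinearMap.toMatrix'.injective
    rw [h1, LinearMap.toMatrix'_one]
  exact central_of_scalar g _ (scalar_of_phi _ h2)

/-- a matrix commuting with the root elements of `Sp₄` is scalar -/
theorem scalar_of_comm_xs (M : Matrix (Fin 4) (Fin 4) F)
    (h : ∀ r : Fin 8, M * xs r 1 = xs r 1 * M) : M = M 0 0 • (1 : Matrix (Fin 4) (Fin 4) F) := by
  have h0 := h 0
  have h3 := h 3
  have h4 := h 4
  have h5 := h 5
  have h7 := h 7
  have p00 := congrFun (congrFun h0 0) 0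
  have p10 := congrFun (congrFun h0 1) 0
  have p30 := congrFun (congrFun h0 3) 0
  have p21 := congrFun (congrFun h0 2) 1
  have p23 := congrFun (congrFun h0 2) 3
  have p20 := congrFun (congrFun h0 2) 0
  have q02 := congrFun (congrFun h7 0) 2
  have q12 := congrFun (congrFun h7 1) 2
  have q32 := congrFun (congrFun h7 3) 2
  have q01 := congrFun (congrFun h7 0) 1
  have q03 := congrFun (congrFun h7 0) 3
  have r01 := congrFun (congrFun h3 0) 1
  have r21 := congrFun (congrFun h3 2) 1
  have r31 := congrFun (congrFun h3 3) 1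
  have s03 := congrFun (congrFun h4 0) 3
  have s23 := congrFun (congrFun h4 2) 3
  have s13 := congrFun (congrFun h4 1) 3
  have t01 := congrFun (congrFun h5 0) 1
  simp [xs, Matrix.mul_apply, Fin.sum_univ_four] at p00 p10 p30 p21 p23 p20 q02 q12 q32 q01 q03
  simp [xs, Matrix.mul_apply, Fin.sum_univ_four] at r01 r21 r31 s03 s23 s13 t01
  have u00 := congrFun (congrFun h7 0) 0
  have u11 := congrFun (congrFun h4 1) 1
  have u33 := congrFun (congrFun h3 3) 3
  simp [xs, Matrix.mul_apply, Fin.sum_univ_four] at u00 u11 u33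
  have e22 : M 2 2 = M 0 0 := by linear_combination p20
  have e11 : M 1 1 = M 0 0 := by linear_combination -t01
  have e33 : M 3 3 = M 0 0 := by linear_combination -r31 - t01
  refine Matrix.ext fun i j => ?_
  fin_cases i <;> fin_cases j <;>
    simp [p00, p10, p30, p21, p23, q12, q32, q01, q03, u00, u11, u33, e11, e22, e33]

/-- the square of the scalar of a scalar symplectic matrix -/
theorem scalar_sq (g : Matrix.symplecticGroup (Fin 2) F) (c : F)
    (h : toM4 g = c • (1 : Matrix (Fin 4) (Fin 4) F)) : c * c = 1 := by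
  have h1 := toM4_sp g
  rw [h] at h1
  have h2 := congrFun (congrFun h1 2) 0
  simp [J4, Matrix.mul_apply, Fin.sum_univ_four] at h2
  linear_combination h2

theorem phi_scalar (c : F) (hc : c * c = 1) :
    phi (c • (1 : Matrix (Fin 4) (Fin 4) F)) = 1 := by
  refine LinearMap.ext fun w => ?_
  rw [phi_apply, Matrix.transpose_smul, Matrix.transpose_one, Matrix.smul_mul, Matrix.mul_smul,
    Matrix.one_mul, Matrix.mul_one, smul_smul, hc, one_smul, rMap_sMap, Module.End.one_apply]

theorem piGL_eq_one_of_scalar (g : Matrix.symplecticGroup (Fin 2) F) (c : F)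
    (h : toM4 g = c • (1 : Matrix (Fin 4) (Fin 4) F)) : piGL g = 1 := by
  apply Units.ext
  rw [piGL_coe, h, phi_scalar c (scalar_sq g c h), LinearMap.toMatrix'_one]
  rfl

theorem center_le_ker_piGL :
    Subgroup.center (Matrix.symplecticGroup (Fin 2) F) ≤ (piGL (F := F)).ker := by
  intro g hg
  rw [Subgroup.mem_center_iff] at hg
  rw [MonoidHom.mem_ker]
  apply piGL_eq_one_of_scalar g (toM4 g 0 0)
  apply scalar_of_comm_xs
  intro r
  obtain ⟨x, hx⟩ := exists_sp_of _ (xs_sp r (1 : F))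
  rw [← hx, ← map_mul, ← map_mul, hg x]

theorem ker_piGL : (piGL (F := F)).ker = Subgroup.center (Matrix.symplecticGroup (Fin 2) F) :=
  le_antisymm ker_piGL_le_center center_le_ker_piGL

/-- the Chevalley group of type `B₂` over any field is `PSp₄` -/
theorem chevB2_equiv_psp : Nonempty (↥(chevB2.group F) ≃* PSp 2 F) := by
  have e1 : ↥(piGL (F := F)).range ≃* PSp 2 F :=
    (QuotientGroup.quotientKerEquivRange piGL).symm.trans
      (QuotientGroup.quotientMulEquivOfEq ker_piGL)
  rw [range_piGL] at e1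
  exact ⟨e1⟩

end Cfsg.Agent.Lib.Helper99.B2
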