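import Mathlib
import Cfsg.Prelude.Def_Classical
import Cfsg.Agent.Lib.Helper99.IsoModel
import Cfsg.Agent.Lib.Helper99.HypExt
import Cfsg.Agent.Lib.Helper99.Klein
import Cfsg.Agent.Lib.Helper99.KleinSurj
import Cfsg.Agent.Lib.Helper99.Sp4Model
import Cfsg.Agent.S0298

/-!
# The isometry group of the 5-dimensional model is generated by `Sp₄(F)` and a complement
-/

set_option autoImplicit false
set_option linter.unusedSectionVars false
set_option linter.unnecessarySeqFocus false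

namespace Cfsg.Agent.Lib.Helper99.Sp4

open Cfsg Matrix Cfsg.Agent.Lib.Helper99 Cfsg.Agent.Lib.Helper99.Klein Cfsg.Agent.S0298
open scoped commutatorElement

variable {F : Type*} [Field F]

/-! ### explicit symplectic matrices -/

/-- a matrix moving the first hyperbolic vector to a given singular vector -/
def mvx (k : KW F) : Matrix (Fin 4) (Fin 4) F :=
  !![k.1, 0, 0, 0; 0, 1, 0, 0; -k.2.2 1 0, k.2.2 0 0 / k.1, k.1⁻¹, 0;
     -k.2.2 1 1, k.2.2 0 1 / k.1, 0, 1]

theorem act4_mvx (k : KW F) (hx : k.1 ≠ 0) (hN : hypN kN₀ k = 0) : act4 (mvx k) hex = k := by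
  obtain ⟨x, y, B⟩ := k
  have hx' : x ≠ 0 := hx
  have hN' : x * y = B 0 0 * B 1 1 - B 0 1 * B 1 0 := by
    have h := hN
    simp only [hypN, kN₀, Matrix.det_fin_two] at h
    linear_combination h
  rw [act4_hex]
  apply kw_ext
  · simp [mvx]
  · simp [mvx]
    field_simp
    linear_combination -hN'
  · simp [mvx]
    field_simp
  · simp [mvx]
    field_simp
  · simp [mvx]
  · simp [mvx]

theorem mvx_sp (k : KW F) (hx : k.1 ≠ 0) (htr : k.2.2 0 0 + k.2.2 1 1 = 0) :
    mvx k * J4 * (mvx k)ᵀ = J4 := by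
  obtain ⟨x, y, B⟩ := k
  have hx' : x ≠ 0 := hx
  have h11 : B 1 1 = -B 0 0 := by linear_combination htr
  refine Matrix.ext fun i j => ?_
  fin_cases i <;> fin_cases j <;>
    simp [mvx, J4, Matrix.mul_apply, Fin.sum_univ_four, h11] <;> field_simp <;> ring

/-- a matrix fixing the first hyperbolic vector and moving the second -/
def mvy (B : Matrix (Fin 2) (Fin 2) F) : Matrix (Fin 4) (Fin 4) F :=
  !![1, 0, B 0 1, -B 0 0; 0, 1, B 1 1, -B 1 0; 0, 0, 1, 0; 0, 0, 0, 1]

theorem act4_mvy_hex (B : Matrix (Fin 2) (Fin 2) F) : act4 (mvy B) hex = hex := by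
  rw [act4_hex]
  apply kw_ext <;> simp [hex, mvy]

theorem act4_mvy_hey (B : Matrix (Fin 2) (Fin 2) F) : act4 (mvy B) hey = (-kN₀ B, 1, B) := by
  rw [act4_hey]
  apply kw_ext <;> simp [kN₀, Matrix.det_fin_two, mvy]
  ring

theorem mvy_sp (B : Matrix (Fin 2) (Fin 2) F) (htr : B 0 0 + B 1 1 = 0) :
    mvy B * J4 * (mvy B)ᵀ = J4 := by
  have h11 : B 1 1 = -B 0 0 := by linear_combination htr
  refine Matrix.ext fun i j => ?_
  fin_cases i <;> fin_cases j <;>
    simp [mvy, J4, Matrix.mul_apply, Fin.sum_univ_four, h11]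

/-- the Weyl element -/
def weyl : Matrix (Fin 4) (Fin 4) F := !![0, 0, 1, 0; 0, 0, 0, 1; -1, 0, 0, 0; 0, -1, 0, 0]

theorem weyl_sp : weyl (F := F) * J4 * weylᵀ = J4 := by
  refine Matrix.ext fun i j => ?_
  fin_cases i <;> fin_cases j <;> simp [weyl, J4, Matrix.mul_apply, Fin.sum_univ_four]

/-- an upper unipotent element -/
def up1 : Matrix (Fin 4) (Fin 4) F := !![1, 0, 0, 0; 0, 1, 0, 1; 0, 0, 1, 0; 0, 0, 0, 1]

theorem up1_sp : up1 (F := F) * J4 * up1ᵀ = J4 := by
  refine Matrix.ext fun i j => ?_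
  fin_cases i <;> fin_cases j <;> simp [up1, J4, Matrix.mul_apply, Fin.sum_univ_four]

/-- an upper unipotent element -/
def up0 : Matrix (Fin 4) (Fin 4) F := !![1, 0, 1, 0; 0, 1, 0, 0; 0, 0, 1, 0; 0, 0, 0, 1]

theorem up0_sp : up0 (F := F) * J4 * up0ᵀ = J4 := by
  refine Matrix.ext fun i j => ?_
  fin_cases i <;> fin_cases j <;> simp [up0, J4, Matrix.mul_apply, Fin.sum_univ_four]

theorem iota_hex : iota (hex : W5 F) = hex := by
  rw [iota_apply]
  apply kw_ext <;> simp [hex]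

theorem iota_hey : iota (hey : W5 F) = hey := by
  rw [iota_apply]
  apply kw_ext <;> simp [hey]

theorem act5_fst (M : Matrix (Fin 4) (Fin 4) F) (w : W5 F) :
    (act5 M w).1 = (act4 M (iota w)).1 := rfl

theorem exists_first_ne5 (u : W5 F) (hu : u ≠ 0) (hN : hypN (quadFormOdd 1 F) u = 0) :
    ∃ h : Matrix.symplecticGroup (Fin 2) F, (act5 (toM4 h) u).1 ≠ 0 := by
  obtain ⟨x, y, v⟩ := u
  by_cases hx : x = 0
  · by_cases hy : y = 0
    · by_cases h1 : v (.inr (.inl 0)) = 0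
      · by_cases h2 : v (.inr (.inr 0)) = 0
        · exfalso
          have h0 : v (.inl ()) = 0 := by
            have h := hN
            simp [hypN, quadFormOdd, hx, hy, h1, h2] at h
            exact h
          apply hu
          refine Prod.ext hx (Prod.ext hy ?_)
          rw [vec3_eta v]
          funext i
          rcases i with ⟨⟩ | i | i
          · exact h0
          · exact h1
          · exact h2
        · obtain ⟨h, hh⟩ := exists_sp_of (up0 (F := F)) up0_sp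
          refine ⟨h, ?_⟩
          rw [hh, act5_fst, act4_fst, conj_entry, iota_apply]
          simpa [up0, hx] using h2
      · obtain ⟨h, hh⟩ := exists_sp_of (up1 (F := F)) up1_sp
        refine ⟨h, ?_⟩
        rw [hh, act5_fst, act4_fst, conj_entry, iota_apply]
        simpa [up1, hx] using h1
    · obtain ⟨h, hh⟩ := exists_sp_of (weyl (F := F)) weyl_sp
      refine ⟨h, ?_⟩
      rw [hh, act5_fst, act4_fst, conj_entry, iota_apply]
      simpa [weyl] using hy
  · refine ⟨1, ?_⟩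
    rw [map_one, act5_one]
    exact hx


/-! ### the stabiliser of the hyperbolic pair -/

/-- the inverse transpose of a 2 x 2 matrix -/
def spInvT (A : Matrix (Fin 2) (Fin 2) F) : Matrix (Fin 2) (Fin 2) F :=
  !![A 1 1 / A.det, -A 1 0 / A.det; -A 0 1 / A.det, A 0 0 / A.det]

theorem bd_sp (A : Matrix (Fin 2) (Fin 2) F) (hA : A.det ≠ 0) :
    bd A (spInvT A) * J4 * (bd A (spInvT A))ᵀ = J4 := by
  have hd : A 0 0 * A 1 1 - A 0 1 * A 1 0 = A.det := (Matrix.det_fin_two A).symm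
  simp only [spInvT]
  generalize A.det = d at hA hd ⊢
  refine Matrix.ext fun i j => ?_
  fin_cases i <;> fin_cases j <;>
    simp [bd, J4, Matrix.mul_apply, Fin.sum_univ_four] <;>
    field_simp <;>
    first
      | ring1
      | linear_combination hd
      | linear_combination -hd

theorem hext_M3 (A : Matrix (Fin 2) (Fin 2) F) (hA : A.det ≠ 0) :
    hext (Matrix.toLin' (M3 A)) = kd5Lin (A.det)⁻¹ * act5 (bd A (spInvT A)) := by
  refine LinearMap.ext fun w => ?_
  obtain ⟨x, y, u⟩ := w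
  obtain ⟨u0, u1, u2, rfl⟩ : ∃ u0 u1 u2, u = vec3 u0 u1 u2 := ⟨_, _, _, vec3_eta u⟩
  rw [hext_apply, Module.End.mul_apply, act5_apply, iota_apply, act4_bd, proj_apply, kd5Lin_apply,
    Matrix.toLin'_apply, M3_apply]
  unfold N3
  rw [mat3_smul, mat3_mulVec]
  have hd : A 0 0 * A 1 1 - A 0 1 * A 1 0 = A.det := (Matrix.det_fin_two A).symm
  have hS : (spInvT A).det = (A.det)⁻¹ := by
    rw [spInvT, Matrix.det_fin_two_of]
    field_simp
    linear_combination hd
  rw [hS]
  simp only [spInvT]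
  generalize A.det = d at hA hd ⊢
  refine Prod.ext ?_ (Prod.ext ?_ ?_)
  · simp
    field_simp
  · simp
    field_simp
  · funext i
    rcases i with ⟨⟩ | i | i <;>
      simp [Matrix.mul_apply, Fin.sum_univ_two] <;>
      field_simp <;> ring

theorem neg_one_mul_neg_one : (-1 : Module.End F (W5 F)) * (-1) = 1 := by
  refine LinearMap.ext fun w => ?_
  simp

theorem hext_neg (τ : Module.End F (I3 → F)) :
    hext (-τ) = (-1 : Module.End F (W5 F)) * kd5Lin (-1) * hext τ := by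
  refine LinearMap.ext fun w => ?_
  rw [Module.End.mul_apply, Module.End.mul_apply, hext_apply, hext_apply, kd5Lin_apply]
  refine Prod.ext ?_ (Prod.ext ?_ ?_) <;> simp

/-! ### the group level -/

/-- the diagonal isometry `(x, y, v) ↦ (t x, t⁻¹ y, v)` -/
def kd5 (t : F) (ht : t ≠ 0) : isoUnits (F := F) (W := W5 F) (hypN (quadFormOdd 1 F)) :=
  mkU _ (kd5Lin t) (kd5Lin t⁻¹) (by rw [kd5Lin_mul, mul_inv_cancel₀ ht, kd5Lin_one])
    (by rw [kd5Lin_mul, inv_mul_cancel₀ ht, kd5Lin_one]) (hypN_kd5Lin t ht)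

theorem appHom_kd5 (t : F) (ht : t ≠ 0) :
    appHom (hypN (quadFormOdd 1 F)) (kd5 t ht) = kd5Lin t := rfl

/-- minus the identity -/
def neg5 : isoUnits (F := F) (W := W5 F) (hypN (quadFormOdd 1 F)) :=
  mkU _ (-1) (-1) neg_one_mul_neg_one neg_one_mul_neg_one hypN_neg

theorem appHom_neg5 : appHom (hypN (quadFormOdd 1 F)) (neg5 (F := F)) = -1 := rfl

theorem neg5_comm (T : isoUnits (F := F) (W := W5 F) (hypN (quadFormOdd 1 F))) :
    neg5 * T = T * neg5 := by
  apply appHom_injective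
  rw [map_mul, map_mul, appHom_neg5]
  refine LinearMap.ext fun w => ?_
  simp

/-- the generators of the complement -/
def S5 : Set (isoUnits (F := F) (W := W5 F) (hypN (quadFormOdd 1 F))) :=
  {k | (∃ (t : F) (ht : t ≠ 0), k = kd5 t ht) ∨ k = neg5}

theorem S5_inv (k : isoUnits (F := F) (W := W5 F) (hypN (quadFormOdd 1 F))) (hk : k ∈ S5) :
    k⁻¹ ∈ S5 := by
  rcases hk with ⟨t, ht, rfl⟩ | rfl
  · refine Or.inl ⟨t⁻¹, inv_ne_zero ht, ?_⟩
    rw [inv_eq_iff_mul_eq_one]
    apply appHom_injective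
    rw [map_mul, appHom_kd5, appHom_kd5, kd5Lin_mul, mul_inv_cancel₀ ht, kd5Lin_one, map_one]
  · refine Or.inr ?_
    rw [inv_eq_iff_mul_eq_one]
    apply appHom_injective
    rw [map_mul, appHom_neg5, map_one]
    exact neg_one_mul_neg_one

theorem S5_mul_f5 (k : isoUnits (F := F) (W := W5 F) (hypN (quadFormOdd 1 F))) (hk : k ∈ S5)
    (g : Matrix.symplecticGroup (Fin 2) F) : ∃ g', k * f5 g = f5 g' * k := by
  rcases hk with ⟨t, ht, rfl⟩ | rfl
  · obtain ⟨g', hg'⟩ := exists_sp_of (cj4 t (toM4 g)) (cj4_sp t ht _ (toM4_sp g))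
    refine ⟨g', ?_⟩
    apply appHom_injective
    rw [map_mul, map_mul]
    show kd5Lin t * act5 (toM4 g) = act5 (toM4 g') * kd5Lin t
    rw [hg']
    exact kd5Lin_mul_act5 t ht (toM4 g) (toM4_sp' g) (by rw [← hg']; exact toM4_sp' g')
  · exact ⟨g, neg5_comm _⟩

theorem S5_conj (k : isoUnits (F := F) (W := W5 F) (hypN (quadFormOdd 1 F))) (hk : k ∈ S5)
    (n : isoUnits (F := F) (W := W5 F) (hypN (quadFormOdd 1 F))) (hn : n ∈ (f5 (F := F)).range) :
    k * n * k⁻¹ ∈ (f5 (F := F)).range ∧ k⁻¹ * n * k ∈ (f5 (F := F)).range := by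
  obtain ⟨g, rfl⟩ := hn
  constructor
  · obtain ⟨g', hg'⟩ := S5_mul_f5 k hk g
    exact ⟨g', by rw [hg']; group⟩
  · obtain ⟨g', hg'⟩ := S5_mul_f5 k⁻¹ (S5_inv k hk) g
    refine ⟨g', ?_⟩
    have : k⁻¹ * f5 g * k = k⁻¹ * f5 g * k⁻¹⁻¹ := by rw [inv_inv]
    rw [this, hg']; group

theorem S5_comm (x : isoUnits (F := F) (W := W5 F) (hypN (quadFormOdd 1 F))) (hx : x ∈ S5)
    (y : isoUnits (F := F) (W := W5 F) (hypN (quadFormOdd 1 F))) (hy : y ∈ S5) :
    ⁅x, y⁆ ∈ (f5 (F := F)).range := by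
  have hc : x * y = y * x := by
    rcases hx with ⟨t, ht, rfl⟩ | rfl <;> rcases hy with ⟨t', ht', rfl⟩ | rfl
    · apply appHom_injective
      rw [map_mul, map_mul, appHom_kd5, appHom_kd5, kd5Lin_mul, kd5Lin_mul, mul_comm]
    · exact (neg5_comm _).symm
    · exact neg5_comm _
    · rfl
  have : Commute x y := hc
  rw [commutatorElement_eq_one_iff_commute.mpr this]
  exact Subgroup.one_mem _

theorem sup_eq_top5 : (f5 (F := F)).range ⊔ Subgroup.closure (S5 (F := F)) = ⊤ := by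
  refine eq_top_of_hyp (F := F) (V := I3 → F) (quadFormOdd 1 F) quadFormOdd_zero
    ((f5 (F := F)).range ⊔ Subgroup.closure (S5 (F := F))) ?_ ?_ ?_
  · intro u hu hN
    obtain ⟨h, hh⟩ := exists_first_ne5 u hu hN
    have hN' : hypN kN₀ (iota (act5 (toM4 h) u)) = 0 := by
      rw [hypN_iota, hypN_act5 _ (toM4_sp' h) (det_toM4 h), hN]
    have htr : (iota (act5 (toM4 h) u)).2.2 0 0 + (iota (act5 (toM4 h) u)).2.2 1 1 = 0 := by
      rw [iota_apply]
      simp
    have hh' : (iota (act5 (toM4 h) u)).1 ≠ 0 := hh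
    obtain ⟨g, hg⟩ := exists_sp_of _ (mvx_sp (iota (act5 (toM4 h) u)) hh' htr)
    have h1 : act5 (toM4 g) hex = act5 (toM4 h) u := by
      rw [hg, act5_apply, iota_hex, act4_mvx (iota (act5 (toM4 h) u)) hh' hN', proj_iota]
    refine ⟨(f5 h)⁻¹ * f5 g, Subgroup.mul_mem _ (Subgroup.inv_mem _
      (Subgroup.mem_sup_left ⟨h, rfl⟩)) (Subgroup.mem_sup_left ⟨g, rfl⟩), ?_⟩
    rw [map_mul, Module.End.mul_apply]
    show appHom (hypN (quadFormOdd 1 F)) (f5 h)⁻¹ (act5 (toM4 g) hex) = u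
    rw [h1]
    exact appHom_inv_apply (hypN (quadFormOdd 1 F)) (f5 h) u
  · intro v
    obtain ⟨v0, v1, v2, rfl⟩ : ∃ v0 v1 v2, v = vec3 v0 v1 v2 := ⟨_, _, _, vec3_eta v⟩
    obtain ⟨g, hg⟩ := exists_sp_of (mvy (F := F) !![v0, v1; v2, -v0])
      (mvy_sp _ (by simp))
    refine ⟨f5 g, Subgroup.mem_sup_left ⟨g, rfl⟩, ?_, ?_⟩
    · show act5 (toM4 g) hex = hex
      rw [hg, act5_apply, iota_hex, act4_mvy_hex, ← iota_hex, proj_iota]
    · show act5 (toM4 g) hey = _
      rw [hg, act5_apply, iota_hey, act4_mvy_hey, proj_apply]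
      refine Prod.ext ?_ (Prod.ext rfl ?_)
      · simp [kN₀, Matrix.det_fin_two, quadFormOdd]
        ring
      · simp
  · intro T hx hy
    obtain ⟨τ, τ', hτ, hττ', hT⟩ :=
      stab_units (F := F) (V := I3 → F) (quadFormOdd 1 F) quadFormOdd_zero T hx hy
    have hT' : LinearMap.toMatrix' τ' * LinearMap.toMatrix' τ = 1 := by
      rw [← LinearMap.toMatrix'_comp]
      have : τ' ∘ₗ τ = LinearMap.id := LinearMap.ext hττ'
      rw [this, LinearMap.toMatrix'_id]
    have hQ : ∀ u, quadFormOdd 1 F (LinearMap.toMatrix' τ *ᵥ u) = quadFormOdd 1 F u := by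
      intro u
      rw [LinearMap.toMatrix'_mulVec]
      exact hτ u
    obtain ⟨A, hA, h⟩ := exists_rep_matrix _ _ hT' hQ
    obtain ⟨g, hg⟩ := exists_sp_of _ (bd_sp A hA)
    have hm1 : kd5 (A.det)⁻¹ (inv_ne_zero hA) * f5 g ∈
        (f5 (F := F)).range ⊔ Subgroup.closure (S5 (F := F)) :=
      Subgroup.mul_mem _
        (Subgroup.mem_sup_right (Subgroup.subset_closure (Or.inl ⟨_, _, rfl⟩)))
        (Subgroup.mem_sup_left ⟨g, rfl⟩)
    have e1 : hext (Matrix.toLin' (M3 A)) =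
        appHom (hypN (quadFormOdd 1 F)) (kd5 (A.det)⁻¹ (inv_ne_zero hA) * f5 g) := by
      rw [hext_M3 A hA, map_mul]
      show _ = kd5Lin (A.det)⁻¹ * act5 (toM4 g)
      rw [hg]
    have hτ' : τ = Matrix.toLin' (LinearMap.toMatrix' τ) := (Matrix.toLin'_toMatrix' τ).symm
    rcases h with h | h
    · have hTe : T = kd5 (A.det)⁻¹ (inv_ne_zero hA) * f5 g := by
        apply appHom_injective
        rw [hT, hτ', h, e1]
      rw [hTe]
      exact hm1
    · have hTe : T = neg5 * kd5 (-1) (neg_ne_zero.mpr one_ne_zero) *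
          (kd5 (A.det)⁻¹ (inv_ne_zero hA) * f5 g) := by
        apply appHom_injective
        rw [hT, hτ', h, map_neg, hext_neg, e1, map_mul, map_mul]
        rfl
      rw [hTe]
      refine Subgroup.mul_mem _ (Subgroup.mul_mem _ ?_ ?_) hm1
      · exact Subgroup.mem_sup_right (Subgroup.subset_closure (Or.inr rfl))
      · exact Subgroup.mem_sup_right (Subgroup.subset_closure (Or.inl ⟨_, _, rfl⟩))

theorem range_f5 (hperf : commutator (Matrix.symplecticGroup (Fin 2) F) = ⊤) :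
    (f5 (F := F)).range =
      commutator (isoUnits (F := F) (W := W5 F) (hypN (quadFormOdd 1 F))) := by
  apply le_antisymm
  · rintro _ ⟨g, rfl⟩
    have hg : g ∈ commutator (Matrix.symplecticGroup (Fin 2) F) := by
      rw [hperf]; trivial
    rw [commutator_def] at hg ⊢
    have h1 : f5 g ∈ Subgroup.map f5 ⁅(⊤ : Subgroup (Matrix.symplecticGroup (Fin 2) F)),
        (⊤ : Subgroup (Matrix.symplecticGroup (Fin 2) F))⁆ :=
      Subgroup.mem_map_of_mem f5 hg
    rw [Subgroup.map_commutator] at h1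
    exact Subgroup.commutator_mono le_top le_top h1
  · exact (commutator_le_of_sup_eq_top _ S5 S5_conj S5_comm sup_eq_top5).2

theorem f5_ne_one : ∃ g : Matrix.symplecticGroup (Fin 2) F, f5 g ≠ 1 := by
  obtain ⟨g, hg⟩ := exists_sp_of (mvy (F := F) !![0, 1; 0, -0]) (mvy_sp _ (by simp))
  refine ⟨g, fun h => ?_⟩
  have h3 : act5 (toM4 g) hey = hey := by
    have h0 := congrArg (appHom (hypN (quadFormOdd 1 F))) h
    rw [map_one] at h0
    have h4 : act5 (toM4 g) = 1 := h0
    rw [h4, Module.End.one_apply]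
  rw [hg, act5_apply, iota_hey, act4_mvy_hey, proj_apply] at h3
  have h5 := congrFun (congrArg (fun w : W5 F => w.2.2) h3) (.inr (.inl 0))
  simp [hey] at h5

end Cfsg.Agent.Lib.Helper99.Sp4
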