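import Mathlib
import Cfsg.Prelude.Def_Classical
import Cfsg.Agent.Lib.Helper99.IsoModel
import Cfsg.Agent.Lib.Helper99.HypExt
import Cfsg.Agent.Lib.Helper99.Klein
import Cfsg.Agent.Lib.Helper99.Sp4Model
import Cfsg.Agent.Lib.Helper99.Sp4Surj
import Cfsg.Agent.Lib.Helper99.B2Gen
import Cfsg.Agent.Lib.Helper99.B2Iso
import Cfsg.Agent.S0269

/-!
# `PΩ₅(F) ≅ PSp₄(F)` over an arbitrary field with at least three elements
-/

set_option autoImplicit false
set_option linter.unusedSectionVars false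
set_option linter.unnecessarySeqFocus false

namespace Cfsg.Agent.Lib.Helper99.B2

open Cfsg Matrix Cfsg.Agent.Lib.Helper99 Cfsg.Agent.Lib.Helper99.Klein
  Cfsg.Agent.Lib.Helper99.Sp4

variable {F : Type*} [Field F]

/-- `Sp₄(F)` is perfect when `F` has at least three elements -/
theorem perfect_sp4 (hF : ∃ a : F, a ≠ 0 ∧ a ≠ 1) :
    commutator (Matrix.symplecticGroup (Fin 2) F) = ⊤ := by
  obtain ⟨a, ha0, ha1⟩ := hF
  by_cases h : a = -1
  · have h2 : (2 : F) ≠ 0 := by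
      intro h2
      apply ha1
      rw [h]
      linear_combination -h2
    exact Cfsg.Agent.S0269.perfect_of (0 : Fin 2)
      (fun c => Cfsg.Agent.S0269.key_two 0 1 (by decide) h2 c)
  · have hl : a ^ 2 - 1 ≠ 0 := by
      intro h6
      have h7 : (a - 1) * (a + 1) = 0 := by linear_combination h6
      rcases mul_eq_zero.1 h7 with h8 | h8
      · exact ha1 (sub_eq_zero.1 h8)
      · exact h (eq_neg_of_add_eq_zero_left h8)
    exact Cfsg.Agent.S0269.perfect_of (0 : Fin 2)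
      (fun c => Cfsg.Agent.S0269.key_scalar 0 a ha0 hl c)

/-- a matrix commuting with four explicit matrices is scalar -/
theorem scalar_of_comm_Y (M : Matrix (Fin 4) (Fin 4) F)
    (h1 : M * !![0, 1, 0, 0; 0, 0, 0, 0; 0, 0, 0, 0; 0, 0, 1, 0] =
      !![0, 1, 0, 0; 0, 0, 0, 0; 0, 0, 0, 0; 0, 0, 1, 0] * M)
    (h2 : M * !![0, 0, 0, 0; 1, 0, 0, 0; 0, 0, 0, 1; 0, 0, 0, 0] =
      !![0, 0, 0, 0; 1, 0, 0, 0; 0, 0, 0, 1; 0, 0, 0, 0] * M)
    (h3 : M * !![0, 0, 0, -1; 0, 0, 1, 0; 0, 0, 0, 0; 0, 0, 0, 0] =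
      !![0, 0, 0, -1; 0, 0, 1, 0; 0, 0, 0, 0; 0, 0, 0, 0] * M)
    (h4 : M * !![0, 0, 0, 0; 0, 0, 0, 0; 0, 1, 0, 0; -1, 0, 0, 0] =
      !![0, 0, 0, 0; 0, 0, 0, 0; 0, 1, 0, 0; -1, 0, 0, 0] * M) :
    M = M 0 0 • (1 : Matrix (Fin 4) (Fin 4) F) := by
  have a01 := congrFun (congrFun h1 0) 1
  have a11 := congrFun (congrFun h1 1) 1
  have a21 := congrFun (congrFun h1 2) 1
  have a02 := congrFun (congrFun h1 0) 2
  have a12 := congrFun (congrFun h1 1) 2
  have a22 := congrFun (congrFun h1 2) 2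
  have a32 := congrFun (congrFun h1 3) 2
  have b00 := congrFun (congrFun h2 0) 0
  have b30 := congrFun (congrFun h2 3) 0
  have b03 := congrFun (congrFun h2 0) 3
  have b33 := congrFun (congrFun h2 3) 3
  have c12 := congrFun (congrFun h3 1) 2
  have c22 := congrFun (congrFun h3 2) 2
  have c33 := congrFun (congrFun h3 3) 3
  have d11 := congrFun (congrFun h4 1) 1
  have d00 := congrFun (congrFun h4 0) 0
  simp [Matrix.mul_apply, Fin.sum_univ_four] at a01 a11 a21 a02 a12 a22 a32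
  simp [Matrix.mul_apply, Fin.sum_univ_four] at b00 b30 b03 b33 c12 c22 c33 d11 d00
  have e11 : M 1 1 = M 0 0 := a01.symm
  have e22 : M 2 2 = M 0 0 := by rw [← c12, e11]
  have e33 : M 3 3 = M 0 0 := by rw [a32, e22]
  refine Matrix.ext fun i j => ?_
  fin_cases i <;> fin_cases j <;>
    simp [a11, a21, a12, a22, b00, b30, b03, b33, c22, c33, d11, d00, e11, e22, e33]

theorem Hm4_iota_J4 (x y v0 v1 v2 : F) :
    Hm4 (iota ((x, y, Cfsg.Agent.S0298.vec3 v0 v1 v2) : W5 F)) * J4 =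
      !![v0, v1, 0, -x; v2, -v0, x, 0; 0, y, v0, v2; -y, 0, v1, -v0] := by
  rw [iota_apply, Hm4_apply]
  refine Matrix.ext fun i j => ?_
  fin_cases i <;> fin_cases j <;> simp [J4, Matrix.mul_apply, Fin.sum_univ_four]

/-- an element of `Sp₄(F)` acting trivially on the 5-dimensional model commutes with the
matrices `Hm4 (iota w) * J4` -/
theorem comm_of_f5 (g : Matrix.symplecticGroup (Fin 2) F) (h : f5 g = 1) (w : W5 F) :
    toM4 g * (Hm4 (iota w) * J4) = (Hm4 (iota w) * J4) * toM4 g := by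
  have h0 : act5 (toM4 g) = 1 := by
    rw [← appHom_f5, h, map_one]
  have h1 : act4 (toM4 g) (iota w) = iota w := by
    rw [← iota_act5 _ (toM4_sp' g), h0, Module.End.one_apply]
  have h2 : toM4 g * Hm4 (iota w) * (toM4 g)ᵀ = Hm4 (iota w) := by
    rw [← Hm4_act4, h1]
  calc toM4 g * (Hm4 (iota w) * J4)
      = toM4 g * Hm4 (iota w) * ((toM4 g)ᵀ * J4 * toM4 g) := by
        rw [toM4_sp' g, Matrix.mul_assoc]
    _ = (toM4 g * Hm4 (iota w) * (toM4 g)ᵀ) * J4 * toM4 g := by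
        simp only [Matrix.mul_assoc]
    _ = (Hm4 (iota w) * J4) * toM4 g := by rw [h2]

theorem ker_f5_le_center :
    (f5 (F := F)).ker ≤ Subgroup.center (Matrix.symplecticGroup (Fin 2) F) := by
  intro g hg
  rw [MonoidHom.mem_ker] at hg
  have k1 := comm_of_f5 g hg ((0, 0, Cfsg.Agent.S0298.vec3 0 1 0) : W5 F)
  have k2 := comm_of_f5 g hg ((0, 0, Cfsg.Agent.S0298.vec3 0 0 1) : W5 F)
  have k3 := comm_of_f5 g hg ((1, 0, Cfsg.Agent.S0298.vec3 0 0 0) : W5 F)
  have k4 := comm_of_f5 g hg ((0, 1, Cfsg.Agent.S0298.vec3 0 0 0) : W5 F)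
  rw [Hm4_iota_J4] at k1 k2 k3 k4
  simp only [neg_zero] at k1 k2 k3 k4
  exact central_of_scalar g _ (scalar_of_comm_Y _ k1 k2 k3 k4)

/-- `PΩ₅(F) ≅ PSp₄(F)` for every field with at least three elements -/
theorem pomega5_equiv_psp (hF : ∃ a : F, a ≠ 0 ∧ a ≠ 1) :
    Nonempty (POmega F (quadFormOdd 2 F) ≃* PSp 2 F) := by
  have hperf := perfect_sp4 hF
  have : Group.IsPerfect (Matrix.symplecticGroup (Fin 2) F) := ⟨hperf⟩
  refine commutator_quotient_center_equiv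
    (isoEquiv psi5 (quadFormOdd 2 F) (hypN (quadFormOdd 1 F)) hypN_psi5) f5 (range_f5 hperf)
    (QuotientGroup.mk' _) (QuotientGroup.mk'_surjective _) ?_ ?_ ?_
  · rw [QuotientGroup.ker_mk']
    exact ker_f5_le_center
  · rw [QuotientGroup.ker_mk']
  · intro x hx
    have h := Group.IsPerfect.center_quotient_center_eq_bot (Matrix.symplecticGroup (Fin 2) F)
    rw [h] at hx
    exact hx

end Cfsg.Agent.Lib.Helper99.B2
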