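import Mathlib
import Cfsg.Prelude.Def_Classical
import Cfsg.Agent.Lib.Helper18.Symp
import Cfsg.Agent.Lib.Helper99.B2Omega
import Cfsg.Agent.S0269
import Cfsg.Agent.S0270
import Cfsg.Agent.S0271

/-!
# `PSp₄(F)` is simple over an arbitrary field with at least three elements

The argument is that of `Cfsg.Agent.S0270` (Iwasawa's criterion), with the perfectness of `Sp₄(F)`
supplied for arbitrary fields.
-/

set_option autoImplicit false
set_option linter.unusedSectionVars false
set_option linter.unnecessarySeqFocus false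

namespace Cfsg.Agent.Lib.Helper99.B2

open Cfsg Matrix Cfsg.Agent.Lib.Helper18 Cfsg.Agent.S0269 Cfsg.Agent.S0270
open scoped LinearAlgebra.Projectivization Pointwise

variable {F : Type*} [Field F]

/-- `PSp₄(F)` is simple for every field with at least three elements -/
theorem psp4_simple (hF : ∃ a : F, a ≠ 0 ∧ a ≠ 1) : IsSimpleGroup (Cfsg.PSp 2 F) := by
  have hperf : commutator (symplecticGroup (Fin 2) F) = ⊤ := perfect_sp4 hF
  have hcen : Subgroup.center (symplecticGroup (Fin 2) F) ≠ ⊤ := by
    intro htop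
    have h1 := (commutator_eq_bot_iff_center_eq_top _).2 htop
    rw [hperf] at h1
    have h2 : tvec (Sum.elim (Pi.single (0 : Fin 2) (1:F)) 0 : Fin 2 ⊕ Fin 2 → F) 1 ∈
        (⊥ : Subgroup (symplecticGroup (Fin 2) F)) := h1 ▸ Subgroup.mem_top _
    rw [Subgroup.mem_bot] at h2
    have h4 : (tvec (Sum.elim (Pi.single (0 : Fin 2) (1:F)) 0 : Fin 2 ⊕ Fin 2 → F) 1 :
        Matrix (Fin 2 ⊕ Fin 2) (Fin 2 ⊕ Fin 2) F) =
        fromBlocks 1 ((1:F) • vecMulVec (Pi.single (0 : Fin 2) (1:F))
          (Pi.single (0 : Fin 2) (1:F))) 0 1 := sympTransvection_elim _ 1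
    rw [h2] at h4
    have h5 := congrFun (congrFun h4 (Sum.inl 0)) (Sum.inr 0)
    simp [vecMulVec_apply] at h5
  haveI : Nontrivial (Cfsg.PSp 2 F) := QuotientGroup.nontrivial_iff.2 hcen
  apply IsSimpleGroup.mk
  intro Nbar hNbar
  have hmap : (Nbar.comap (QuotientGroup.mk' (Subgroup.center (symplecticGroup (Fin 2) F)))).map
      (QuotientGroup.mk' _) = Nbar :=
    Subgroup.map_comap_eq_self_of_surjective (QuotientGroup.mk'_surjective _) Nbar
  haveI : (Nbar.comap (QuotientGroup.mk' (Subgroup.center (symplecticGroup (Fin 2) F)))).Normal :=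
    hNbar.comap _
  by_cases hfix : MulAction.fixedPoints
      (Nbar.comap (QuotientGroup.mk' (Subgroup.center (symplecticGroup (Fin 2) F))))
      (ℙ F (Fin 2 ⊕ Fin 2 → F)) = Set.univ
  · left
    have hNc : Nbar.comap (QuotientGroup.mk' (Subgroup.center (symplecticGroup (Fin 2) F))) ≤
        Subgroup.center (symplecticGroup (Fin 2) F) := by
      intro g hg
      apply central_of_fix
      intro p
      have hp : p ∈ MulAction.fixedPoints
          (Nbar.comap (QuotientGroup.mk' (Subgroup.center (symplecticGroup (Fin 2) F))))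
          (ℙ F (Fin 2 ⊕ Fin 2 → F)) := by rw [hfix]; trivial
      exact hp ⟨g, hg⟩
    rw [← hmap, eq_bot_iff]
    rintro _ ⟨g, hg, rfl⟩
    rw [Subgroup.mem_bot]
    exact (QuotientGroup.eq_one_iff g).2 (hNc hg)
  · right
    have h1 := iwasawa.commutator_le _ hfix
    rw [hperf, top_le_iff] at h1
    rw [← hmap, h1]
    exact Subgroup.map_top_of_surjective _ (QuotientGroup.mk'_surjective _)

/-- a perfect non-trivial group is not commutative -/
theorem not_comm_of_perfect {G : Type*} [Group G] [Nontrivial G] (h : commutator G = ⊤) :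
    ¬ IsMulCommutative G := by
  intro hc
  have h1 : commutator G ≤ ⊥ := by
    rw [commutator_def, Subgroup.commutator_le]
    intro a _ b _
    rw [Subgroup.mem_bot, commutatorElement_eq_one_iff_commute]
    exact hc.is_comm.comm a b
  rw [h, top_le_iff] at h1
  obtain ⟨x, y, hxy⟩ := exists_pair_ne G
  have hx : x ∈ (⊤ : Subgroup G) := Subgroup.mem_top x
  have hy : y ∈ (⊤ : Subgroup G) := Subgroup.mem_top y
  rw [← h1, Subgroup.mem_bot] at hx hy
  exact hxy (by rw [hx, hy])

end Cfsg.Agent.Lib.Helper99.B2
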