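import Mathlib

/-!
# Root elements of the orthogonal group of the hyperbolic form in dimension eight
-/

set_option autoImplicit false
set_option linter.unusedSectionVars false
set_option linter.unnecessarySeqFocus false

namespace Cfsg.Agent.Lib.Helper99.D4

open Matrix

variable {F : Type*} [Field F]

/-- the involution `i ↦ i'` on the indices of the hyperbolic basis -/
def pr (a : Fin 8) : Fin 8 := a + 4

/-- the root element `1 + t (E_ab - E_b'a')` -/
def Xr (a b : Fin 8) (t : F) : Matrix (Fin 8) (Fin 8) F :=
  1 + t • (Matrix.single a b (1 : F) - Matrix.single (pr b) (pr a) (1 : F))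

theorem Xr_apply (a b : Fin 8) (t : F) (c p : Fin 8) :
    Xr a b t c p = (if c = p then 1 else 0) +
      t * ((if c = a ∧ p = b then 1 else 0) - (if c = pr b ∧ p = pr a then 1 else 0)) := by
  unfold Xr
  simp only [Matrix.add_apply, Matrix.smul_apply, Matrix.sub_apply, Matrix.one_apply,
    Matrix.single_apply, smul_eq_mul]
  congr 3 <;> simp [eq_comm]

theorem Xr_sum (a b : Fin 8) (t : F) (c : Fin 8) (f : Fin 8 → F) :
    ∑ p, Xr a b t c p * f p =
      f c + t * ((if c = a then f b else 0) - (if c = pr b then f (pr a) else 0)) := by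
  simp only [Xr_apply, add_mul, Finset.sum_add_distrib, ite_mul, one_mul, zero_mul,
    Finset.sum_ite_eq, Finset.mem_univ, if_true, mul_assoc, ← Finset.mul_sum, sub_mul,
    Finset.sum_sub_distrib, ite_and]
  by_cases h1 : c = a <;> by_cases h2 : c = pr b <;> simp [h1, h2]

/-- the entries of the conjugate of a matrix by a root element -/
theorem conjX_apply (a b : Fin 8) (t : F) (Y : Matrix (Fin 8) (Fin 8) F) (c d : Fin 8) :
    (Xr a b t * Y * (Xr a b t)ᵀ) c d =
      (Y c d + t * ((if d = a then Y c b else 0) - (if d = pr b then Y c (pr a) else 0))) +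
      t * ((if c = a then
          (Y b d + t * ((if d = a then Y b b else 0) - (if d = pr b then Y b (pr a) else 0)))
          else 0) -
        (if c = pr b then
          (Y (pr a) d + t * ((if d = a then Y (pr a) b else 0) -
            (if d = pr b then Y (pr a) (pr a) else 0))) else 0)) := by
  have h1 : ∀ p : Fin 8, (Y * (Xr a b t)ᵀ) p d =
      Y p d + t * ((if d = a then Y p b else 0) - (if d = pr b then Y p (pr a) else 0)) := by
    intro p
    rw [Matrix.mul_apply]
    simp only [Matrix.transpose_apply]
    rw [← Xr_sum a b t d (fun q => Y p q)]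
    exact Finset.sum_congr rfl fun q _ => mul_comm _ _
  rw [Matrix.mul_assoc, Matrix.mul_apply, Xr_sum a b t c (fun p => (Y * (Xr a b t)ᵀ) p d)]
  simp only [h1]

theorem sum24 (f : Fin 24 → F) : ∑ i, f i = f 0 + f 1 + f 2 + f 3 + f 4 + f 5 + f 6 + f 7 + f 8 +
    f 9 + f 10 + f 11 + f 12 + f 13 + f 14 + f 15 + f 16 + f 17 + f 18 + f 19 + f 20 + f 21 +
    f 22 + f 23 := by
  simp [Fin.sum_univ_succ]
  ring

end Cfsg.Agent.Lib.Helper99.D4
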