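import Mathlib
import Cfsg.Prelude.Def_ChevD4
import Cfsg.Agent.Lib.Helper99.D4Root

/-!
# The Chevalley group of type `D₄` and the adjoint representation of `O₈⁺`

The orthogonal group of the form `x₀x₄ + x₁x₅ + x₂x₆ + x₃x₇` acts on the degree two part of the
even Clifford algebra, which is the quotient of `F × M₈(F)` by the pairs `(-κ(S), S)` with `S`
symmetric.  The coordinates below identify the Chevalley basis with explicit representatives.
-/

set_option autoImplicit false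
set_option linter.unusedSectionVars false
set_option linter.unnecessarySeqFocus false

namespace Cfsg.Agent.Lib.Helper99.D4

open Cfsg Cfsg.Lie Matrix

variable {F : Type*} [Field F]

/-- the index set of the Chevalley basis: four coroots and twenty-four roots -/
abbrev I28 : Type := Fin 4 ⊕ Fin 24

/-- the root elements of `Ω₈⁺`, indexed as in the Chevalley datum -/
def xs (r : Fin 24) (t : F) : Matrix (Fin 8) (Fin 8) F :=
  (![Xr 4 1 (t),
    Xr 4 2 (t),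
    Xr 3 0 (t),
    Xr 4 3 (t),
    Xr 2 0 (-t),
    Xr 1 0 (t),
    Xr 5 2 (-t),
    Xr 3 1 (-t),
    Xr 5 3 (-t),
    Xr 2 1 (t),
    Xr 3 2 (t),
    Xr 6 3 (t),
    Xr 2 7 (-t),
    Xr 2 3 (t),
    Xr 1 2 (t),
    Xr 1 7 (t),
    Xr 1 3 (-t),
    Xr 1 6 (t),
    Xr 0 1 (t),
    Xr 0 2 (-t),
    Xr 0 7 (-t),
    Xr 0 3 (t),
    Xr 0 6 (-t),
    Xr 0 5 (-t)] :
    Fin 24 → Matrix (Fin 8) (Fin 8) F) r

/-- the representative of the vector with given coordinates in the Chevalley basis -/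
def iotaD : (I28 → F) →ₗ[F] F × Matrix (Fin 8) (Fin 8) F where
  toFun m := (-m (Sum.inl 3),
    !![0, -m (Sum.inr 23), -m (Sum.inr 22), -m (Sum.inr 20), m (Sum.inl 0), m (Sum.inr 18), -m (Sum.inr 19), m (Sum.inr 21);
      0, 0, m (Sum.inr 17), m (Sum.inr 15), m (Sum.inr 5), m (Sum.inl 1) - m (Sum.inl 0), m (Sum.inr 14), -m (Sum.inr 16);
      0, 0, 0, -m (Sum.inr 12), -m (Sum.inr 4), m (Sum.inr 9), m (Sum.inl 2) + m (Sum.inl 3) - m (Sum.inl 1), m (Sum.inr 13);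
      0, 0, 0, 0, m (Sum.inr 2), -m (Sum.inr 7), m (Sum.inr 10), m (Sum.inl 3) - m (Sum.inl 2);
      0, 0, 0, 0, 0, m (Sum.inr 0), m (Sum.inr 1), m (Sum.inr 3);
      0, 0, 0, 0, 0, 0, -m (Sum.inr 6), -m (Sum.inr 8);
      0, 0, 0, 0, 0, 0, 0, m (Sum.inr 11);
      0, 0, 0, 0, 0, 0, 0, 0])
  map_add' u v := by
    refine Prod.ext ?_ (Matrix.ext fun i j => ?_)
    · simp; ring
    · fin_cases i <;> fin_cases j <;> simp <;> ring
  map_smul' a v := by
    refine Prod.ext ?_ (Matrix.ext fun i j => ?_)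
    · simp
    · fin_cases i <;> fin_cases j <;> simp <;> ring

theorem iotaD_apply (m : I28 → F) : iotaD m = (-m (Sum.inl 3),
    !![0, -m (Sum.inr 23), -m (Sum.inr 22), -m (Sum.inr 20), m (Sum.inl 0), m (Sum.inr 18), -m (Sum.inr 19), m (Sum.inr 21);
      0, 0, m (Sum.inr 17), m (Sum.inr 15), m (Sum.inr 5), m (Sum.inl 1) - m (Sum.inl 0), m (Sum.inr 14), -m (Sum.inr 16);
      0, 0, 0, -m (Sum.inr 12), -m (Sum.inr 4), m (Sum.inr 9), m (Sum.inl 2) + m (Sum.inl 3) - m (Sum.inl 1), m (Sum.inr 13);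
      0, 0, 0, 0, m (Sum.inr 2), -m (Sum.inr 7), m (Sum.inr 10), m (Sum.inl 3) - m (Sum.inl 2);
      0, 0, 0, 0, 0, m (Sum.inr 0), m (Sum.inr 1), m (Sum.inr 3);
      0, 0, 0, 0, 0, 0, -m (Sum.inr 6), -m (Sum.inr 8);
      0, 0, 0, 0, 0, 0, 0, m (Sum.inr 11);
      0, 0, 0, 0, 0, 0, 0, 0]) := rfl

/-- the coordinates in the Chevalley basis -/
def RD : F × Matrix (Fin 8) (Fin 8) F →ₗ[F] (I28 → F) where
  toFun p := Sum.elim ![(p.2 0 4 - p.2 4 0),
      (p.2 0 4 - p.2 4 0) + (p.2 1 5 - p.2 5 1),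
      (p.2 0 4 - p.2 4 0) + (p.2 1 5 - p.2 5 1) + (p.2 2 6 - p.2 6 2) + (p.1 + p.2 4 0 + p.2 5 1 + p.2 6 2 + p.2 7 3),
      -(p.1 + p.2 4 0 + p.2 5 1 + p.2 6 2 + p.2 7 3)]
    ![p.2 4 5 - p.2 5 4,
      p.2 4 6 - p.2 6 4,
      p.2 3 4 - p.2 4 3,
      p.2 4 7 - p.2 7 4,
      p.2 4 2 - p.2 2 4,
      p.2 1 4 - p.2 4 1,
      p.2 6 5 - p.2 5 6,
      p.2 5 3 - p.2 3 5,
      p.2 7 5 - p.2 5 7,
      p.2 2 5 - p.2 5 2,
      p.2 3 6 - p.2 6 3,
      p.2 6 7 - p.2 7 6,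
      p.2 3 2 - p.2 2 3,
      p.2 2 7 - p.2 7 2,
      p.2 1 6 - p.2 6 1,
      p.2 1 3 - p.2 3 1,
      p.2 7 1 - p.2 1 7,
      p.2 1 2 - p.2 2 1,
      p.2 0 5 - p.2 5 0,
      p.2 6 0 - p.2 0 6,
      p.2 3 0 - p.2 0 3,
      p.2 0 7 - p.2 7 0,
      p.2 2 0 - p.2 0 2,
      p.2 1 0 - p.2 0 1]
  map_add' p q := by
    funext i
    rcases i with i | i <;> fin_cases i <;> simp <;> ring
  map_smul' a p := by
    funext i
    rcases i with i | i <;> fin_cases i <;> simp <;> ring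

theorem RD_apply (p : F × Matrix (Fin 8) (Fin 8) F) : RD p =
    Sum.elim ![(p.2 0 4 - p.2 4 0),
      (p.2 0 4 - p.2 4 0) + (p.2 1 5 - p.2 5 1),
      (p.2 0 4 - p.2 4 0) + (p.2 1 5 - p.2 5 1) + (p.2 2 6 - p.2 6 2) + (p.1 + p.2 4 0 + p.2 5 1 + p.2 6 2 + p.2 7 3),
      -(p.1 + p.2 4 0 + p.2 5 1 + p.2 6 2 + p.2 7 3)]
    ![p.2 4 5 - p.2 5 4,
      p.2 4 6 - p.2 6 4,
      p.2 3 4 - p.2 4 3,
      p.2 4 7 - p.2 7 4,
      p.2 4 2 - p.2 2 4,
      p.2 1 4 - p.2 4 1,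
      p.2 6 5 - p.2 5 6,
      p.2 5 3 - p.2 3 5,
      p.2 7 5 - p.2 5 7,
      p.2 2 5 - p.2 5 2,
      p.2 3 6 - p.2 6 3,
      p.2 6 7 - p.2 7 6,
      p.2 3 2 - p.2 2 3,
      p.2 2 7 - p.2 7 2,
      p.2 1 6 - p.2 6 1,
      p.2 1 3 - p.2 3 1,
      p.2 7 1 - p.2 1 7,
      p.2 1 2 - p.2 2 1,
      p.2 0 5 - p.2 5 0,
      p.2 6 0 - p.2 0 6,
      p.2 3 0 - p.2 0 3,
      p.2 0 7 - p.2 7 0,
      p.2 2 0 - p.2 0 2,
      p.2 1 0 - p.2 0 1] := rfl

/-- the action of a matrix on `F × M₈(F)` -/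
def act8 (g : Matrix (Fin 8) (Fin 8) F) :
    F × Matrix (Fin 8) (Fin 8) F →ₗ[F] F × Matrix (Fin 8) (Fin 8) F where
  toFun p := (p.1, g * p.2 * gᵀ)
  map_add' p q := by
    refine Prod.ext rfl ?_
    show g * (p.2 + q.2) * gᵀ = g * p.2 * gᵀ + g * q.2 * gᵀ
    rw [Matrix.mul_add, Matrix.add_mul]
  map_smul' a p := by
    refine Prod.ext rfl ?_
    show g * (a • p.2) * gᵀ = a • (g * p.2 * gᵀ)
    rw [Matrix.mul_smul, Matrix.smul_mul]

theorem act8_apply (g : Matrix (Fin 8) (Fin 8) F) (p : F × Matrix (Fin 8) (Fin 8) F) :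
    act8 g p = (p.1, g * p.2 * gᵀ) := rfl

/-- the adjoint action in coordinates -/
def phiD (g : Matrix (Fin 8) (Fin 8) F) : (I28 → F) →ₗ[F] (I28 → F) :=
  RD ∘ₗ act8 g ∘ₗ iotaD

theorem phiD_apply (g : Matrix (Fin 8) (Fin 8) F) (m : I28 → F) :
    phiD g m = RD (-m (Sum.inl 3), g * (iotaD m).2 * gᵀ) := rfl

/-- the generators of the Chevalley group of type `D₄` -/
def xm (r : Fin 24) (t : F) : Matrix I28 I28 F := chevD4.xMat F r t

theorem xm_apply (r : Fin 24) (t : F) (row col : I28) : xm r t row col =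
    match col with
    | Sum.inl i =>
      (match row with
       | Sum.inl i' => if i' = i then 1 else 0
       | Sum.inr u => if u = r then
          - (((chevD4.cartanSR.getD i.val #[]).getD r.val 0 : ℤ) : F) * t else 0)
    | Sum.inr s =>
      if s = r then (match row with | Sum.inr u => if u = r then 1 else 0 | Sum.inl _ => 0)
      else if s.val = chevD4.negIdx.getD r.val 0 then
        (match row with
         | Sum.inl i => (((chevD4.coroot.getD r.val #[]).getD i.val 0 : ℤ) : F) * t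
         | Sum.inr u => if u = s then 1 else if u = r then -(t ^ 2) else 0)
      else
        (match row with
         | Sum.inl _ => 0
         | Sum.inr u => (if u = s then 1 else 0) +
             ((chevD4.chainCoeff r.val s.val u.val).map fun km => ((km.2 : ℤ) : F) * t ^ km.1).sum) := by
  rcases row with i' | u <;> rcases col with i | s <;> rfl

end Cfsg.Agent.Lib.Helper99.D4
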