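import Mathlib
import Cfsg.Agent.Lib.Helper99.D4Basis

/-!
# The root element `x_0(t)` of `Ω₈⁺` acts as the generator `x_0(t)` of the Chevalley group
of type `D₄` (root number 0)
-/

set_option autoImplicit false
set_option linter.unusedSectionVars false
set_option linter.unnecessarySeqFocus false

namespace Cfsg.Agent.Lib.Helper99.D4

open Cfsg Cfsg.Lie Matrix

variable {F : Type*} [Field F]

set_option maxHeartbeats 16000000 in
theorem phiD_xs_0 (t : F) (m : I28 → F) : phiD (xs 0 t) m = xm 0 t *ᵥ m := by
  funext i
  rw [phiD_apply, RD_apply, iotaD_apply]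
  rcases i with i | i <;> fin_cases i <;>
    simp [xs, conjX_apply, pr, Matrix.mulVec, dotProduct, Fintype.sum_sum_type, Fin.sum_univ_four,
      sum24, xm_apply, chevD4, chevD4CartanSR, chevD4Coroot, chevD4NegIdx, chevD4Chain,
      ChevalleyDatum.chainCoeff, chevD4Chain0] <;>
    ring

end Cfsg.Agent.Lib.Helper99.D4
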