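import Mathlib
import Cfsg.Agent.Lib.Helper99.D4Basis
import Cfsg.Agent.Lib.Helper99.D4Act0
import Cfsg.Agent.Lib.Helper99.D4Act1
import Cfsg.Agent.Lib.Helper99.D4Act2
import Cfsg.Agent.Lib.Helper99.D4Act3
import Cfsg.Agent.Lib.Helper99.D4Act4
import Cfsg.Agent.Lib.Helper99.D4Act5
import Cfsg.Agent.Lib.Helper99.D4Act6
import Cfsg.Agent.Lib.Helper99.D4Act7
import Cfsg.Agent.Lib.Helper99.D4Act8
import Cfsg.Agent.Lib.Helper99.D4Act9
import Cfsg.Agent.Lib.Helper99.D4Act10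
import Cfsg.Agent.Lib.Helper99.D4Act11
import Cfsg.Agent.Lib.Helper99.D4Act12
import Cfsg.Agent.Lib.Helper99.D4Act13
import Cfsg.Agent.Lib.Helper99.D4Act14
import Cfsg.Agent.Lib.Helper99.D4Act15
import Cfsg.Agent.Lib.Helper99.D4Act16
import Cfsg.Agent.Lib.Helper99.D4Act17
import Cfsg.Agent.Lib.Helper99.D4Act18
import Cfsg.Agent.Lib.Helper99.D4Act19
import Cfsg.Agent.Lib.Helper99.D4Act20
import Cfsg.Agent.Lib.Helper99.D4Act21
import Cfsg.Agent.Lib.Helper99.D4Act22
import Cfsg.Agent.Lib.Helper99.D4Act23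

/-!
# The root elements of `Ω₈⁺` act as the generators of the Chevalley group of type `D₄`
-/

set_option autoImplicit false
set_option linter.unusedSectionVars false
set_option linter.unnecessarySeqFocus false

namespace Cfsg.Agent.Lib.Helper99.D4

open Cfsg Cfsg.Lie Matrix

variable {F : Type*} [Field F]

/-- the root element `x_r(t)` of `Ω₈⁺` acts as `x_r(t)` -/
theorem phiD_xs (r : Fin 24) (t : F) (m : I28 → F) : phiD (xs r t) m = xm r t *ᵥ m := by
  fin_cases r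
  · exact phiD_xs_0 t m
  · exact phiD_xs_1 t m
  · exact phiD_xs_2 t m
  · exact phiD_xs_3 t m
  · exact phiD_xs_4 t m
  · exact phiD_xs_5 t m
  · exact phiD_xs_6 t m
  · exact phiD_xs_7 t m
  · exact phiD_xs_8 t m
  · exact phiD_xs_9 t m
  · exact phiD_xs_10 t m
  · exact phiD_xs_11 t m
  · exact phiD_xs_12 t m
  · exact phiD_xs_13 t m
  · exact phiD_xs_14 t m
  · exact phiD_xs_15 t m
  · exact phiD_xs_16 t m
  · exact phiD_xs_17 t m
  · exact phiD_xs_18 t m
  · exact phiD_xs_19 t m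
  · exact phiD_xs_20 t m
  · exact phiD_xs_21 t m
  · exact phiD_xs_22 t m
  · exact phiD_xs_23 t m

theorem phiD_xs_eq (r : Fin 24) (t : F) : phiD (xs r t) = Matrix.toLin' (xm r t) :=
  LinearMap.ext fun c => by rw [phiD_xs, Matrix.toLin'_apply]

end Cfsg.Agent.Lib.Helper99.D4
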