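import Mathlib
import Cfsg.Prelude.Def_Classical
import Cfsg.Agent.Lib.Helper99.IsoModel
import Cfsg.Agent.Lib.Helper99.D4Root

/-!
# The orthogonal group of the hyperbolic form in dimension eight, in coordinates `Fin 8`

The form is `x₀x₄ + x₁x₅ + x₂x₆ + x₃x₇`.  We introduce its isometry group `O8`, the root
elements, the diagonal elements and a reflection, and show that the subgroup generated by the
root elements is contained in the commutator subgroup.
-/

set_option autoImplicit false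
set_option linter.unusedSectionVars false
set_option linter.unnecessarySeqFocus false
set_option linter.unusedSimpArgs false

namespace Cfsg.Agent.Lib.Helper99.D4

open Cfsg Matrix Cfsg.Agent.Lib.Helper99
open scoped commutatorElement

variable {F : Type*} [Field F]

theorem pr_pr (a : Fin 8) : pr (pr a) = a := by revert a; decide
theorem pr_ne (a : Fin 8) : pr a ≠ a := by revert a; decide
theorem pr_ne' (a : Fin 8) : a ≠ pr a := by revert a; decide
theorem pr_inj {a b : Fin 8} : pr a = pr b ↔ a = b := by revert a b; decide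
theorem pr_eq_iff {a b : Fin 8} : pr a = b ↔ a = pr b := by revert a b; decide

/-- the quadratic form -/
def Q8 (v : Fin 8 → F) : F := v 0 * v 4 + v 1 * v 5 + v 2 * v 6 + v 3 * v 7

/-- its polar form -/
def B8 (u v : Fin 8 → F) : F := ∑ a, u a * v (pr a)

theorem Q8_add (u v : Fin 8 → F) : Q8 (u + v) = Q8 u + Q8 v + B8 u v := by
  simp [Q8, B8, Fin.sum_univ_eight, pr]
  ring1

theorem Xr_mulVec (a b : Fin 8) (t : F) (v : Fin 8 → F) (c : Fin 8) :
    (Xr a b t *ᵥ v) c =
      v c + t * ((if c = a then v b else 0) - (if c = pr b then v (pr a) else 0)) :=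
  Xr_sum a b t c v

theorem Xr_mul_apply (a b : Fin 8) (t : F) (M : Matrix (Fin 8) (Fin 8) F) (c j : Fin 8) :
    (Xr a b t * M) c j =
      M c j + t * ((if c = a then M b j else 0) - (if c = pr b then M (pr a) j else 0)) := by
  rw [Matrix.mul_apply]
  exact Xr_sum a b t c (fun p => M p j)

theorem mat_ext {M N : Matrix (Fin 8) (Fin 8) F} (h : ∀ v, M *ᵥ v = N *ᵥ v) : M = N := by
  ext i j
  have := congrFun (h (Pi.single j 1)) i
  simpa using this

theorem Xr_mul (a b : Fin 8) (hab : a ≠ b) (s t : F) : Xr a b s * Xr a b t = Xr a b (s + t) := by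
  apply mat_ext
  intro v
  funext c
  have h1 : b ≠ a := hab.symm
  have h2 : pr a ≠ pr b := fun h => hab (pr_inj.1 h)
  simp only [← Matrix.mulVec_mulVec, Xr_mulVec, h1, h2, pr_ne, pr_ne', if_false, sub_zero,
    mul_zero, add_zero]
  ring1

theorem Xr_zero (a b : Fin 8) : Xr a b (0 : F) = 1 := by
  unfold Xr
  simp

theorem Xr_swap (a b : Fin 8) (t : F) : Xr (pr b) (pr a) t = Xr a b (-t) := by
  unfold Xr
  rw [pr_pr, pr_pr, neg_smul, ← smul_neg, neg_sub]

theorem Q8_Xr (a b : Fin 8) (hab : a ≠ b) (hab' : a ≠ pr b) (t : F) (v : Fin 8 → F) :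
    Q8 (Xr a b t *ᵥ v) = Q8 v := by
  unfold Q8
  simp only [Xr_mulVec]
  fin_cases a <;> fin_cases b <;> simp [pr] at hab hab' ⊢ <;> ring_nf

theorem Xr_comm (a b c : Fin 8) (hab : a ≠ b) (hab' : a ≠ pr b) (hbc : b ≠ c) (hbc' : b ≠ pr c)
    (hac : a ≠ c) (hac' : a ≠ pr c) (t u : F) :
    Xr a b t * Xr b c u = Xr a c (t * u) * Xr b c u * Xr a b t := by
  apply mat_ext
  intro v
  funext d
  have h1 : b ≠ a := hab.symm
  have h2 : pr a ≠ pr b := fun h => hab (pr_inj.1 h)
  have h3 : pr a ≠ b := fun h => hab' (pr_eq_iff.1 h)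
  have h4 : c ≠ b := hbc.symm
  have h5 : pr b ≠ c := fun h => hbc' (pr_eq_iff.1 h)
  have h6 : pr b ≠ pr c := fun h => hbc (pr_inj.1 h)
  have h7 : c ≠ a := hac.symm
  have h8 : pr a ≠ c := fun h => hac' (pr_eq_iff.1 h)
  have h9 : pr a ≠ pr c := fun h => hac (pr_inj.1 h)
  have h10 : pr b ≠ a := fun h => hab' h.symm
  have h11 : pr c ≠ b := fun h => hbc' h.symm
  have h12 : pr c ≠ a := fun h => hac' h.symm
  have h13 : c ≠ pr b := fun h => hbc' (by rw [h, pr_pr])
  simp only [← Matrix.mulVec_mulVec, Xr_mulVec, h1, h2, h3, h4, h5, h6, h7, h8, h9, h10, h11, h12,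
    hab, hab', hbc, hbc', hac, hac', pr_ne, pr_ne', if_false, pr_pr, if_true]
  by_cases e1 : d = a
  · subst e1
    simp [hab, hab', hac, hac', h13]
    ring1
  by_cases e2 : d = b
  · subst e2
    simp [e1, hbc, hbc', pr_ne', h13]
  by_cases e3 : d = pr b
  · subst e3
    simp [e1, e2, h6]
  by_cases e4 : d = pr c
  · subst e4
    simp [e1, e2, e3]
    ring1
  simp [e1, e2, e3, e4]

/-- the isometry group of the form -/
abbrev O8 (F : Type*) [Field F] : Subgroup (GL (Fin 8) F) :=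
  Cfsg.isometryGroup F (Q8 (F := F))

/-- the matrix of an isometry -/
def toM8 : O8 F →* Matrix (Fin 8) (Fin 8) F := (Units.coeHom _).comp (O8 F).subtype

theorem toM8_injective : Function.Injective (toM8 (F := F)) :=
  fun _ _ h => Subtype.ext (Units.ext h)

theorem Q8_toM8 (g : O8 F) (v : Fin 8 → F) : Q8 (toM8 g *ᵥ v) = Q8 v := g.2 v v

theorem B8_toM8 (g : O8 F) (u v : Fin 8 → F) : B8 (toM8 g *ᵥ u) (toM8 g *ᵥ v) = B8 u v := by
  have h := Q8_toM8 g (u + v)
  rw [Matrix.mulVec_add, Q8_add, Q8_add, Q8_toM8, Q8_toM8] at h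
  exact add_left_cancel h

theorem toM8_mul_inv (g : O8 F) : toM8 g * toM8 g⁻¹ = 1 := by
  rw [← map_mul, mul_inv_cancel, map_one]

theorem toM8_inv_mul (g : O8 F) : toM8 g⁻¹ * toM8 g = 1 := by
  rw [← map_mul, inv_mul_cancel, map_one]

/-- an isometry from a matrix with a two-sided inverse preserving the form -/
def mkO8 (M N : Matrix (Fin 8) (Fin 8) F) (h1 : M * N = 1) (h2 : N * M = 1)
    (hQ : ∀ v, Q8 (M *ᵥ v) = Q8 v) : O8 F :=
  ⟨⟨M, N, h1, h2⟩, fun u _ => hQ u⟩

theorem toM8_mkO8 (M N : Matrix (Fin 8) (Fin 8) F) (h1 : M * N = 1) (h2 : N * M = 1)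
    (hQ : ∀ v, Q8 (M *ᵥ v) = Q8 v) : toM8 (mkO8 M N h1 h2 hQ) = M := rfl

/-- the root elements as isometries -/
def xO (a b : Fin 8) (hab : a ≠ b) (hab' : a ≠ pr b) (t : F) : O8 F :=
  mkO8 (Xr a b t) (Xr a b (-t)) (by rw [Xr_mul a b hab, add_neg_cancel, Xr_zero])
    (by rw [Xr_mul a b hab, neg_add_cancel, Xr_zero]) (Q8_Xr a b hab hab' t)

theorem toM8_xO (a b : Fin 8) (hab : a ≠ b) (hab' : a ≠ pr b) (t : F) :
    toM8 (xO a b hab hab' t) = Xr a b t := rfl

/-- the subgroup generated by the root elements -/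
def E8 (F : Type*) [Field F] : Subgroup (O8 F) :=
  Subgroup.closure {g | ∃ (a b : Fin 8) (t : F), a ≠ b ∧ a ≠ pr b ∧ toM8 g = Xr a b t}

theorem xO_mem (a b : Fin 8) (hab : a ≠ b) (hab' : a ≠ pr b) (t : F) :
    xO a b hab hab' t ∈ E8 F :=
  Subgroup.subset_closure ⟨a, b, t, hab, hab', rfl⟩

theorem exists_mid : ∀ a c : Fin 8, a ≠ c → a ≠ pr c →
    ∃ b, a ≠ b ∧ a ≠ pr b ∧ b ≠ c ∧ b ≠ pr c := by decide

/-- the root elements are commutators -/
theorem E8_le_commutator : E8 F ≤ commutator (O8 F) := by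
  rw [E8, Subgroup.closure_le]
  rintro g ⟨a, c, t, hac, hac', hg⟩
  obtain ⟨b, hab, hab', hbc, hbc'⟩ := exists_mid a c hac hac'
  have h : ⁅xO a b hab hab' t, xO b c hbc hbc' 1⁆ = g := by
    apply comm_of_mul_eq
    apply toM8_injective
    rw [map_mul, map_mul, map_mul, hg, toM8_xO, toM8_xO,
      Xr_comm a b c hab hab' hbc hbc' hac hac', mul_one]
  rw [← h, commutator_def]
  exact Subgroup.commutator_mem_commutator (Subgroup.mem_top _) (Subgroup.mem_top _)

/-! ### Diagonal elements -/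

theorem Q8_diagonal (δ : Fin 8 → F) (hδ : ∀ c, δ c * δ (pr c) = 1) (v : Fin 8 → F) :
    Q8 (Matrix.diagonal δ *ᵥ v) = Q8 v := by
  have h0 : δ 0 * δ 4 = 1 := hδ 0
  have h1 : δ 1 * δ 5 = 1 := hδ 1
  have h2 : δ 2 * δ 6 = 1 := hδ 2
  have h3 : δ 3 * δ 7 = 1 := hδ 3
  unfold Q8
  simp only [Matrix.mulVec_diagonal]
  linear_combination (v 0 * v 4) * h0 + (v 1 * v 5) * h1 + (v 2 * v 6) * h2 + (v 3 * v 7) * h3

/-- the diagonal isometries -/
def dO (δ : Fin 8 → F) (hδ : ∀ c, δ c * δ (pr c) = 1) : O8 F :=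
  mkO8 (Matrix.diagonal δ) (Matrix.diagonal (fun c => δ (pr c)))
    (by
      rw [Matrix.diagonal_mul_diagonal, ← Matrix.diagonal_one]
      congr 1
      funext c
      exact hδ c)
    (by
      rw [Matrix.diagonal_mul_diagonal, ← Matrix.diagonal_one]
      congr 1
      funext c
      rw [mul_comm]
      exact hδ c)
    (Q8_diagonal δ hδ)

theorem toM8_dO (δ : Fin 8 → F) (hδ : ∀ c, δ c * δ (pr c) = 1) :
    toM8 (dO δ hδ) = Matrix.diagonal δ := rfl

theorem diagonal_mul_Xr (δ : Fin 8 → F) (hδ : ∀ c, δ c * δ (pr c) = 1) (a b : Fin 8) (t : F) :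
    Matrix.diagonal δ * Xr a b t = Xr a b (δ a * δ (pr b) * t) * Matrix.diagonal δ := by
  apply mat_ext
  intro v
  funext c
  have hb := hδ b
  have ha := hδ a
  simp only [← Matrix.mulVec_mulVec, Xr_mulVec, Matrix.mulVec_diagonal]
  by_cases e1 : c = a
  · subst e1
    by_cases e2 : c = pr b
    · simp only [e2, if_true, pr_pr] at ha ⊢
      linear_combination (t * v b * δ (pr b)) * hb - (t * v b * δ (pr b)) * ha
    · simp only [e2, if_true, if_false]
      linear_combination (-(δ c * t * v b)) * hb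
  · by_cases e2 : c = pr b
    · subst e2
      simp only [e1, if_true, if_false]
      linear_combination (δ (pr b) * t * v (pr a)) * ha
    · simp only [e1, e2, if_false]
      ring1

/-- the torus element scaling `e_k` by `lam` and `e_k'` by `lam⁻¹` -/
def tor (k : Fin 8) (lam : F) : Fin 8 → F :=
  fun c => if c = k then lam else if c = pr k then lam⁻¹ else 1

theorem tor_spec (k : Fin 8) (lam : F) (h : lam ≠ 0) (c : Fin 8) :
    tor k lam c * tor k lam (pr c) = 1 := by
  unfold tor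
  by_cases e1 : c = k
  · subst e1
    simp [pr_ne, h]
  · by_cases e2 : c = pr k
    · subst e2
      simp [pr_pr, pr_ne, h]
    · have e3 : pr c ≠ k := fun h => e2 (by rw [← h, pr_pr])
      have e4 : pr c ≠ pr k := fun h => e1 (pr_inj.1 h)
      simp [e1, e2, e3, e4]

/-! ### A reflection -/

/-- the transposition of the indices `3` and `7` -/
def sw (c : Fin 8) : Fin 8 := if c = 3 then 7 else if c = 7 then 3 else c

theorem sw_sw (c : Fin 8) : sw (sw c) = c := by revert c; decide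
theorem sw_pr (c : Fin 8) : sw (pr c) = pr (sw c) := by revert c; decide
theorem sw_eq_iff {c d : Fin 8} : sw c = d ↔ c = sw d := by revert c d; decide

/-- the matrix exchanging the basis vectors `e₃` and `e₇` -/
def Ps : Matrix (Fin 8) (Fin 8) F := Matrix.of fun c d => if c = sw d then 1 else 0

theorem Ps_mulVec (v : Fin 8 → F) (c : Fin 8) : ((Ps : Matrix (Fin 8) (Fin 8) F) *ᵥ v) c =
    v (sw c) := by
  simp only [Ps, Matrix.mulVec, dotProduct, Matrix.of_apply, ite_mul, one_mul, zero_mul]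
  rw [Finset.sum_eq_single (sw c)]
  · simp [sw_sw]
  · intro d _ hd
    rw [if_neg]
    intro h
    exact hd (by rw [h, sw_sw])
  · intro h
    exact absurd (Finset.mem_univ _) h

theorem Ps_mul_Ps : (Ps : Matrix (Fin 8) (Fin 8) F) * Ps = 1 := by
  apply mat_ext
  intro v
  funext c
  rw [← Matrix.mulVec_mulVec, Ps_mulVec, Ps_mulVec, sw_sw, Matrix.one_mulVec]

theorem Q8_Ps (v : Fin 8 → F) : Q8 ((Ps : Matrix (Fin 8) (Fin 8) F) *ᵥ v) = Q8 v := by
  unfold Q8
  simp only [Ps_mulVec]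
  have h0 : sw 0 = 0 := by decide
  have h1 : sw 1 = 1 := by decide
  have h2 : sw 2 = 2 := by decide
  have h3 : sw 3 = 7 := by decide
  have h4 : sw 4 = 4 := by decide
  have h5 : sw 5 = 5 := by decide
  have h6 : sw 6 = 6 := by decide
  have h7 : sw 7 = 3 := by decide
  rw [h0, h1, h2, h3, h4, h5, h6, h7]
  ring1

/-- the reflection exchanging `e₃` and `e₇` -/
def sO : O8 F := mkO8 Ps Ps Ps_mul_Ps Ps_mul_Ps Q8_Ps

theorem toM8_sO : toM8 (sO : O8 F) = Ps := rfl

theorem sO_mul_sO : (sO : O8 F) * sO = 1 := by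
  apply toM8_injective
  rw [map_mul, toM8_sO, Ps_mul_Ps, map_one]

theorem Ps_mul_Xr (a b : Fin 8) (t : F) :
    (Ps : Matrix (Fin 8) (Fin 8) F) * Xr a b t = Xr (sw a) (sw b) t * Ps := by
  apply mat_ext
  intro v
  funext c
  simp only [← Matrix.mulVec_mulVec, Xr_mulVec, Ps_mulVec, sw_sw, ← sw_pr, sw_eq_iff]

end Cfsg.Agent.Lib.Helper99.D4
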