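import Mathlib
import Cfsg.Prelude.Def_Classical
import Cfsg.Agent.Lib.Helper99.D4Root
import Cfsg.Agent.Lib.Helper99.D4Orth

/-!
# The orthogonal group `O₈⁺(F)` is generated by root elements, diagonal elements and a reflection

This holds over an arbitrary field; the proof is by elimination on the columns of an isometry.
-/

set_option autoImplicit false
set_option linter.unusedSectionVars false
set_option linter.unnecessarySeqFocus false
set_option linter.unusedSimpArgs false

namespace Cfsg.Agent.Lib.Helper99.D4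

open Cfsg Matrix Cfsg.Agent.Lib.Helper99
open scoped commutatorElement

variable {F : Type*} [Field F]

/-- the generators -/
def S8 (F : Type*) [Field F] : Set (O8 F) :=
  {g | (∃ (a b : Fin 8) (t : F), a ≠ b ∧ a ≠ pr b ∧ toM8 g = Xr a b t) ∨
    (∃ δ : Fin 8 → F, (∀ c, δ c * δ (pr c) = 1) ∧ toM8 g = Matrix.diagonal δ) ∨
    toM8 g = Ps}

/-- the subgroup generated by root elements, diagonal elements and the reflection -/
def H8 (F : Type*) [Field F] : Subgroup (O8 F) := Subgroup.closure (S8 F)

theorem E8_le_H8 : E8 F ≤ H8 F :=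
  Subgroup.closure_mono fun _ hg => Or.inl hg

theorem dO_mem_H8 (δ : Fin 8 → F) (hδ : ∀ c, δ c * δ (pr c) = 1) : dO δ hδ ∈ H8 F :=
  Subgroup.subset_closure (Or.inr (Or.inl ⟨δ, hδ, rfl⟩))

theorem sO_mem_H8 : (sO : O8 F) ∈ H8 F :=
  Subgroup.subset_closure (Or.inr (Or.inr rfl))

/-! ### Orthogonality relations between the columns -/

theorem B8_single (i j : Fin 8) :
    B8 (Pi.single i (1 : F)) (Pi.single j (1 : F)) = if pr i = j then 1 else 0 := by
  unfold B8
  rw [Finset.sum_eq_single i]
  · simp [Pi.single_apply, eq_comm]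
  · intro b _ hb
    simp [Pi.single_apply, hb]
  · intro h
    exact absurd (Finset.mem_univ _) h

theorem entry_orth (g : O8 F) (i j : Fin 8) :
    ∑ a, toM8 g a i * toM8 g (pr a) j = if pr i = j then 1 else 0 := by
  have h := B8_toM8 g (Pi.single i 1) (Pi.single j 1)
  rw [B8_single] at h
  rw [← h]
  unfold B8
  simp

theorem Q8_single (j : Fin 8) : Q8 (Pi.single j (1 : F)) = 0 := by
  unfold Q8
  fin_cases j <;> simp

theorem Q8_col (g : O8 F) (j : Fin 8) : Q8 (fun c => toM8 g c j) = 0 := by
  have h := Q8_toM8 g (Pi.single j 1)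
  rw [Q8_single] at h
  rw [← h]
  congr 1
  funext c
  simp

theorem Q8_two (v : Fin 8 → F) (k : Fin 8) (hv : ∀ d, d ≠ k → d ≠ pr k → v d = 0) :
    Q8 v = v k * v (pr k) ∨ Q8 v = v (pr k) * v k := by
  unfold Q8
  fin_cases k
  · left
    have h1 := hv 1 (by decide) (by decide)
    have h2 := hv 2 (by decide) (by decide)
    have h3 := hv 3 (by decide) (by decide)
    simp [h1, h2, h3, pr]
  · left
    have h1 := hv 0 (by decide) (by decide)
    have h2 := hv 2 (by decide) (by decide)
    have h3 := hv 3 (by decide) (by decide)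
    simp [h1, h2, h3, pr]
  · left
    have h1 := hv 0 (by decide) (by decide)
    have h2 := hv 1 (by decide) (by decide)
    have h3 := hv 3 (by decide) (by decide)
    simp [h1, h2, h3, pr]
  · left
    have h1 := hv 0 (by decide) (by decide)
    have h2 := hv 1 (by decide) (by decide)
    have h3 := hv 2 (by decide) (by decide)
    simp [h1, h2, h3, pr]
  · right
    have h1 := hv 1 (by decide) (by decide)
    have h2 := hv 2 (by decide) (by decide)
    have h3 := hv 3 (by decide) (by decide)
    simp [h1, h2, h3, pr]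
  · right
    have h1 := hv 0 (by decide) (by decide)
    have h2 := hv 2 (by decide) (by decide)
    have h3 := hv 3 (by decide) (by decide)
    simp [h1, h2, h3, pr]
  · right
    have h1 := hv 0 (by decide) (by decide)
    have h2 := hv 1 (by decide) (by decide)
    have h3 := hv 3 (by decide) (by decide)
    simp [h1, h2, h3, pr]
  · right
    have h1 := hv 0 (by decide) (by decide)
    have h2 := hv 1 (by decide) (by decide)
    have h3 := hv 2 (by decide) (by decide)
    simp [h1, h2, h3, pr]

theorem Q8_two' (v : Fin 8 → F) (k : Fin 8) (hv : ∀ d, d ≠ k → d ≠ pr k → v d = 0) :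
    Q8 v = v k * v (pr k) := by
  rcases Q8_two v k hv with h | h
  · exact h
  · rw [h, mul_comm]

/-! ### Isometries fixing the first basis vectors -/

/-- the columns `i` with `i % 4 < k` are the standard basis vectors -/
def FixK (k : ℕ) (M : Matrix (Fin 8) (Fin 8) F) : Prop :=
  ∀ i c : Fin 8, i.val % 4 < k → M c i = if c = i then 1 else 0

theorem pr_mod (c : Fin 8) : (pr c).val % 4 = c.val % 4 := by revert c; decide

theorem ne_of_mod : ∀ k c : Fin 8, k.val < c.val % 4 → c ≠ k ∧ c ≠ pr k := by decide

theorem eq_of_mod : ∀ k d : Fin 8, k.val ≤ 3 → d.val % 4 = k.val → d = k ∨ d = pr k := by decide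

theorem ne_of_mod_ne (i j : Fin 8) (h : i.val % 4 ≠ j.val % 4) : i ≠ j ∧ i ≠ pr j := by
  constructor
  · rintro rfl
    exact h rfl
  · rintro rfl
    exact h (pr_mod j)

/-- the rows with the same indices are standard as well -/
theorem row_of_fix (g : O8 F) (k : ℕ) (hg : FixK k (toM8 g)) (i j : Fin 8) (hi : i.val % 4 < k) :
    toM8 g i j = if i = j then 1 else 0 := by
  have h := entry_orth g j (pr i)
  have h2 : ∀ a, toM8 g (pr a) (pr i) = if a = i then 1 else 0 := by
    intro a
    rw [hg (pr i) (pr a) (by rw [pr_mod]; exact hi)]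
    simp [pr_inj]
  simp only [h2, mul_ite, mul_one, mul_zero, Finset.sum_ite_eq', Finset.mem_univ, if_true,
    pr_inj] at h
  rw [h]
  simp [eq_comm]

theorem fix_Xr (k : ℕ) (M : Matrix (Fin 8) (Fin 8) F) (hM : FixK k M) (a b : Fin 8)
    (ha : k ≤ a.val % 4) (hb : k ≤ b.val % 4) (t : F) : FixK k (Xr a b t * M) := by
  intro i c hi
  rw [Xr_mul_apply, hM i c hi, hM i b hi, hM i (pr a) hi]
  have h1 : b ≠ i := (ne_of_mod_ne b i (by omega)).1
  have h2 : pr a ≠ i := fun h => (ne_of_mod_ne i a (by omega)).2 h.symm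
  simp [h1, h2]

end Cfsg.Agent.Lib.Helper99.D4
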