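import Mathlib
import Cfsg.Prelude.Def_Classical
import Cfsg.Agent.Lib.Helper99.D4Root
import Cfsg.Agent.Lib.Helper99.D4Orth
import Cfsg.Agent.Lib.Helper99.D4Gen

/-!
# Elimination on the columns of an isometry of the hyperbolic form in dimension eight
-/

set_option autoImplicit false
set_option linter.unusedSectionVars false
set_option linter.unnecessarySeqFocus false
set_option linter.unusedSimpArgs false

namespace Cfsg.Agent.Lib.Helper99.D4

open Cfsg Matrix Cfsg.Agent.Lib.Helper99
open scoped commutatorElement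

variable {F : Type*} [Field F]

theorem toM8_xO_mul (a b : Fin 8) (hab : a ≠ b) (hab' : a ≠ pr b) (t : F) (g : O8 F)
    (c j : Fin 8) : toM8 (xO a b hab hab' t * g) c j =
      toM8 g c j + t * ((if c = a then toM8 g b j else 0) -
        (if c = pr b then toM8 g (pr a) j else 0)) := by
  rw [map_mul, toM8_xO, Xr_mul_apply]

/-- first step: if some entry of the column `k` below the diagonal block is non-zero, the
diagonal entry can be made non-zero -/
theorem stepA1 (k : Fin 8) (g : O8 F) (hg : FixK k.val (toM8 g)) (c : Fin 8)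
    (hc : k.val < c.val % 4) (hkk : toM8 g k k = 0) (hck : toM8 g c k ≠ 0) :
    ∃ h ∈ E8 F, toM8 (h * g) k k ≠ 0 ∧ FixK k.val (toM8 (h * g)) := by
  have h1 := ne_of_mod k c hc
  have h2 : k ≠ pr c := fun h => h1.2 (by rw [h, pr_pr])
  refine ⟨xO k c h1.1.symm h2 1, xO_mem _ _ _ _ _, ?_, ?_⟩
  · rw [toM8_xO_mul, hkk]
    simp [h2, hck]
  · rw [map_mul, toM8_xO]
    exact fix_Xr k.val _ hg k c (by omega) (by omega) 1

theorem three_mod : ∀ k : Fin 8, k.val ≤ 2 → k.val < (3 : Fin 8).val % 4 ∧ (3 : Fin 8) ≠ pr k ∧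
    (3 : Fin 8) ≠ k ∧ (3 : Fin 8) ≠ pr (pr k) ∧ k.val < (7 : Fin 8).val % 4 ∧ pr 3 = 7 := by
  decide

/-- first step: the diagonal entry of the column `k` can be made non-zero -/
theorem stepA (k : Fin 8) (hk : k.val ≤ 2) (g : O8 F) (hg : FixK k.val (toM8 g)) :
    ∃ h ∈ E8 F, toM8 (h * g) k k ≠ 0 ∧ FixK k.val (toM8 (h * g)) := by
  by_cases hkk : toM8 g k k = 0
  · by_cases hex : ∃ c : Fin 8, k.val < c.val % 4 ∧ toM8 g c k ≠ 0
    · obtain ⟨c, hc, hck⟩ := hex
      exact stepA1 k g hg c hc hkk hck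
    · have hz : ∀ c : Fin 8, k.val < c.val % 4 → toM8 g c k = 0 := by
        intro c hc
        by_contra h
        exact hex ⟨c, hc, h⟩
      have hcol : ∀ d, d ≠ pr k → toM8 g d k = 0 := by
        intro d hd
        rcases lt_trichotomy (d.val % 4) k.val with h | h | h
        · rw [row_of_fix g k.val hg d k h, if_neg]
          rintro rfl
          omega
        · rcases eq_of_mod k d (by omega) h with h' | h'
          · rw [h', hkk]
          · exact absurd h' hd
        · exact hz d h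
      have hpk : toM8 g (pr k) k ≠ 0 := by
        intro h0
        have h := entry_orth g k (pr k)
        rw [if_pos rfl] at h
        have h3 : ∀ a, toM8 g a k = 0 := by
          intro a
          by_cases ha : a = pr k
          · rw [ha, h0]
          · exact hcol a ha
        simp [h3] at h
      obtain ⟨t1, t2, t3, t4, t5, t6⟩ := three_mod k hk
      have e1 : toM8 (xO 3 (pr k) t2 t4 1 * g) 3 k ≠ 0 := by
        rw [toM8_xO_mul, hz 3 t1]
        simp [hpk, t4]
      have e2 : toM8 (xO 3 (pr k) t2 t4 1 * g) k k = 0 := by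
        rw [toM8_xO_mul, hkk, pr_pr, t6, hz 7 t5]
        simp [t3.symm]
      have e3 : FixK k.val (toM8 (xO 3 (pr k) t2 t4 1 * g)) := by
        rw [map_mul, toM8_xO]
        exact fix_Xr k.val _ hg 3 (pr k) (by omega) (by rw [pr_mod]; omega) 1
      obtain ⟨h, hh, h1, h2⟩ := stepA1 k (xO 3 (pr k) t2 t4 1 * g) e3 3 t1 e2 e1
      refine ⟨h * xO 3 (pr k) t2 t4 1, Subgroup.mul_mem _ hh (xO_mem _ _ _ _ _), ?_, ?_⟩
      · rw [mul_assoc]
        exact h1
      · rw [mul_assoc]
        exact h2
  · exact ⟨1, Subgroup.one_mem _, by rw [one_mul]; exact hkk, by rw [one_mul]; exact hg⟩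

/-- second step: clearing the entries of the column `k` in the rows of a list -/
theorem clearB (k : Fin 8) (l : List (Fin 8)) (hl : l.Nodup) (hk : ∀ c ∈ l, c ≠ k ∧ c ≠ pr k)
    (g : O8 F) (h0 : toM8 g k k ≠ 0) :
    ∃ h ∈ E8 F, (∀ c ∈ l, toM8 (h * g) c k = 0) ∧
      (∀ d, d ∉ l → d ≠ pr k → ∀ j, toM8 (h * g) d j = toM8 g d j) ∧
      (∀ j, j ≠ k → (∀ c ∈ l, j ≠ pr c) → (∀ d, toM8 g d j = if d = j then 1 else 0) →
        ∀ d, toM8 (h * g) d j = if d = j then 1 else 0) := by
  induction l with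
  | nil =>
    refine ⟨1, Subgroup.one_mem _, ?_, ?_, ?_⟩
    · intro c hc
      simp at hc
    · intro d _ _ j
      rw [one_mul]
    · intro j _ _ hj d
      rw [one_mul]
      exact hj d
  | cons c l ih =>
    obtain ⟨h', hh', p1, p2, p3⟩ := ih (List.nodup_cons.1 hl).2
      (fun x hx => hk x (List.mem_cons_of_mem _ hx))
    have hc := hk c List.mem_cons_self
    have hcl : c ∉ l := (List.nodup_cons.1 hl).1
    have hkl : k ∉ l := fun h => (hk k (List.mem_cons_of_mem _ h)).1 rfl
    have hkk : toM8 (h' * g) k k = toM8 g k k := p2 k hkl (pr_ne' k) k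
    have hkk' : toM8 (h' * g) k k ≠ 0 := by rw [hkk]; exact h0
    refine ⟨xO c k hc.1 hc.2 (-(toM8 (h' * g) c k / toM8 (h' * g) k k)) * h',
      Subgroup.mul_mem _ (xO_mem _ _ _ _ _) hh', ?_, ?_, ?_⟩
    · intro x hx
      rw [mul_assoc, toM8_xO_mul]
      rcases List.mem_cons.1 hx with rfl | hx'
      · rw [if_pos rfl, if_neg hc.2]
        field_simp
        ring1
      · have hxc : x ≠ c := fun h => hcl (h ▸ hx')
        rw [if_neg hxc, if_neg (hk x hx).2, p1 x hx']
        simp
    · intro d hd hd' j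
      rw [mul_assoc, toM8_xO_mul]
      have hdc : d ≠ c := fun h => hd (h ▸ List.mem_cons_self)
      rw [if_neg hdc, if_neg hd', p2 d (fun h => hd (List.mem_cons_of_mem _ h)) hd' j]
      simp
    · intro j hj hj' hcol d
      rw [mul_assoc, toM8_xO_mul]
      have q := p3 j hj (fun x hx => hj' x (List.mem_cons_of_mem _ hx)) hcol
      rw [q d, q k, q (pr c)]
      have h1 : k ≠ j := hj.symm
      have h2 : pr c ≠ j := fun h => hj' c List.mem_cons_self h.symm
      simp [h1, h2]

end Cfsg.Agent.Lib.Helper99.D4
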