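import Mathlib
import Cfsg.Prelude.Def_Classical
import Cfsg.Agent.Lib.Helper99.D4Root
import Cfsg.Agent.Lib.Helper99.D4Orth
import Cfsg.Agent.Lib.Helper99.D4Gen
import Cfsg.Agent.Lib.Helper99.D4Gen2

/-!
# `O₈⁺(F)` is generated by root elements, diagonal elements and a reflection
-/

set_option autoImplicit false
set_option linter.unusedSectionVars false
set_option linter.unnecessarySeqFocus false
set_option linter.unusedSimpArgs false

namespace Cfsg.Agent.Lib.Helper99.D4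

open Cfsg Matrix Cfsg.Agent.Lib.Helper99
open scoped commutatorElement

variable {F : Type*} [Field F]

/-- the rows to be cleared in round `k` -/
def cs (k : Fin 8) : List (Fin 8) := (List.finRange 8).filter (fun c => k.val < c.val % 4)

theorem cs_nodup (k : Fin 8) : (cs k).Nodup := List.Nodup.filter _ (List.nodup_finRange 8)

theorem mem_cs {k c : Fin 8} : c ∈ cs k ↔ k.val < c.val % 4 := by simp [cs]

theorem toM8_dO_mul (δ : Fin 8 → F) (hδ : ∀ c, δ c * δ (pr c) = 1) (g : O8 F) (c j : Fin 8) :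
    toM8 (dO δ hδ * g) c j = δ c * toM8 g c j := by
  rw [map_mul, toM8_dO, Matrix.diagonal_mul]

theorem tor_self (k : Fin 8) (lam : F) : tor k lam k = lam := by simp [tor]

theorem tor_pr (k : Fin 8) (lam : F) : tor k lam (pr k) = lam⁻¹ := by simp [tor, pr_ne]

theorem tor_other (k : Fin 8) (lam : F) (d : Fin 8) (h1 : d ≠ k) (h2 : d ≠ pr k) :
    tor k lam d = 1 := by simp [tor, h1, h2]

/-- one round of the elimination -/
theorem round (k : Fin 8) (hk : k.val ≤ 2) (g : O8 F) (hg : FixK k.val (toM8 g)) :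
    ∃ h ∈ H8 F, FixK (k.val + 1) (toM8 (h * g)) := by
  obtain ⟨h₁, hh₁, a1, a2⟩ := stepA k hk g hg
  obtain ⟨g₁, hg₁⟩ : ∃ g₁, g₁ = h₁ * g := ⟨_, rfl⟩
  rw [← hg₁] at a1 a2
  obtain ⟨h₂, hh₂, b1, b2, b3⟩ := clearB k (cs k) (cs_nodup k)
    (fun c hc => ne_of_mod k c (mem_cs.1 hc)) g₁ a1
  obtain ⟨g₂, hg₂⟩ : ∃ g₂, g₂ = h₂ * g₁ := ⟨_, rfl⟩
  rw [← hg₂] at b1 b2 b3
  have hkcs : k ∉ cs k := fun h => by
    have := mem_cs.1 h
    omega
  have hpkcs : pr k ∉ cs k := fun h => by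
    have := mem_cs.1 h
    rw [pr_mod] at this
    omega
  have fix2 : FixK k.val (toM8 g₂) := by
    intro i c hi
    refine b3 i ?_ ?_ (fun d => a2 i d hi) c
    · rintro rfl
      omega
    · intro x hx
      have := mem_cs.1 hx
      exact (ne_of_mod_ne i x (by omega)).2
  have kk2 : toM8 g₂ k k = toM8 g₁ k k := b2 k hkcs (pr_ne' k) k
  have kk2' : toM8 g₂ k k ≠ 0 := by rw [kk2]; exact a1
  have col2 : ∀ d, d ≠ k → d ≠ pr k → toM8 g₂ d k = 0 := by
    intro d hd hd'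
    rcases lt_trichotomy (d.val % 4) k.val with h | h | h
    · rw [row_of_fix _ k.val fix2 d k h, if_neg hd]
    · rcases eq_of_mod k d (by omega) h with h' | h'
      · exact absurd h' hd
      · exact absurd h' hd'
    · exact b1 d (mem_cs.2 h)
  have q2 : toM8 g₂ k k * toM8 g₂ (pr k) k = 0 := by
    rw [← Q8_two' (fun c => toM8 g₂ c k) k col2]
    exact Q8_col _ k
  have pk2 : toM8 g₂ (pr k) k = 0 := (mul_eq_zero.1 q2).resolve_left kk2'
  -- scaling
  have hlam : (toM8 g₂ k k)⁻¹ ≠ 0 := inv_ne_zero kk2'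
  obtain ⟨h₃, hh₃⟩ : ∃ h₃ : O8 F, h₃ = dO (tor k (toM8 g₂ k k)⁻¹) (tor_spec k _ hlam) :=
    ⟨_, rfl⟩
  have hh₃' : h₃ ∈ H8 F := by
    rw [hh₃]
    exact dO_mem_H8 _ _
  obtain ⟨g₃, hg₃⟩ : ∃ g₃, g₃ = h₃ * g₂ := ⟨_, rfl⟩
  have ent3 : ∀ c j, toM8 g₃ c j = tor k (toM8 g₂ k k)⁻¹ c * toM8 g₂ c j := by
    intro c j
    rw [hg₃, hh₃, toM8_dO_mul]
  have col3 : ∀ d, toM8 g₃ d k = if d = k then 1 else 0 := by
    intro d
    rw [ent3]
    by_cases e1 : d = k
    · rw [e1, if_pos rfl, tor_self, inv_mul_cancel₀ kk2']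
    · rw [if_neg e1]
      by_cases e2 : d = pr k
      · rw [e2, pk2, mul_zero]
      · rw [col2 d e1 e2, mul_zero]
  have fix3 : FixK k.val (toM8 g₃) := by
    intro i c hi
    rw [ent3, fix2 i c hi]
    by_cases e1 : c = i
    · have h1 := ne_of_mod_ne i k (by omega)
      rw [if_pos e1, e1, tor_other k _ i h1.1 h1.2, mul_one]
    · rw [if_neg e1, mul_zero]
  have e3 : toM8 g₃ (pr k) (pr k) = 1 := by
    have h := entry_orth g₃ k (pr k)
    simp only [col3, ite_mul, one_mul, zero_mul, Finset.sum_ite_eq', Finset.mem_univ,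
      if_true] at h
    exact h
  obtain ⟨h₄, hh₄, d1, d2, d3⟩ := clearB (pr k) (cs k) (cs_nodup k)
    (fun c hc => ⟨(ne_of_mod k c (mem_cs.1 hc)).2, by
      rw [pr_pr]
      exact (ne_of_mod k c (mem_cs.1 hc)).1⟩) g₃ (by rw [e3]; exact one_ne_zero)
  obtain ⟨g₄, hg₄⟩ : ∃ g₄, g₄ = h₄ * g₃ := ⟨_, rfl⟩
  rw [← hg₄] at d1 d2 d3
  have fix4 : FixK k.val (toM8 g₄) := by
    intro i c hi
    refine d3 i ?_ ?_ (fun d => fix3 i d hi) c
    · exact (ne_of_mod_ne i k (by omega)).2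
    · intro x hx
      have := mem_cs.1 hx
      exact (ne_of_mod_ne i x (by omega)).2
  have colk4 : ∀ d, toM8 g₄ d k = if d = k then 1 else 0 := by
    refine d3 k (pr_ne' k) ?_ col3
    intro x hx
    have h1 := (ne_of_mod k x (mem_cs.1 hx)).2
    intro h2
    exact h1 (by rw [h2, pr_pr])
  have colp : ∀ d, d ≠ k → d ≠ pr k → toM8 g₄ d (pr k) = 0 := by
    intro d hd hd'
    rcases lt_trichotomy (d.val % 4) k.val with h | h | h
    · rw [row_of_fix _ k.val fix4 d (pr k) h, if_neg hd']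
    · rcases eq_of_mod k d (by omega) h with h' | h'
      · exact absurd h' hd
      · exact absurd h' hd'
    · exact d1 d (mem_cs.2 h)
  have pp4 : toM8 g₄ (pr k) (pr k) = 1 := by
    rw [d2 (pr k) hpkcs (pr_ne' (pr k)) (pr k), e3]
  have kp4 : toM8 g₄ k (pr k) = 0 := by
    have h := Q8_col g₄ (pr k)
    rw [Q8_two' (fun c => toM8 g₄ c (pr k)) k colp, pp4, mul_one] at h
    exact h
  have colpk4 : ∀ d, toM8 g₄ d (pr k) = if d = pr k then 1 else 0 := by
    intro d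
    by_cases e1 : d = pr k
    · rw [e1, if_pos rfl, pp4]
    · rw [if_neg e1]
      by_cases e2 : d = k
      · rw [e2, kp4]
      · exact colp d e2 e1
  refine ⟨h₄ * h₃ * h₂ * h₁,
    Subgroup.mul_mem _ (Subgroup.mul_mem _ (Subgroup.mul_mem _ (E8_le_H8 hh₄) hh₃')
      (E8_le_H8 hh₂)) (E8_le_H8 hh₁), ?_⟩
  have e : h₄ * h₃ * h₂ * h₁ * g = g₄ := by
    rw [hg₄, hg₃, hg₂, hg₁]
    simp only [mul_assoc]
  rw [e]
  intro i c hi
  rcases Nat.lt_or_eq_of_le (Nat.lt_succ_iff.1 hi) with h | h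
  · exact fix4 i c h
  · rcases eq_of_mod k i (by omega) h with h' | h'
    · rw [h']
      exact colk4 c
    · rw [h']
      exact colpk4 c

end Cfsg.Agent.Lib.Helper99.D4
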