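import Mathlib
import Cfsg.Prelude.Def_Classical
import Cfsg.Agent.Lib.Helper99.D4Root
import Cfsg.Agent.Lib.Helper99.D4Orth
import Cfsg.Agent.Lib.Helper99.D4Gen
import Cfsg.Agent.Lib.Helper99.D4Gen2
import Cfsg.Agent.Lib.Helper99.D4Gen3

/-!
# `O₈⁺(F)` is generated by root elements, diagonal elements and a reflection: conclusion
-/

set_option autoImplicit false
set_option linter.unusedSectionVars false
set_option linter.unnecessarySeqFocus false
set_option linter.unusedSimpArgs false

namespace Cfsg.Agent.Lib.Helper99.D4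

open Cfsg Matrix Cfsg.Agent.Lib.Helper99
open scoped commutatorElement

variable {F : Type*} [Field F]

theorem toM8_dO_mul_sO (δ : Fin 8 → F) (hδ : ∀ c, δ c * δ (pr c) = 1) (c j : Fin 8) :
    toM8 (dO δ hδ * sO) c j = δ c * (if c = sw j then 1 else 0) := by
  rw [toM8_dO_mul, toM8_sO]
  rfl

/-- an isometry fixing the first three hyperbolic pairs is generated -/
theorem final (g : O8 F) (hg : FixK 3 (toM8 g)) : g ∈ H8 F := by
  have c0 := fun d => hg 0 d (by decide)
  have c1 := fun d => hg 1 d (by decide)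
  have c2 := fun d => hg 2 d (by decide)
  have c4 := fun d => hg 4 d (by decide)
  have c5 := fun d => hg 5 d (by decide)
  have c6 := fun d => hg 6 d (by decide)
  have r0 := fun j => row_of_fix g 3 hg 0 j (by decide)
  have r1 := fun j => row_of_fix g 3 hg 1 j (by decide)
  have r2 := fun j => row_of_fix g 3 hg 2 j (by decide)
  have r4 := fun j => row_of_fix g 3 hg 4 j (by decide)
  have r5 := fun j => row_of_fix g 3 hg 5 j (by decide)
  have r6 := fun j => row_of_fix g 3 hg 6 j (by decide)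
  have q3 : toM8 g 3 3 * toM8 g 7 3 = 0 := by
    have h := Q8_col g 3
    unfold Q8 at h
    simpa [r0, r1, r2, r4, r5, r6] using h
  have q7 : toM8 g 3 7 * toM8 g 7 7 = 0 := by
    have h := Q8_col g 7
    unfold Q8 at h
    simpa [r0, r1, r2, r4, r5, r6] using h
  have b37 : toM8 g 3 3 * toM8 g 7 7 + toM8 g 7 3 * toM8 g 3 7 = 1 := by
    have h := entry_orth g 3 7
    simp only [Fin.sum_univ_eight] at h
    have e0 : pr 0 = 4 := by decide
    have e1 : pr 1 = 5 := by decide
    have e2 : pr 2 = 6 := by decide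
    have e3 : pr 3 = 7 := by decide
    have e4 : pr 4 = 0 := by decide
    have e5 : pr 5 = 1 := by decide
    have e6 : pr 6 = 2 := by decide
    have e7 : pr 7 = 3 := by decide
    rw [e0, e1, e2, e3, e4, e5, e6, e7] at h
    simpa [r0, r1, r2, r4, r5, r6] using h
  by_cases hp : toM8 g 3 3 = 0
  · have hrq : toM8 g 7 3 * toM8 g 3 7 = 1 := by
      rw [hp, zero_mul, zero_add] at b37
      exact b37
    have hq : toM8 g 3 7 ≠ 0 := by
      intro h
      rw [h, mul_zero] at hrq
      exact zero_ne_one hrq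
    have hs : toM8 g 7 7 = 0 := (mul_eq_zero.1 q7).resolve_left hq
    have hr : toM8 g 7 3 = (toM8 g 3 7)⁻¹ := eq_inv_of_mul_eq_one_left hrq
    have e : g = dO (tor 3 (toM8 g 3 7)) (tor_spec 3 _ hq) * sO := by
      apply toM8_injective
      ext d j
      rw [toM8_dO_mul_sO]
      fin_cases j <;> fin_cases d <;>
        simp [c0, c1, c2, c4, c5, c6, r0, r1, r2, r4, r5, r6, hp, hs, hr, tor, sw, pr]
    rw [e]
    exact Subgroup.mul_mem _ (dO_mem_H8 _ _) sO_mem_H8
  · have hr : toM8 g 7 3 = 0 := (mul_eq_zero.1 q3).resolve_left hp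
    have hps : toM8 g 3 3 * toM8 g 7 7 = 1 := by
      rw [hr, zero_mul, add_zero] at b37
      exact b37
    have hs : toM8 g 7 7 = (toM8 g 3 3)⁻¹ := eq_inv_of_mul_eq_one_right hps
    have hs0 : toM8 g 7 7 ≠ 0 := by
      intro h
      rw [h, mul_zero] at hps
      exact zero_ne_one hps
    have hq : toM8 g 3 7 = 0 := (mul_eq_zero.1 q7).resolve_right hs0
    have e : g = dO (tor 3 (toM8 g 3 3)) (tor_spec 3 _ hp) := by
      apply toM8_injective
      ext d j
      rw [toM8_dO, Matrix.diagonal_apply]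
      fin_cases j <;> fin_cases d <;>
        simp [c0, c1, c2, c4, c5, c6, r0, r1, r2, r4, r5, r6, hq, hs, hr, tor, pr]
    rw [e]
    exact dO_mem_H8 _ _

/-- `O₈⁺(F)` is generated by the root elements, the diagonal elements and a reflection -/
theorem H8_eq_top : H8 F = ⊤ := by
  rw [eq_top_iff]
  intro g _
  have f0 : FixK (0 : Fin 8).val (toM8 g) := by
    intro i c hi
    exact absurd hi (Nat.not_lt_zero _)
  obtain ⟨h₀, hh₀, f1⟩ := round 0 (by decide) g f0
  obtain ⟨h₁, hh₁, f2⟩ := round 1 (by decide) (h₀ * g) f1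
  obtain ⟨h₂, hh₂, f3⟩ := round 2 (by decide) (h₁ * (h₀ * g)) f2
  have h := final _ f3
  have e : g = h₀⁻¹ * (h₁⁻¹ * (h₂⁻¹ * (h₂ * (h₁ * (h₀ * g))))) := by group
  rw [e]
  exact Subgroup.mul_mem _ (Subgroup.inv_mem _ hh₀) (Subgroup.mul_mem _ (Subgroup.inv_mem _ hh₁)
    (Subgroup.mul_mem _ (Subgroup.inv_mem _ hh₂) h))

end Cfsg.Agent.Lib.Helper99.D4
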