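import Mathlib
import Cfsg.Prelude.Def_Classical
import Cfsg.Agent.Lib.Helper99.D4Root
import Cfsg.Agent.Lib.Helper99.D4Orth
import Cfsg.Agent.Lib.Helper99.D4Gen
import Cfsg.Agent.Lib.Helper99.D4Gen4

/-!
# The commutator subgroup of `O₈⁺(F)` is generated by the root elements
-/

set_option autoImplicit false
set_option linter.unusedSectionVars false
set_option linter.unnecessarySeqFocus false
set_option linter.unusedSimpArgs false

namespace Cfsg.Agent.Lib.Helper99.D4

open Cfsg Matrix Cfsg.Agent.Lib.Helper99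
open scoped commutatorElement

variable {F : Type*} [Field F]

/-- if a group is generated by a set whose elements commute modulo a normal subgroup, its
commutator subgroup lies in that normal subgroup -/
theorem comm_le_of_closure {G : Type*} [Group G] (S : Set G) (hS : Subgroup.closure S = ⊤)
    (K : Subgroup G) [K.Normal] (h : ∀ s ∈ S, ∀ t ∈ S, ⁅s, t⁆ ∈ K) : commutator G ≤ K := by
  have hq : ∀ s ∈ S, ∀ t ∈ S, QuotientGroup.mk' K s * QuotientGroup.mk' K t =
      QuotientGroup.mk' K t * QuotientGroup.mk' K s := by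
    intro s hs t ht
    have h2 : QuotientGroup.mk' K ⁅s, t⁆ = 1 := (QuotientGroup.eq_one_iff _).2 (h s hs t ht)
    rw [map_commutatorElement, commutatorElement_eq_one_iff_commute] at h2
    exact h2.eq
  have h1 : ∀ t ∈ S, ∀ a : G, QuotientGroup.mk' K a * QuotientGroup.mk' K t =
      QuotientGroup.mk' K t * QuotientGroup.mk' K a := by
    intro t ht a
    have ha : a ∈ Subgroup.closure S := by rw [hS]; trivial
    induction ha using Subgroup.closure_induction with
    | mem s hs => exact hq s hs t ht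
    | one => simp
    | mul x y _ _ hx hy => rw [map_mul, mul_assoc, hy, ← mul_assoc, hx, mul_assoc]
    | inv x _ hx =>
      rw [map_inv]
      exact (Commute.inv_left (show Commute _ _ from hx)).eq
  have h2 : ∀ a b : G, QuotientGroup.mk' K a * QuotientGroup.mk' K b =
      QuotientGroup.mk' K b * QuotientGroup.mk' K a := by
    intro a b
    have hb : b ∈ Subgroup.closure S := by rw [hS]; trivial
    induction hb using Subgroup.closure_induction with
    | mem t ht => exact h1 t ht a
    | one => simp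
    | mul x y _ _ hx hy => rw [map_mul, ← mul_assoc, hx, mul_assoc, hy, ← mul_assoc]
    | inv x _ hx =>
      rw [map_inv]
      exact (Commute.inv_right (show Commute _ _ from hx)).eq
  rw [commutator_def, Subgroup.commutator_le]
  intro a _ b _
  have h3 : QuotientGroup.mk' K ⁅a, b⁆ = 1 := by
    rw [map_commutatorElement, commutatorElement_eq_one_iff_commute]
    exact h2 a b
  exact (QuotientGroup.eq_one_iff _).1 h3

/-! ### Diagonal elements in the subgroup generated by the root elements -/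

theorem W_mulVec (a b : Fin 8) (hab : a ≠ b) (hab' : a ≠ pr b) (lam : F) (hl : lam ≠ 0)
    (v : Fin 8 → F) (c : Fin 8) :
    ((Xr a b lam * Xr b a (-lam⁻¹) * Xr a b lam) *ᵥ v) c =
      if c = a then lam * v b else if c = b then -lam⁻¹ * v a else
      if c = pr a then lam⁻¹ * v (pr b) else if c = pr b then -lam * v (pr a) else v c := by
  have h1 : b ≠ a := hab.symm
  have h2 : pr a ≠ pr b := fun h => hab (pr_inj.1 h)
  have h3 : pr a ≠ b := fun h => hab' (pr_eq_iff.1 h)
  have h4 : pr b ≠ a := fun h => hab' h.symm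
  have h5 : b ≠ pr a := fun h => h3 h.symm
  have h6 : pr b ≠ pr a := fun h => h2 h.symm
  simp only [← Matrix.mulVec_mulVec, Xr_mulVec, pr_pr]
  by_cases e1 : c = a
  · subst e1
    simp [hab, hab', h1, h2, h3, h4, h5, h6, pr_ne, pr_ne']
    field_simp
    ring1
  by_cases e2 : c = b
  · subst e2
    simp [hab, hab', h1, h2, h3, h4, h5, h6, pr_ne, pr_ne']
    field_simp
    ring1
  by_cases e3 : c = pr a
  · subst e3
    simp [hab, hab', h1, h2, h3, h4, h5, h6, pr_ne, pr_ne']
    field_simp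
    ring1
  by_cases e4 : c = pr b
  · subst e4
    simp [hab, hab', h1, h2, h3, h4, h5, h6, pr_ne, pr_ne']
    field_simp
    ring1
  simp [e1, e2, e3, e4]

/-- the monomial element `n_r(lam)` -/
def wO (a b : Fin 8) (hab : a ≠ b) (hab' : a ≠ pr b) (lam : F) : O8 F :=
  xO a b hab hab' lam * xO b a hab.symm (fun h => hab' (by rw [h, pr_pr])) (-lam⁻¹) *
    xO a b hab hab' lam

theorem wO_mem (a b : Fin 8) (hab : a ≠ b) (hab' : a ≠ pr b) (lam : F) :
    wO a b hab hab' lam ∈ E8 F :=
  Subgroup.mul_mem _ (Subgroup.mul_mem _ (xO_mem _ _ _ _ _) (xO_mem _ _ _ _ _)) (xO_mem _ _ _ _ _)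

theorem wO_mulVec (a b : Fin 8) (hab : a ≠ b) (hab' : a ≠ pr b) (lam : F) (hl : lam ≠ 0)
    (v : Fin 8 → F) (c : Fin 8) :
    (toM8 (wO a b hab hab' lam) *ᵥ v) c =
      if c = a then lam * v b else if c = b then -lam⁻¹ * v a else
      if c = pr a then lam⁻¹ * v (pr b) else if c = pr b then -lam * v (pr a) else v c := by
  unfold wO
  rw [map_mul, map_mul, toM8_xO, toM8_xO]
  exact W_mulVec a b hab hab' lam hl v c

theorem hO_mulVec (a b : Fin 8) (hab : a ≠ b) (hab' : a ≠ pr b) (lam : F) (hl : lam ≠ 0)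
    (v : Fin 8 → F) (c : Fin 8) :
    (toM8 (wO a b hab hab' lam * wO a b hab hab' (-1)) *ᵥ v) c =
      if c = a then lam * v a else if c = b then lam⁻¹ * v b else
      if c = pr a then lam⁻¹ * v (pr a) else if c = pr b then lam * v (pr b) else v c := by
  have h1 : b ≠ a := hab.symm
  have h2 : pr a ≠ pr b := fun h => hab (pr_inj.1 h)
  have h3 : pr a ≠ b := fun h => hab' (pr_eq_iff.1 h)
  have h4 : pr b ≠ a := fun h => hab' h.symm
  have h5 : b ≠ pr a := fun h => h3 h.symm
  have h6 : pr b ≠ pr a := fun h => h2 h.symm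
  rw [map_mul, ← Matrix.mulVec_mulVec, wO_mulVec a b hab hab' lam hl]
  simp only [wO_mulVec a b hab hab' (-1 : F) (neg_ne_zero.2 one_ne_zero)]
  simp [hab, hab', h1, h2, h3, h4, h5, h6, pr_ne, pr_ne', pr_pr]
  by_cases e1 : c = a <;> by_cases e2 : c = b <;> by_cases e3 : c = pr a <;>
    by_cases e4 : c = pr b <;> simp [e1, e2, e3, e4]

theorem ne30 : (3 : Fin 8) ≠ 0 ∧ (3 : Fin 8) ≠ pr 0 ∧ (3 : Fin 8) ≠ 4 ∧ (3 : Fin 8) ≠ pr 4 := by
  decide

/-- the diagonal element scaling `e₃` by a square lies in the subgroup generated by the root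
elements -/
theorem tor_sq_mem (lam : F) (hl : lam ≠ 0) (x : O8 F)
    (hx : toM8 x = Matrix.diagonal (tor 3 (lam * lam))) : x ∈ E8 F := by
  have e : x = wO 3 0 ne30.1 ne30.2.1 lam * wO 3 0 ne30.1 ne30.2.1 (-1) *
      (wO 3 4 ne30.2.2.1 ne30.2.2.2 lam * wO 3 4 ne30.2.2.1 ne30.2.2.2 (-1)) := by
    apply toM8_injective
    rw [hx, map_mul]
    apply mat_ext
    intro v
    funext c
    rw [← Matrix.mulVec_mulVec, hO_mulVec 3 0 ne30.1 ne30.2.1 lam hl]
    simp only [hO_mulVec 3 4 ne30.2.2.1 ne30.2.2.2 lam hl, Matrix.mulVec_diagonal]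
    fin_cases c <;> simp [tor, pr] <;> field_simp
  rw [e]
  exact Subgroup.mul_mem _ (Subgroup.mul_mem _ (wO_mem _ _ _ _ _) (wO_mem _ _ _ _ _))
    (Subgroup.mul_mem _ (wO_mem _ _ _ _ _) (wO_mem _ _ _ _ _))

end Cfsg.Agent.Lib.Helper99.D4
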