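import Mathlib
import Cfsg.Prelude.Def_Classical
import Cfsg.Agent.Lib.Helper99.D4Root
import Cfsg.Agent.Lib.Helper99.D4Orth
import Cfsg.Agent.Lib.Helper99.D4Gen
import Cfsg.Agent.Lib.Helper99.D4Gen4
import Cfsg.Agent.Lib.Helper99.D4Comm

/-!
# The commutator subgroup of `O₈⁺(F)` is the subgroup generated by the root elements
-/

set_option autoImplicit false
set_option linter.unusedSectionVars false
set_option linter.unnecessarySeqFocus false
set_option linter.unusedSimpArgs false

namespace Cfsg.Agent.Lib.Helper99.D4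

open Cfsg Matrix Cfsg.Agent.Lib.Helper99
open scoped commutatorElement

variable {F : Type*} [Field F]

theorem conj_gen (s : O8 F)
    (hs : ∀ (a b : Fin 8) (t : F), a ≠ b → a ≠ pr b → ∀ x : O8 F, toM8 x = Xr a b t →
      s * x * s⁻¹ ∈ E8 F) : ∀ n ∈ E8 F, s * n * s⁻¹ ∈ E8 F := by
  intro n hn
  have hn' : n ∈ Subgroup.closure
      {g : O8 F | ∃ (a b : Fin 8) (t : F), a ≠ b ∧ a ≠ pr b ∧ toM8 g = Xr a b t} := hn
  induction hn' using Subgroup.closure_induction with
  | mem x hx =>
    obtain ⟨a, b, t, hab, hab', hx⟩ := hx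
    exact hs a b t hab hab' x hx
  | one =>
    rw [mul_one, mul_inv_cancel]
    exact Subgroup.one_mem _
  | mul x y hx' hy' hx hy =>
    have e : s * (x * y) * s⁻¹ = (s * x * s⁻¹) * (s * y * s⁻¹) := by group
    rw [e]
    exact Subgroup.mul_mem _ (hx hx') (hy hy')
  | inv x hx' hx =>
    have e : s * x⁻¹ * s⁻¹ = (s * x * s⁻¹)⁻¹ := by group
    rw [e]
    exact Subgroup.inv_mem _ (hx hx')

theorem conj_diag (s : O8 F) (δ : Fin 8 → F) (hδ : ∀ c, δ c * δ (pr c) = 1)
    (hs : toM8 s = Matrix.diagonal δ) : ∀ n ∈ E8 F, s * n * s⁻¹ ∈ E8 F := by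
  apply conj_gen
  intro a b t hab hab' x hx
  have e : s * x * s⁻¹ = xO a b hab hab' (δ a * δ (pr b) * t) := by
    apply toM8_injective
    rw [map_mul, map_mul, hx, hs, diagonal_mul_Xr δ hδ, toM8_xO, ← hs, Matrix.mul_assoc,
      toM8_mul_inv, Matrix.mul_one]
  rw [e]
  exact xO_mem _ _ _ _ _

theorem toM8_dO_inv (δ : Fin 8 → F) (hδ : ∀ c, δ c * δ (pr c) = 1) :
    toM8 (dO δ hδ)⁻¹ = Matrix.diagonal (fun c => δ (pr c)) := rfl

theorem sO_inv : (sO : O8 F)⁻¹ = sO := inv_eq_of_mul_eq_one_right sO_mul_sO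

theorem sw_ne : ∀ a b : Fin 8, a ≠ b → a ≠ pr b → sw a ≠ sw b ∧ sw a ≠ pr (sw b) := by decide

theorem conj_sO : ∀ n ∈ E8 F, (sO : O8 F) * n * sO⁻¹ ∈ E8 F := by
  apply conj_gen
  intro a b t hab hab' x hx
  have h := sw_ne a b hab hab'
  have e : sO * x * sO⁻¹ = xO (sw a) (sw b) h.1 h.2 t := by
    apply toM8_injective
    rw [map_mul, map_mul, hx, toM8_sO, Ps_mul_Xr, toM8_xO, ← toM8_sO, Matrix.mul_assoc,
      toM8_mul_inv, Matrix.mul_one]
  rw [e]
  exact xO_mem _ _ _ _ _

/-- the subgroup generated by the root elements is normal -/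
theorem E8_normal : (E8 F).Normal := by
  have key : ∀ g : O8 F, ∀ n ∈ E8 F, g * n * g⁻¹ ∈ E8 F ∧ g⁻¹ * n * g ∈ E8 F := by
    intro g
    have hg : g ∈ Subgroup.closure (S8 F) := by
      have h := H8_eq_top (F := F)
      rw [H8] at h
      rw [h]
      trivial
    induction hg using Subgroup.closure_induction with
    | mem s hs =>
      rcases hs with ⟨a, b, t, hab, hab', hs⟩ | ⟨δ, hδ, hs⟩ | hs
      · have hsE : s ∈ E8 F := Subgroup.subset_closure ⟨a, b, t, hab, hab', hs⟩
        intro n hn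
        exact ⟨Subgroup.mul_mem _ (Subgroup.mul_mem _ hsE hn) (Subgroup.inv_mem _ hsE),
          Subgroup.mul_mem _ (Subgroup.mul_mem _ (Subgroup.inv_mem _ hsE) hn) hsE⟩
      · intro n hn
        refine ⟨conj_diag s δ hδ hs n hn, ?_⟩
        have e : s = dO δ hδ := toM8_injective hs
        have h2 := conj_diag s⁻¹ (fun c => δ (pr c))
          (fun c => by rw [pr_pr, mul_comm]; exact hδ c) (by rw [e, toM8_dO_inv]) n hn
        rwa [inv_inv] at h2
      · intro n hn
        have e : s = sO := toM8_injective hs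
        rw [e]
        refine ⟨conj_sO n hn, ?_⟩
        have h2 := conj_sO n hn
        rw [sO_inv] at h2 ⊢
        exact h2
    | one =>
      intro n hn
      simpa using hn
    | mul x y _ _ hx hy =>
      intro n hn
      constructor
      · have e : x * y * n * (x * y)⁻¹ = x * (y * n * y⁻¹) * x⁻¹ := by group
        rw [e]
        exact (hx _ (hy n hn).1).1
      · have e : (x * y)⁻¹ * n * (x * y) = y⁻¹ * (x⁻¹ * n * x) * y := by group
        rw [e]
        exact (hy _ (hx n hn).2).2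
    | inv x _ hx =>
      intro n hn
      refine ⟨?_, ?_⟩
      · have h := (hx n hn).2
        rwa [inv_inv]
      · have h := (hx n hn).1
        rwa [inv_inv]
  exact ⟨fun n hn g => (key g n hn).1⟩

theorem Ps_mul_diagonal_mul_Ps (δ : Fin 8 → F) :
    (Ps : Matrix (Fin 8) (Fin 8) F) * Matrix.diagonal δ * Ps =
      Matrix.diagonal (fun c => δ (sw c)) := by
  apply mat_ext
  intro v
  funext c
  simp only [← Matrix.mulVec_mulVec, Ps_mulVec, Matrix.mulVec_diagonal, sw_sw]

/-- the commutator of a diagonal element and the reflection -/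
theorem comm_diag_sO (s : O8 F) (δ : Fin 8 → F) (hδ : ∀ c, δ c * δ (pr c) = 1)
    (hs : toM8 s = Matrix.diagonal δ) : ⁅s, sO⁆ ∈ E8 F := by
  have h3 : δ 3 ≠ 0 := by
    intro h
    have := hδ 3
    rw [h, zero_mul] at this
    exact zero_ne_one this
  apply tor_sq_mem (δ 3) h3
  have e : s = dO δ hδ := toM8_injective hs
  rw [commutatorElement_def, sO_inv, map_mul, map_mul, map_mul, e, toM8_dO_inv, toM8_dO, toM8_sO,
    Matrix.mul_assoc, Matrix.mul_assoc, ← Matrix.mul_assoc Ps, Ps_mul_diagonal_mul_Ps,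
    Matrix.diagonal_mul_diagonal]
  congr 1
  funext c
  have h37 : δ 3 * δ 7 = 1 := hδ 3
  fin_cases c
  · simpa [tor, sw, pr] using hδ 0
  · simpa [tor, sw, pr] using hδ 1
  · simpa [tor, sw, pr] using hδ 2
  · simp [tor, sw, pr]
  · simpa [tor, sw, pr] using hδ 4
  · simpa [tor, sw, pr] using hδ 5
  · simpa [tor, sw, pr] using hδ 6
  · simp [tor, sw, pr]
    field_simp
    linear_combination (δ 7 * δ 3 + 1) * h37

/-- the commutator subgroup of `O₈⁺(F)` is generated by the root elements -/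
theorem commutator_eq_E8 : commutator (O8 F) = E8 F := by
  apply le_antisymm _ E8_le_commutator
  have := E8_normal (F := F)
  have hS : Subgroup.closure (S8 F) = ⊤ := H8_eq_top
  apply comm_le_of_closure (S8 F) hS
  intro s hs t ht
  have hroot : ∀ x : O8 F, (∃ (a b : Fin 8) (u : F), a ≠ b ∧ a ≠ pr b ∧ toM8 x = Xr a b u) →
      x ∈ E8 F := fun x hx => Subgroup.subset_closure hx
  rcases hs with hs | ⟨δ, hδ, hs⟩ | hs
  · have h1 := hroot s hs
    have e : ⁅s, t⁆ = s * (t * s⁻¹ * t⁻¹) := by rw [commutatorElement_def]; group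
    rw [e]
    exact Subgroup.mul_mem _ h1 (E8_normal.conj_mem _ (Subgroup.inv_mem _ h1) t)
  · rcases ht with ht | ⟨δ', hδ', ht⟩ | ht
    · have h1 := hroot t ht
      have e : ⁅s, t⁆ = (s * t * s⁻¹) * t⁻¹ := by rw [commutatorElement_def]
      rw [e]
      exact Subgroup.mul_mem _ (E8_normal.conj_mem _ h1 s) (Subgroup.inv_mem _ h1)
    · have e : ⁅s, t⁆ = 1 := by
        rw [commutatorElement_eq_one_iff_commute]
        apply toM8_injective
        rw [map_mul, map_mul, hs, ht, Matrix.diagonal_mul_diagonal, Matrix.diagonal_mul_diagonal]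
        congr 1
        funext c
        exact mul_comm _ _
      rw [e]
      exact Subgroup.one_mem _
    · have e : t = sO := toM8_injective ht
      rw [e]
      exact comm_diag_sO s δ hδ hs
  · have e : s = sO := toM8_injective hs
    rcases ht with ht | ⟨δ', hδ', ht⟩ | ht
    · have h1 := hroot t ht
      have e : ⁅s, t⁆ = (s * t * s⁻¹) * t⁻¹ := by rw [commutatorElement_def]
      rw [e]
      exact Subgroup.mul_mem _ (E8_normal.conj_mem _ h1 s) (Subgroup.inv_mem _ h1)
    · rw [e, ← commutatorElement_inv]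
      exact Subgroup.inv_mem _ (comm_diag_sO t δ' hδ' ht)
    · have e' : t = sO := toM8_injective ht
      rw [e, e', commutatorElement_self]
      exact Subgroup.one_mem _

end Cfsg.Agent.Lib.Helper99.D4
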