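import Mathlib
import Cfsg.Prelude.Def_Classical
import Cfsg.Prelude.Def_ChevD4
import Cfsg.Agent.Lib.Helper99.D4Root
import Cfsg.Agent.Lib.Helper99.D4Basis
import Cfsg.Agent.Lib.Helper99.D4Orth
import Cfsg.Agent.Lib.Helper99.D4Gen

/-!
# The adjoint action of `O₈⁺(F)` on the Chevalley coordinates is multiplicative

The pairs `(-κ(S), S)` with `S` symmetric span a submodule of `F × M₈(F)` stable under the
isometries, and the coordinate map `RD` vanishes on it.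
-/

set_option autoImplicit false
set_option linter.unusedSectionVars false
set_option linter.unnecessarySeqFocus false
set_option linter.unusedSimpArgs false

namespace Cfsg.Agent.Lib.Helper99.D4

open Cfsg Cfsg.Lie Matrix Cfsg.Agent.Lib.Helper99

variable {F : Type*} [Field F]

/-- the linear form `κ` on matrices -/
def kap (S : Matrix (Fin 8) (Fin 8) F) : F := S 0 4 + S 1 5 + S 2 6 + S 3 7

/-- the invariant linear form on `F × M₈(F)` -/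
def mutF (p : F × Matrix (Fin 8) (Fin 8) F) : F := 2 * p.1 + ∑ a, p.2 a (pr a)

theorem mutF_eq (p : F × Matrix (Fin 8) (Fin 8) F) : mutF p = 2 * p.1 +
    (p.2 0 4 + p.2 1 5 + p.2 2 6 + p.2 3 7 + p.2 4 0 + p.2 5 1 + p.2 6 2 + p.2 7 3) := by
  unfold mutF
  rw [Fin.sum_univ_eight]
  rfl

theorem RD_iotaD (m : I28 → F) : RD (iotaD m) = m := by
  funext i
  rw [iotaD_apply, RD_apply]
  rcases i with i | i <;> fin_cases i <;> simp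

theorem mutF_iotaD (m : I28 → F) : mutF (iotaD m) = 0 := by
  rw [mutF_eq, iotaD_apply]
  simp
  ring1

/-- the coordinates vanish on the pairs `(-κ(S), S)` with `S` symmetric -/
theorem RD_K (w : F × Matrix (Fin 8) (Fin 8) F) (hsym : w.2ᵀ = w.2) (hk : w.1 + kap w.2 = 0) :
    RD w = 0 := by
  have hs : ∀ a b, w.2 a b = w.2 b a := fun a b => congrFun (congrFun hsym b) a
  have hs_1_0 : w.2 1 0 = w.2 0 1 := hs 1 0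
  have hs_2_0 : w.2 2 0 = w.2 0 2 := hs 2 0
  have hs_3_0 : w.2 3 0 = w.2 0 3 := hs 3 0
  have hs_4_0 : w.2 4 0 = w.2 0 4 := hs 4 0
  have hs_5_0 : w.2 5 0 = w.2 0 5 := hs 5 0
  have hs_6_0 : w.2 6 0 = w.2 0 6 := hs 6 0
  have hs_7_0 : w.2 7 0 = w.2 0 7 := hs 7 0
  have hs_2_1 : w.2 2 1 = w.2 1 2 := hs 2 1
  have hs_3_1 : w.2 3 1 = w.2 1 3 := hs 3 1
  have hs_4_1 : w.2 4 1 = w.2 1 4 := hs 4 1
  have hs_5_1 : w.2 5 1 = w.2 1 5 := hs 5 1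
  have hs_6_1 : w.2 6 1 = w.2 1 6 := hs 6 1
  have hs_7_1 : w.2 7 1 = w.2 1 7 := hs 7 1
  have hs_3_2 : w.2 3 2 = w.2 2 3 := hs 3 2
  have hs_4_2 : w.2 4 2 = w.2 2 4 := hs 4 2
  have hs_5_2 : w.2 5 2 = w.2 2 5 := hs 5 2
  have hs_6_2 : w.2 6 2 = w.2 2 6 := hs 6 2
  have hs_7_2 : w.2 7 2 = w.2 2 7 := hs 7 2
  have hs_4_3 : w.2 4 3 = w.2 3 4 := hs 4 3
  have hs_5_3 : w.2 5 3 = w.2 3 5 := hs 5 3
  have hs_6_3 : w.2 6 3 = w.2 3 6 := hs 6 3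
  have hs_7_3 : w.2 7 3 = w.2 3 7 := hs 7 3
  have hs_5_4 : w.2 5 4 = w.2 4 5 := hs 5 4
  have hs_6_4 : w.2 6 4 = w.2 4 6 := hs 6 4
  have hs_7_4 : w.2 7 4 = w.2 4 7 := hs 7 4
  have hs_6_5 : w.2 6 5 = w.2 5 6 := hs 6 5
  have hs_7_5 : w.2 7 5 = w.2 5 7 := hs 7 5
  have hs_7_6 : w.2 7 6 = w.2 6 7 := hs 7 6
  unfold kap at hk
  rw [RD_apply]
  funext i
  rcases i with i | i
  · fin_cases i
    · simp [hs_1_0, hs_2_0, hs_3_0, hs_4_0, hs_5_0, hs_6_0, hs_7_0, hs_2_1, hs_3_1, hs_4_1, hs_5_1, hs_6_1, hs_7_1, hs_3_2, hs_4_2, hs_5_2, hs_6_2, hs_7_2, hs_4_3, hs_5_3, hs_6_3, hs_7_3, hs_5_4, hs_6_4, hs_7_4, hs_6_5, hs_7_5, hs_7_6]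
    · simp [hs_1_0, hs_2_0, hs_3_0, hs_4_0, hs_5_0, hs_6_0, hs_7_0, hs_2_1, hs_3_1, hs_4_1, hs_5_1, hs_6_1, hs_7_1, hs_3_2, hs_4_2, hs_5_2, hs_6_2, hs_7_2, hs_4_3, hs_5_3, hs_6_3, hs_7_3, hs_5_4, hs_6_4, hs_7_4, hs_6_5, hs_7_5, hs_7_6]
    · simp [hs_1_0, hs_2_0, hs_3_0, hs_4_0, hs_5_0, hs_6_0, hs_7_0, hs_2_1, hs_3_1, hs_4_1, hs_5_1, hs_6_1, hs_7_1, hs_3_2, hs_4_2, hs_5_2, hs_6_2, hs_7_2, hs_4_3, hs_5_3, hs_6_3, hs_7_3, hs_5_4, hs_6_4, hs_7_4, hs_6_5, hs_7_5, hs_7_6]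
      linear_combination hk
    · simp [hs_1_0, hs_2_0, hs_3_0, hs_4_0, hs_5_0, hs_6_0, hs_7_0, hs_2_1, hs_3_1, hs_4_1, hs_5_1, hs_6_1, hs_7_1, hs_3_2, hs_4_2, hs_5_2, hs_6_2, hs_7_2, hs_4_3, hs_5_3, hs_6_3, hs_7_3, hs_5_4, hs_6_4, hs_7_4, hs_6_5, hs_7_5, hs_7_6]
      linear_combination -hk
  · fin_cases i <;> simp [hs_1_0, hs_2_0, hs_3_0, hs_4_0, hs_5_0, hs_6_0, hs_7_0, hs_2_1, hs_3_1, hs_4_1, hs_5_1, hs_6_1, hs_7_1, hs_3_2, hs_4_2, hs_5_2, hs_6_2, hs_7_2, hs_4_3, hs_5_3, hs_6_3, hs_7_3, hs_5_4, hs_6_4, hs_7_4, hs_6_5, hs_7_5, hs_7_6]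

/-- modulo the pairs `(-κ(S), S)`, an element in the kernel of the invariant form is determined
by its coordinates -/
theorem iota_RD (z : F × Matrix (Fin 8) (Fin 8) F) (hz : mutF z = 0) :
    ((iotaD (RD z)).2 - z.2)ᵀ = (iotaD (RD z)).2 - z.2 ∧
      ((iotaD (RD z)).1 - z.1) + kap ((iotaD (RD z)).2 - z.2) = 0 := by
  rw [mutF_eq] at hz
  rw [iotaD_apply, RD_apply]
  constructor
  · ext a b
    fin_cases a <;> fin_cases b <;> simp [Matrix.transpose_apply] <;>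
      first | ring1 | linear_combination hz | linear_combination -hz
  · simp [kap]
    first | linear_combination hz | linear_combination -hz

theorem trJ_conj (g : O8 F) (Z : Matrix (Fin 8) (Fin 8) F) :
    ∑ a, (toM8 g * Z * (toM8 g)ᵀ) a (pr a) = ∑ a, Z a (pr a) := by
  have h1 : ∀ a, (toM8 g * Z * (toM8 g)ᵀ) a (pr a) =
      ∑ c, ∑ d, Z c d * (toM8 g a c * toM8 g (pr a) d) := by
    intro a
    simp only [Matrix.mul_apply, Matrix.transpose_apply, Finset.sum_mul]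
    rw [Finset.sum_comm]
    refine Finset.sum_congr rfl fun c _ => Finset.sum_congr rfl fun d _ => by ring1
  simp only [h1]
  rw [Finset.sum_comm]
  refine Finset.sum_congr rfl fun c _ => ?_
  rw [Finset.sum_comm]
  simp only [← Finset.mul_sum, entry_orth]
  simp

theorem mutF_act8 (g : O8 F) (z : F × Matrix (Fin 8) (Fin 8) F) :
    mutF (act8 (toM8 g) z) = mutF z := by
  unfold mutF
  rw [act8_apply]
  show 2 * z.1 + ∑ a, (toM8 g * z.2 * (toM8 g)ᵀ) a (pr a) = _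
  rw [trJ_conj]

set_option maxHeartbeats 4000000 in
/-- the form `κ` is invariant on symmetric matrices -/
theorem kap_conj (g : O8 F) (S : Matrix (Fin 8) (Fin 8) F) (hS : Sᵀ = S) :
    kap (toM8 g * S * (toM8 g)ᵀ) = kap S := by
  obtain ⟨M, hM⟩ : ∃ M, M = toM8 g := ⟨_, rfl⟩
  have hs : ∀ a b, S a b = S b a := fun a b => congrFun (congrFun hS b) a
  have hs_1_0 : S 1 0 = S 0 1 := hs 1 0
  have hs_2_0 : S 2 0 = S 0 2 := hs 2 0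
  have hs_3_0 : S 3 0 = S 0 3 := hs 3 0
  have hs_4_0 : S 4 0 = S 0 4 := hs 4 0
  have hs_5_0 : S 5 0 = S 0 5 := hs 5 0
  have hs_6_0 : S 6 0 = S 0 6 := hs 6 0
  have hs_7_0 : S 7 0 = S 0 7 := hs 7 0
  have hs_2_1 : S 2 1 = S 1 2 := hs 2 1
  have hs_3_1 : S 3 1 = S 1 3 := hs 3 1
  have hs_4_1 : S 4 1 = S 1 4 := hs 4 1
  have hs_5_1 : S 5 1 = S 1 5 := hs 5 1
  have hs_6_1 : S 6 1 = S 1 6 := hs 6 1
  have hs_7_1 : S 7 1 = S 1 7 := hs 7 1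
  have hs_3_2 : S 3 2 = S 2 3 := hs 3 2
  have hs_4_2 : S 4 2 = S 2 4 := hs 4 2
  have hs_5_2 : S 5 2 = S 2 5 := hs 5 2
  have hs_6_2 : S 6 2 = S 2 6 := hs 6 2
  have hs_7_2 : S 7 2 = S 2 7 := hs 7 2
  have hs_4_3 : S 4 3 = S 3 4 := hs 4 3
  have hs_5_3 : S 5 3 = S 3 5 := hs 5 3
  have hs_6_3 : S 6 3 = S 3 6 := hs 6 3
  have hs_7_3 : S 7 3 = S 3 7 := hs 7 3
  have hs_5_4 : S 5 4 = S 4 5 := hs 5 4
  have hs_6_4 : S 6 4 = S 4 6 := hs 6 4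
  have hs_7_4 : S 7 4 = S 4 7 := hs 7 4
  have hs_6_5 : S 6 5 = S 5 6 := hs 6 5
  have hs_7_5 : S 7 5 = S 5 7 := hs 7 5
  have hs_7_6 : S 7 6 = S 6 7 := hs 7 6
  have hB : ∀ c d, M 0 c * M 4 d + M 1 c * M 5 d + M 2 c * M 6 d + M 3 c * M 7 d + M 4 c * M 0 d + M 5 c * M 1 d + M 6 c * M 2 d + M 7 c * M 3 d = if pr c = d then 1 else 0 := by
    intro c d
    have h := entry_orth g c d
    rw [Fin.sum_univ_eight, ← hM] at h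
    exact h
  have hB_0_1 : M 0 0 * M 4 1 + M 1 0 * M 5 1 + M 2 0 * M 6 1 + M 3 0 * M 7 1 + M 4 0 * M 0 1 + M 5 0 * M 1 1 + M 6 0 * M 2 1 + M 7 0 * M 3 1 = 0 :=
    (hB 0 1).trans (if_neg (by decide))
  have hB_0_2 : M 0 0 * M 4 2 + M 1 0 * M 5 2 + M 2 0 * M 6 2 + M 3 0 * M 7 2 + M 4 0 * M 0 2 + M 5 0 * M 1 2 + M 6 0 * M 2 2 + M 7 0 * M 3 2 = 0 :=
    (hB 0 2).trans (if_neg (by decide))
  have hB_0_3 : M 0 0 * M 4 3 + M 1 0 * M 5 3 + M 2 0 * M 6 3 + M 3 0 * M 7 3 + M 4 0 * M 0 3 + M 5 0 * M 1 3 + M 6 0 * M 2 3 + M 7 0 * M 3 3 = 0 :=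
    (hB 0 3).trans (if_neg (by decide))
  have hB_0_4 : M 0 0 * M 4 4 + M 1 0 * M 5 4 + M 2 0 * M 6 4 + M 3 0 * M 7 4 + M 4 0 * M 0 4 + M 5 0 * M 1 4 + M 6 0 * M 2 4 + M 7 0 * M 3 4 = 1 :=
    (hB 0 4).trans (if_pos (by decide))
  have hB_0_5 : M 0 0 * M 4 5 + M 1 0 * M 5 5 + M 2 0 * M 6 5 + M 3 0 * M 7 5 + M 4 0 * M 0 5 + M 5 0 * M 1 5 + M 6 0 * M 2 5 + M 7 0 * M 3 5 = 0 :=
    (hB 0 5).trans (if_neg (by decide))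
  have hB_0_6 : M 0 0 * M 4 6 + M 1 0 * M 5 6 + M 2 0 * M 6 6 + M 3 0 * M 7 6 + M 4 0 * M 0 6 + M 5 0 * M 1 6 + M 6 0 * M 2 6 + M 7 0 * M 3 6 = 0 :=
    (hB 0 6).trans (if_neg (by decide))
  have hB_0_7 : M 0 0 * M 4 7 + M 1 0 * M 5 7 + M 2 0 * M 6 7 + M 3 0 * M 7 7 + M 4 0 * M 0 7 + M 5 0 * M 1 7 + M 6 0 * M 2 7 + M 7 0 * M 3 7 = 0 :=
    (hB 0 7).trans (if_neg (by decide))
  have hB_1_2 : M 0 1 * M 4 2 + M 1 1 * M 5 2 + M 2 1 * M 6 2 + M 3 1 * M 7 2 + M 4 1 * M 0 2 + M 5 1 * M 1 2 + M 6 1 * M 2 2 + M 7 1 * M 3 2 = 0 :=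
    (hB 1 2).trans (if_neg (by decide))
  have hB_1_3 : M 0 1 * M 4 3 + M 1 1 * M 5 3 + M 2 1 * M 6 3 + M 3 1 * M 7 3 + M 4 1 * M 0 3 + M 5 1 * M 1 3 + M 6 1 * M 2 3 + M 7 1 * M 3 3 = 0 :=
    (hB 1 3).trans (if_neg (by decide))
  have hB_1_4 : M 0 1 * M 4 4 + M 1 1 * M 5 4 + M 2 1 * M 6 4 + M 3 1 * M 7 4 + M 4 1 * M 0 4 + M 5 1 * M 1 4 + M 6 1 * M 2 4 + M 7 1 * M 3 4 = 0 :=
    (hB 1 4).trans (if_neg (by decide))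
  have hB_1_5 : M 0 1 * M 4 5 + M 1 1 * M 5 5 + M 2 1 * M 6 5 + M 3 1 * M 7 5 + M 4 1 * M 0 5 + M 5 1 * M 1 5 + M 6 1 * M 2 5 + M 7 1 * M 3 5 = 1 :=
    (hB 1 5).trans (if_pos (by decide))
  have hB_1_6 : M 0 1 * M 4 6 + M 1 1 * M 5 6 + M 2 1 * M 6 6 + M 3 1 * M 7 6 + M 4 1 * M 0 6 + M 5 1 * M 1 6 + M 6 1 * M 2 6 + M 7 1 * M 3 6 = 0 :=
    (hB 1 6).trans (if_neg (by decide))
  have hB_1_7 : M 0 1 * M 4 7 + M 1 1 * M 5 7 + M 2 1 * M 6 7 + M 3 1 * M 7 7 + M 4 1 * M 0 7 + M 5 1 * M 1 7 + M 6 1 * M 2 7 + M 7 1 * M 3 7 = 0 :=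
    (hB 1 7).trans (if_neg (by decide))
  have hB_2_3 : M 0 2 * M 4 3 + M 1 2 * M 5 3 + M 2 2 * M 6 3 + M 3 2 * M 7 3 + M 4 2 * M 0 3 + M 5 2 * M 1 3 + M 6 2 * M 2 3 + M 7 2 * M 3 3 = 0 :=
    (hB 2 3).trans (if_neg (by decide))
  have hB_2_4 : M 0 2 * M 4 4 + M 1 2 * M 5 4 + M 2 2 * M 6 4 + M 3 2 * M 7 4 + M 4 2 * M 0 4 + M 5 2 * M 1 4 + M 6 2 * M 2 4 + M 7 2 * M 3 4 = 0 :=
    (hB 2 4).trans (if_neg (by decide))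
  have hB_2_5 : M 0 2 * M 4 5 + M 1 2 * M 5 5 + M 2 2 * M 6 5 + M 3 2 * M 7 5 + M 4 2 * M 0 5 + M 5 2 * M 1 5 + M 6 2 * M 2 5 + M 7 2 * M 3 5 = 0 :=
    (hB 2 5).trans (if_neg (by decide))
  have hB_2_6 : M 0 2 * M 4 6 + M 1 2 * M 5 6 + M 2 2 * M 6 6 + M 3 2 * M 7 6 + M 4 2 * M 0 6 + M 5 2 * M 1 6 + M 6 2 * M 2 6 + M 7 2 * M 3 6 = 1 :=
    (hB 2 6).trans (if_pos (by decide))
  have hB_2_7 : M 0 2 * M 4 7 + M 1 2 * M 5 7 + M 2 2 * M 6 7 + M 3 2 * M 7 7 + M 4 2 * M 0 7 + M 5 2 * M 1 7 + M 6 2 * M 2 7 + M 7 2 * M 3 7 = 0 :=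
    (hB 2 7).trans (if_neg (by decide))
  have hB_3_4 : M 0 3 * M 4 4 + M 1 3 * M 5 4 + M 2 3 * M 6 4 + M 3 3 * M 7 4 + M 4 3 * M 0 4 + M 5 3 * M 1 4 + M 6 3 * M 2 4 + M 7 3 * M 3 4 = 0 :=
    (hB 3 4).trans (if_neg (by decide))
  have hB_3_5 : M 0 3 * M 4 5 + M 1 3 * M 5 5 + M 2 3 * M 6 5 + M 3 3 * M 7 5 + M 4 3 * M 0 5 + M 5 3 * M 1 5 + M 6 3 * M 2 5 + M 7 3 * M 3 5 = 0 :=
    (hB 3 5).trans (if_neg (by decide))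
  have hB_3_6 : M 0 3 * M 4 6 + M 1 3 * M 5 6 + M 2 3 * M 6 6 + M 3 3 * M 7 6 + M 4 3 * M 0 6 + M 5 3 * M 1 6 + M 6 3 * M 2 6 + M 7 3 * M 3 6 = 0 :=
    (hB 3 6).trans (if_neg (by decide))
  have hB_3_7 : M 0 3 * M 4 7 + M 1 3 * M 5 7 + M 2 3 * M 6 7 + M 3 3 * M 7 7 + M 4 3 * M 0 7 + M 5 3 * M 1 7 + M 6 3 * M 2 7 + M 7 3 * M 3 7 = 1 :=
    (hB 3 7).trans (if_pos (by decide))
  have hB_4_5 : M 0 4 * M 4 5 + M 1 4 * M 5 5 + M 2 4 * M 6 5 + M 3 4 * M 7 5 + M 4 4 * M 0 5 + M 5 4 * M 1 5 + M 6 4 * M 2 5 + M 7 4 * M 3 5 = 0 :=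
    (hB 4 5).trans (if_neg (by decide))
  have hB_4_6 : M 0 4 * M 4 6 + M 1 4 * M 5 6 + M 2 4 * M 6 6 + M 3 4 * M 7 6 + M 4 4 * M 0 6 + M 5 4 * M 1 6 + M 6 4 * M 2 6 + M 7 4 * M 3 6 = 0 :=
    (hB 4 6).trans (if_neg (by decide))
  have hB_4_7 : M 0 4 * M 4 7 + M 1 4 * M 5 7 + M 2 4 * M 6 7 + M 3 4 * M 7 7 + M 4 4 * M 0 7 + M 5 4 * M 1 7 + M 6 4 * M 2 7 + M 7 4 * M 3 7 = 0 :=
    (hB 4 7).trans (if_neg (by decide))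
  have hB_5_6 : M 0 5 * M 4 6 + M 1 5 * M 5 6 + M 2 5 * M 6 6 + M 3 5 * M 7 6 + M 4 5 * M 0 6 + M 5 5 * M 1 6 + M 6 5 * M 2 6 + M 7 5 * M 3 6 = 0 :=
    (hB 5 6).trans (if_neg (by decide))
  have hB_5_7 : M 0 5 * M 4 7 + M 1 5 * M 5 7 + M 2 5 * M 6 7 + M 3 5 * M 7 7 + M 4 5 * M 0 7 + M 5 5 * M 1 7 + M 6 5 * M 2 7 + M 7 5 * M 3 7 = 0 :=
    (hB 5 7).trans (if_neg (by decide))
  have hB_6_7 : M 0 6 * M 4 7 + M 1 6 * M 5 7 + M 2 6 * M 6 7 + M 3 6 * M 7 7 + M 4 6 * M 0 7 + M 5 6 * M 1 7 + M 6 6 * M 2 7 + M 7 6 * M 3 7 = 0 :=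
    (hB 6 7).trans (if_neg (by decide))
  have hQ_0 : M 0 0 * M 4 0 + M 1 0 * M 5 0 + M 2 0 * M 6 0 + M 3 0 * M 7 0 = 0 := by rw [hM]; exact Q8_col g 0
  have hQ_1 : M 0 1 * M 4 1 + M 1 1 * M 5 1 + M 2 1 * M 6 1 + M 3 1 * M 7 1 = 0 := by rw [hM]; exact Q8_col g 1
  have hQ_2 : M 0 2 * M 4 2 + M 1 2 * M 5 2 + M 2 2 * M 6 2 + M 3 2 * M 7 2 = 0 := by rw [hM]; exact Q8_col g 2
  have hQ_3 : M 0 3 * M 4 3 + M 1 3 * M 5 3 + M 2 3 * M 6 3 + M 3 3 * M 7 3 = 0 := by rw [hM]; exact Q8_col g 3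
  have hQ_4 : M 0 4 * M 4 4 + M 1 4 * M 5 4 + M 2 4 * M 6 4 + M 3 4 * M 7 4 = 0 := by rw [hM]; exact Q8_col g 4
  have hQ_5 : M 0 5 * M 4 5 + M 1 5 * M 5 5 + M 2 5 * M 6 5 + M 3 5 * M 7 5 = 0 := by rw [hM]; exact Q8_col g 5
  have hQ_6 : M 0 6 * M 4 6 + M 1 6 * M 5 6 + M 2 6 * M 6 6 + M 3 6 * M 7 6 = 0 := by rw [hM]; exact Q8_col g 6
  have hQ_7 : M 0 7 * M 4 7 + M 1 7 * M 5 7 + M 2 7 * M 6 7 + M 3 7 * M 7 7 = 0 := by rw [hM]; exact Q8_col g 7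
  rw [← hM]
  unfold kap
  simp only [Matrix.mul_apply, Matrix.transpose_apply, Fin.sum_univ_eight]
  simp only [hs_1_0, hs_2_0, hs_3_0, hs_4_0, hs_5_0, hs_6_0, hs_7_0, hs_2_1, hs_3_1, hs_4_1, hs_5_1, hs_6_1, hs_7_1, hs_3_2, hs_4_2, hs_5_2, hs_6_2, hs_7_2, hs_4_3, hs_5_3, hs_6_3, hs_7_3, hs_5_4, hs_6_4, hs_7_4, hs_6_5, hs_7_5, hs_7_6]
  linear_combination S 0 0 * hQ_0 + S 1 1 * hQ_1 + S 2 2 * hQ_2 + S 3 3 * hQ_3 + S 4 4 * hQ_4 + S 5 5 * hQ_5 + S 6 6 * hQ_6 + S 7 7 * hQ_7 + S 0 1 * hB_0_1 + S 0 2 * hB_0_2 + S 0 3 * hB_0_3 + S 0 4 * hB_0_4 + S 0 5 * hB_0_5 + S 0 6 * hB_0_6 + S 0 7 * hB_0_7 + S 1 2 * hB_1_2 + S 1 3 * hB_1_3 + S 1 4 * hB_1_4 + S 1 5 * hB_1_5 + S 1 6 * hB_1_6 + S 1 7 * hB_1_7 + S 2 3 * hB_2_3 + S 2 4 * hB_2_4 + S 2 5 * hB_2_5 + S 2 6 * hB_2_6 + S 2 7 * hB_2_7 + S 3 4 * hB_3_4 + S 3 5 * hB_3_5 + S 3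 6 * hB_3_6 + S 3 7 * hB_3_7 + S 4 5 * hB_4_5 + S 4 6 * hB_4_6 + S 4 7 * hB_4_7 + S 5 6 * hB_5_6 + S 5 7 * hB_5_7 + S 6 7 * hB_6_7

theorem act8_mul (A B : Matrix (Fin 8) (Fin 8) F) (p : F × Matrix (Fin 8) (Fin 8) F) :
    act8 (A * B) p = act8 A (act8 B p) := by
  rw [act8_apply, act8_apply, act8_apply, Matrix.transpose_mul]
  simp only [Matrix.mul_assoc]

/-- the adjoint action is multiplicative on the isometries -/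
theorem phiD_mul (g h : O8 F) (m : I28 → F) :
    phiD (toM8 (g * h)) m = phiD (toM8 g) (phiD (toM8 h) m) := by
  obtain ⟨z, hz⟩ : ∃ z, z = act8 (toM8 h) (iotaD m) := ⟨_, rfl⟩
  have hmu : mutF z = 0 := by rw [hz, mutF_act8, mutF_iotaD]
  obtain ⟨h1, h2⟩ := iota_RD z hmu
  have e1 : phiD (toM8 (g * h)) m = RD (act8 (toM8 g) z) := by
    show RD (act8 (toM8 (g * h)) (iotaD m)) = _
    rw [map_mul, act8_mul, hz]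
  have e2 : phiD (toM8 g) (phiD (toM8 h) m) = RD (act8 (toM8 g) (iotaD (RD z))) := by
    show RD (act8 (toM8 g) (iotaD (RD (act8 (toM8 h) (iotaD m))))) = _
    rw [hz]
  have e3 : RD (act8 (toM8 g) (iotaD (RD z) - z)) = 0 := by
    apply RD_K
    · show (toM8 g * ((iotaD (RD z)).2 - z.2) * (toM8 g)ᵀ)ᵀ =
        toM8 g * ((iotaD (RD z)).2 - z.2) * (toM8 g)ᵀ
      rw [Matrix.transpose_mul, Matrix.transpose_mul, Matrix.transpose_transpose, h1,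
        Matrix.mul_assoc]
    · show ((iotaD (RD z)).1 - z.1) + kap (toM8 g * ((iotaD (RD z)).2 - z.2) * (toM8 g)ᵀ) = 0
      rw [kap_conj g _ h1]
      exact h2
  rw [e1, e2]
  rw [map_sub, map_sub, sub_eq_zero] at e3
  exact e3.symm

theorem phiD_one (m : I28 → F) : phiD (1 : Matrix (Fin 8) (Fin 8) F) m = m := by
  rw [phiD_apply, Matrix.one_mul, Matrix.transpose_one, Matrix.mul_one]
  exact RD_iotaD m

/-- the adjoint action of the isometry group -/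
def phiO : O8 F →* Module.End F (I28 → F) where
  toFun g := phiD (toM8 g)
  map_one' := by
    refine LinearMap.ext fun m => ?_
    rw [map_one, phiD_one, Module.End.one_apply]
  map_mul' g h := LinearMap.ext fun m => phiD_mul g h m

theorem phiO_apply (g : O8 F) : phiO g = phiD (toM8 g) := rfl

/-- the adjoint representation of the isometry group -/
def piO : O8 F →* GL I28 F :=
  ((LinearMap.toMatrixAlgEquiv' (R := F) (n := I28)).toAlgHom.toRingHom.toMonoidHom.comp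
    phiO).toHomUnits

theorem piO_coe (g : O8 F) : (piO g : Matrix I28 I28 F) = LinearMap.toMatrix' (phiD (toM8 g)) :=
  rfl

end Cfsg.Agent.Lib.Helper99.D4
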