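import Mathlib
import Cfsg.Prelude.Def_Classical
import Cfsg.Prelude.Def_ChevD4
import Cfsg.Agent.Lib.Helper99.D4Root
import Cfsg.Agent.Lib.Helper99.D4Basis
import Cfsg.Agent.Lib.Helper99.D4Orth
import Cfsg.Agent.Lib.Helper99.D4Gen
import Cfsg.Agent.Lib.Helper99.D4Hom

/-!
# The kernel of the adjoint action of `O₈⁺(F)`

An isometry acting trivially on the Chevalley coordinates commutes with the root elements, and a
matrix commuting with the root elements is scalar.
-/

set_option autoImplicit false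
set_option linter.unusedSectionVars false
set_option linter.unnecessarySeqFocus false
set_option linter.unusedSimpArgs false

namespace Cfsg.Agent.Lib.Helper99.D4

open Cfsg Cfsg.Lie Matrix Cfsg.Agent.Lib.Helper99

variable {F : Type*} [Field F]

/-- the Gram matrix of the polar form -/
def J8 : Matrix (Fin 8) (Fin 8) F := Matrix.of fun c d => if c = pr d then 1 else 0

theorem toM8_J (g : O8 F) : (toM8 g)ᵀ * J8 * toM8 g = J8 := by
  ext c d
  have h := entry_orth g d c
  simp only [Matrix.mul_apply, Matrix.transpose_apply, J8, Matrix.of_apply, mul_ite, mul_one,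
    mul_zero, Finset.sum_ite_eq', Finset.mem_univ, if_true]
  have h' : (∑ x, toM8 g (pr x) c * toM8 g x d) = ∑ a, toM8 g a d * toM8 g (pr a) c :=
    Finset.sum_congr rfl fun b _ => mul_comm _ _
  rw [h', h]
  by_cases e : c = pr d
  · rw [if_pos e, if_pos e.symm]
  · rw [if_neg e, if_neg (fun h => e h.symm)]

theorem single_mul_J (a q : Fin 8) :
    Matrix.single a q (1 : F) * J8 = Matrix.single a (pr q) 1 := by
  ext c d
  simp only [Matrix.mul_apply, Matrix.single_apply, J8, Matrix.of_apply, mul_ite, mul_one,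
    mul_zero]
  by_cases h1 : a = c
  · by_cases h2 : q = pr d
    · have h3 : pr q = d := by rw [h2, pr_pr]
      simp [h1, h2, h3, pr_pr]
    · have h3 : pr q ≠ d := fun h => h2 (by rw [← h, pr_pr])
      simp [h1, h2, h3]
  · simp [h1]

theorem Xr_eq_J (a b : Fin 8) (t : F) : Xr a b t =
    1 + t • ((Matrix.single a (pr b) (1 : F) - Matrix.single (pr b) a (1 : F)) * J8) := by
  rw [Matrix.sub_mul, single_mul_J, single_mul_J, pr_pr]
  rfl

/-- an isometry acting trivially on the Chevalley coordinates commutes with the root elements -/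
theorem comm_of_phiD_one (g : O8 F) (h : phiD (toM8 g) = 1) (a b : Fin 8) (hab : a ≠ b) (t : F) :
    toM8 g * Xr a b t = Xr a b t * toM8 g := by
  obtain ⟨E, hE⟩ : ∃ E : Matrix (Fin 8) (Fin 8) F, E = Matrix.single a (pr b) 1 := ⟨_, rfl⟩
  have hz : mutF ((0 : F), E) = 0 := by
    unfold mutF
    have h1 : ∀ c : Fin 8, E c (pr c) = 0 := by
      intro c
      rw [hE, Matrix.single_apply, if_neg]
      rintro ⟨rfl, h2⟩
      exact hab (pr_inj.1 h2).symm
    simp [h1]
  obtain ⟨s1, -⟩ := iota_RD (0, E) hz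
  obtain ⟨m, hm⟩ : ∃ m, m = RD ((0 : F), E) := ⟨_, rfl⟩
  rw [← hm] at s1
  have hz' : mutF (act8 (toM8 g) (iotaD m)) = 0 := by rw [mutF_act8, mutF_iotaD]
  obtain ⟨s2, -⟩ := iota_RD _ hz'
  have hm2 : RD (act8 (toM8 g) (iotaD m)) = m := by
    have h3 : phiD (toM8 g) m = m := by rw [h, Module.End.one_apply]
    exact h3
  rw [hm2] at s2
  obtain ⟨Y, hY⟩ : ∃ Y, Y = (iotaD m).2 := ⟨_, rfl⟩
  have s1' : (Y - E)ᵀ = Y - E := by rw [hY]; exact s1
  have s2' : (Y - toM8 g * Y * (toM8 g)ᵀ)ᵀ = Y - toM8 g * Y * (toM8 g)ᵀ := by rw [hY]; exact s2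
  rw [Matrix.transpose_sub, sub_eq_sub_iff_add_eq_add] at s1'
  rw [Matrix.transpose_sub, Matrix.transpose_mul, Matrix.transpose_mul, Matrix.transpose_transpose,
    ← Matrix.mul_assoc, sub_eq_sub_iff_add_eq_add] at s2'
  have k1 : Y - Yᵀ = E - Eᵀ := by
    rw [sub_eq_sub_iff_add_eq_add, ← s1', add_comm]
  have k2 : toM8 g * (E - Eᵀ) * (toM8 g)ᵀ = E - Eᵀ := by
    rw [← k1, Matrix.mul_sub, Matrix.sub_mul, sub_eq_sub_iff_add_eq_add, ← s2', add_comm]
  have k3 : toM8 g * ((E - Eᵀ) * J8) = (E - Eᵀ) * J8 * toM8 g := by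
    calc toM8 g * ((E - Eᵀ) * J8)
        = toM8 g * ((E - Eᵀ) * ((toM8 g)ᵀ * J8 * toM8 g)) := by rw [toM8_J]
      _ = (toM8 g * (E - Eᵀ) * (toM8 g)ᵀ) * J8 * toM8 g := by simp only [Matrix.mul_assoc]
      _ = (E - Eᵀ) * J8 * toM8 g := by rw [k2]
  have k4 : Eᵀ = Matrix.single (pr b) a 1 := by rw [hE, Matrix.transpose_single]
  rw [Xr_eq_J, ← hE, ← k4, Matrix.mul_add, Matrix.add_mul, Matrix.mul_one, Matrix.one_mul,
    Matrix.mul_smul, Matrix.smul_mul, k3]

theorem mul_Xr_apply (M : Matrix (Fin 8) (Fin 8) F) (a b : Fin 8) (t : F) (c d : Fin 8) :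
    (M * Xr a b t) c d =
      M c d + t * ((if d = b then M c a else 0) - (if d = pr a then M c (pr b) else 0)) := by
  have h : (M * Xr a b t) c d = ((Xr a b t)ᵀ * Mᵀ) d c := by
    rw [← Matrix.transpose_mul, Matrix.transpose_apply]
  rw [h, Matrix.mul_apply]
  simp only [Matrix.transpose_apply, Xr_apply, add_mul, Finset.sum_add_distrib, ite_mul, one_mul,
    zero_mul, mul_assoc, ← Finset.mul_sum, sub_mul, Finset.sum_sub_distrib, ite_and]
  by_cases h1 : d = b <;> by_cases h2 : d = pr a <;> simp [h1, h2, eq_comm]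

theorem exists_third : ∀ a c : Fin 8, c ≠ a → ∃ b, a ≠ b ∧ a ≠ pr b ∧ c ≠ pr b := by decide

/-- a matrix commuting with the root elements is scalar -/
theorem scalar_of_comm (M : Matrix (Fin 8) (Fin 8) F)
    (h : ∀ a b : Fin 8, a ≠ b → a ≠ pr b → M * Xr a b 1 = Xr a b 1 * M) :
    M = M 0 0 • (1 : Matrix (Fin 8) (Fin 8) F) := by
  have key : ∀ a b : Fin 8, a ≠ b → a ≠ pr b → ∀ c d : Fin 8,
      (if d = b then M c a else 0) - (if d = pr a then M c (pr b) else 0) =
        (if c = a then M b d else 0) - (if c = pr b then M (pr a) d else 0) := by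
    intro a b hab hab' c d
    have h1 := congrFun (congrFun (h a b hab hab') c) d
    rw [mul_Xr_apply, Xr_mul_apply, one_mul, one_mul] at h1
    exact add_left_cancel h1
  have off : ∀ a c : Fin 8, c ≠ a → M c a = 0 := by
    intro a c hca
    obtain ⟨b, hab, hab', hcb⟩ := exists_third a c hca
    have h1 := key a b hab hab' c b
    have h2 : b ≠ pr a := fun h => hab' (by rw [h, pr_pr])
    rw [if_pos rfl, if_neg h2, if_neg hca, if_neg hcb] at h1
    simpa using h1
  have diag : ∀ a b : Fin 8, a ≠ b → a ≠ pr b → M a a = M b b := by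
    intro a b hab hab'
    have h1 := key a b hab hab' a b
    have h2 : b ≠ pr a := fun h => hab' (by rw [h, pr_pr])
    rw [if_pos rfl, if_neg h2, if_pos rfl, if_neg hab'] at h1
    simpa using h1
  have d1 : M 1 1 = M 0 0 := diag 1 0 (by decide) (by decide)
  have d2 : M 2 2 = M 0 0 := diag 2 0 (by decide) (by decide)
  have d3 : M 3 3 = M 0 0 := diag 3 0 (by decide) (by decide)
  have d5 : M 5 5 = M 0 0 := diag 5 0 (by decide) (by decide)
  have d6 : M 6 6 = M 0 0 := diag 6 0 (by decide) (by decide)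
  have d7 : M 7 7 = M 0 0 := diag 7 0 (by decide) (by decide)
  have d4 : M 4 4 = M 0 0 := (diag 4 1 (by decide) (by decide)).trans d1
  ext c d
  by_cases hcd : c = d
  · subst hcd
    rw [Matrix.smul_apply, Matrix.one_apply_eq, smul_eq_mul, mul_one]
    fin_cases c
    · rfl
    · exact d1
    · exact d2
    · exact d3
    · exact d4
    · exact d5
    · exact d6
    · exact d7
  · rw [Matrix.smul_apply, Matrix.one_apply_ne hcd, smul_zero]
    exact off d c hcd

/-- a scalar isometry acts trivially -/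
theorem phiD_scalar (c : F) (hc : c * c = 1) :
    phiD (c • (1 : Matrix (Fin 8) (Fin 8) F)) = 1 := by
  refine LinearMap.ext fun m => ?_
  rw [phiD_apply, Matrix.transpose_smul, Matrix.transpose_one, Matrix.smul_mul, Matrix.mul_smul,
    Matrix.one_mul, Matrix.mul_one, smul_smul, hc, one_smul, Module.End.one_apply]
  exact RD_iotaD m

theorem scalar_sq (g : O8 F) (c : F) (h : toM8 g = c • (1 : Matrix (Fin 8) (Fin 8) F)) :
    c * c = 1 := by
  have h1 := Q8_toM8 g (Pi.single 0 1 + Pi.single 4 1)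
  rw [h, Matrix.smul_mulVec, Matrix.one_mulVec] at h1
  simpa [Q8] using h1

end Cfsg.Agent.Lib.Helper99.D4
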