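import Mathlib
import Cfsg.Prelude.Def_Classical
import Cfsg.Prelude.Def_ChevD4
import Cfsg.Agent.Lib.Helper99.IsoModel
import Cfsg.Agent.Lib.Helper99.D4Root
import Cfsg.Agent.Lib.Helper99.D4Basis
import Cfsg.Agent.Lib.Helper99.D4Act
import Cfsg.Agent.Lib.Helper99.D4Orth
import Cfsg.Agent.Lib.Helper99.D4Gen
import Cfsg.Agent.Lib.Helper99.D4Comm2
import Cfsg.Agent.Lib.Helper99.D4Hom
import Cfsg.Agent.Lib.Helper99.D4Ker

/-!
# The Chevalley group of type `D₄` over `F` is isomorphic to `PΩ₈⁺(F)`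
-/

set_option autoImplicit false
set_option linter.unusedSectionVars false
set_option linter.unnecessarySeqFocus false
set_option linter.unusedSimpArgs false

namespace Cfsg.Agent.Lib.Helper99.D4

open Cfsg Cfsg.Lie Matrix Cfsg.Agent.Lib.Helper99

variable {F : Type*} [Field F]

theorem Xr_swap' (a b : Fin 8) (t : F) : Xr a b t = Xr (pr b) (pr a) (-t) := by
  rw [Xr_swap, neg_neg]

/-- every root element is one of the standard ones -/
theorem exists_xs (a b : Fin 8) (hab : a ≠ b) (hab' : a ≠ pr b) (t : F) :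
    ∃ (r : Fin 24) (t' : F), Xr a b t = xs r t' := by
  fin_cases a <;> fin_cases b
  · exact absurd rfl hab
  · exact ⟨18, t, by simp [xs]⟩
  · exact ⟨19, -t, by simp [xs]⟩
  · exact ⟨21, t, by simp [xs]⟩
  · exact absurd rfl hab'
  · exact ⟨23, -t, by simp [xs]⟩
  · exact ⟨22, -t, by simp [xs]⟩
  · exact ⟨20, -t, by simp [xs]⟩
  · exact ⟨5, t, by simp [xs]⟩
  · exact absurd rfl hab
  · exact ⟨14, t, by simp [xs]⟩
  · exact ⟨16, -t, by simp [xs]⟩
  · exact ⟨23, t, (Xr_swap' 1 4 t).trans (by simp [xs, pr])⟩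
  · exact absurd rfl hab'
  · exact ⟨17, t, by simp [xs]⟩
  · exact ⟨15, t, by simp [xs]⟩
  · exact ⟨4, -t, by simp [xs]⟩
  · exact ⟨9, t, by simp [xs]⟩
  · exact absurd rfl hab
  · exact ⟨13, t, by simp [xs]⟩
  · exact ⟨22, t, (Xr_swap' 2 4 t).trans (by simp [xs, pr])⟩
  · exact ⟨17, -t, (Xr_swap' 2 5 t).trans (by simp [xs, pr])⟩
  · exact absurd rfl hab'
  · exact ⟨12, -t, by simp [xs]⟩
  · exact ⟨2, t, by simp [xs]⟩
  · exact ⟨7, -t, by simp [xs]⟩
  · exact ⟨10, t, by simp [xs]⟩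
  · exact absurd rfl hab
  · exact ⟨20, t, (Xr_swap' 3 4 t).trans (by simp [xs, pr])⟩
  · exact ⟨15, -t, (Xr_swap' 3 5 t).trans (by simp [xs, pr])⟩
  · exact ⟨12, t, (Xr_swap' 3 6 t).trans (by simp [xs, pr])⟩
  · exact absurd rfl hab'
  · exact absurd rfl hab'
  · exact ⟨0, t, by simp [xs]⟩
  · exact ⟨1, t, by simp [xs]⟩
  · exact ⟨3, t, by simp [xs]⟩
  · exact absurd rfl hab
  · exact ⟨5, -t, (Xr_swap' 4 5 t).trans (by simp [xs, pr])⟩
  · exact ⟨4, t, (Xr_swap' 4 6 t).trans (by simp [xs, pr])⟩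
  · exact ⟨2, -t, (Xr_swap' 4 7 t).trans (by simp [xs, pr])⟩
  · exact ⟨0, -t, (Xr_swap' 5 0 t).trans (by simp [xs, pr])⟩
  · exact absurd rfl hab'
  · exact ⟨6, -t, by simp [xs]⟩
  · exact ⟨8, -t, by simp [xs]⟩
  · exact ⟨18, -t, (Xr_swap' 5 4 t).trans (by simp [xs, pr])⟩
  · exact absurd rfl hab
  · exact ⟨9, -t, (Xr_swap' 5 6 t).trans (by simp [xs, pr])⟩
  · exact ⟨7, t, (Xr_swap' 5 7 t).trans (by simp [xs, pr])⟩
  · exact ⟨1, -t, (Xr_swap' 6 0 t).trans (by simp [xs, pr])⟩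
  · exact ⟨6, t, (Xr_swap' 6 1 t).trans (by simp [xs, pr])⟩
  · exact absurd rfl hab'
  · exact ⟨11, t, by simp [xs]⟩
  · exact ⟨19, t, (Xr_swap' 6 4 t).trans (by simp [xs, pr])⟩
  · exact ⟨14, -t, (Xr_swap' 6 5 t).trans (by simp [xs, pr])⟩
  · exact absurd rfl hab
  · exact ⟨10, -t, (Xr_swap' 6 7 t).trans (by simp [xs, pr])⟩
  · exact ⟨3, -t, (Xr_swap' 7 0 t).trans (by simp [xs, pr])⟩
  · exact ⟨8, t, (Xr_swap' 7 1 t).trans (by simp [xs, pr])⟩
  · exact ⟨11, -t, (Xr_swap' 7 2 t).trans (by simp [xs, pr])⟩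
  · exact absurd rfl hab'
  · exact ⟨21, -t, (Xr_swap' 7 4 t).trans (by simp [xs, pr])⟩
  · exact ⟨16, t, (Xr_swap' 7 5 t).trans (by simp [xs, pr])⟩
  · exact ⟨13, -t, (Xr_swap' 7 6 t).trans (by simp [xs, pr])⟩
  · exact absurd rfl hab

/-- the standard root elements are root elements -/
theorem xs_valid (r : Fin 24) (t : F) :
    ∃ (a b : Fin 8) (t' : F), a ≠ b ∧ a ≠ pr b ∧ xs r t = Xr a b t' := by
  fin_cases r
  · exact ⟨4, 1, t, by decide, by decide, rfl⟩
  · exact ⟨4, 2, t, by decide, by decide, rfl⟩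
  · exact ⟨3, 0, t, by decide, by decide, rfl⟩
  · exact ⟨4, 3, t, by decide, by decide, rfl⟩
  · exact ⟨2, 0, -t, by decide, by decide, rfl⟩
  · exact ⟨1, 0, t, by decide, by decide, rfl⟩
  · exact ⟨5, 2, -t, by decide, by decide, rfl⟩
  · exact ⟨3, 1, -t, by decide, by decide, rfl⟩
  · exact ⟨5, 3, -t, by decide, by decide, rfl⟩
  · exact ⟨2, 1, t, by decide, by decide, rfl⟩
  · exact ⟨3, 2, t, by decide, by decide, rfl⟩
  · exact ⟨6, 3, t, by decide, by decide, rfl⟩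
  · exact ⟨2, 7, -t, by decide, by decide, rfl⟩
  · exact ⟨2, 3, t, by decide, by decide, rfl⟩
  · exact ⟨1, 2, t, by decide, by decide, rfl⟩
  · exact ⟨1, 7, t, by decide, by decide, rfl⟩
  · exact ⟨1, 3, -t, by decide, by decide, rfl⟩
  · exact ⟨1, 6, t, by decide, by decide, rfl⟩
  · exact ⟨0, 1, t, by decide, by decide, rfl⟩
  · exact ⟨0, 2, -t, by decide, by decide, rfl⟩
  · exact ⟨0, 7, -t, by decide, by decide, rfl⟩
  · exact ⟨0, 3, t, by decide, by decide, rfl⟩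
  · exact ⟨0, 6, -t, by decide, by decide, rfl⟩
  · exact ⟨0, 5, -t, by decide, by decide, rfl⟩

theorem piO_xs (g : O8 F) (r : Fin 24) (t : F) (h : toM8 g = xs r t) :
    (piO g : Matrix I28 I28 F) = xm r t := by
  rw [piO_coe, h, phiD_xs_eq, LinearMap.toMatrix'_toLin']

/-- the adjoint representation of `Ω₈⁺(F)` -/
def piOm : ↥(commutator (O8 F)) →* GL I28 F := piO.comp (commutator (O8 F)).subtype

theorem piOm_apply (g : ↥(commutator (O8 F))) : piOm g = piO g.1 := rfl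

/-- the image of `Ω₈⁺(F)` is the Chevalley group -/
theorem range_piOm : (piOm (F := F)).range = chevD4.group F := by
  rw [piOm, MonoidHom.range_eq_map, ← Subgroup.map_map, ← MonoidHom.range_eq_map,
    Subgroup.range_subtype, commutator_eq_E8, E8, MonoidHom.map_closure]
  show Subgroup.closure _ = Subgroup.closure _
  congr 1
  ext x
  constructor
  · rintro ⟨g, ⟨a, b, t, hab, hab', hg⟩, rfl⟩
    obtain ⟨r, t', h⟩ := exists_xs a b hab hab' t
    exact ⟨r, t', piO_xs g r t' (hg.trans h)⟩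
  · rintro ⟨r, t, h⟩
    obtain ⟨a, b, t', hab, hab', h2⟩ := xs_valid r t
    refine ⟨xO a b hab hab' t', ⟨a, b, t', hab, hab', rfl⟩, Units.ext ?_⟩
    rw [piO_xs _ r t (by rw [toM8_xO, h2]), h]
    rfl

/-- the kernel of the adjoint representation of `Ω₈⁺(F)` is its centre -/
theorem ker_piOm : (piOm (F := F)).ker = Subgroup.center ↥(commutator (O8 F)) := by
  ext g
  rw [MonoidHom.mem_ker, Subgroup.mem_center_iff]
  constructor
  · intro h x
    have h0 : (piO g.1 : Matrix I28 I28 F) = 1 := by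
      rw [← piOm_apply, h]
      rfl
    have h1 : phiD (toM8 g.1) = 1 := by
      apply LinearMap.toMatrix'.injective
      rw [← piO_coe, h0, LinearMap.toMatrix'_one]
    have hx : x.1 ∈ E8 F := by
      rw [← commutator_eq_E8]
      exact x.2
    have hle : E8 F ≤ Subgroup.centralizer {g.1} := by
      rw [E8, Subgroup.closure_le]
      rintro y ⟨a, b, t, hab, hab', hy⟩
      rw [SetLike.mem_coe, Subgroup.mem_centralizer_iff]
      intro z hz
      rw [Set.mem_singleton_iff] at hz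
      subst hz
      apply toM8_injective
      rw [map_mul, map_mul, hy]
      exact comm_of_phiD_one g.1 h1 a b hab t
    have h2 := Subgroup.mem_centralizer_iff.1 (hle hx) g.1 rfl
    exact Subtype.ext h2.symm
  · intro h
    have hc : ∀ a b : Fin 8, a ≠ b → a ≠ pr b →
        toM8 g.1 * Xr a b 1 = Xr a b 1 * toM8 g.1 := by
      intro a b hab hab'
      have hmem : xO a b hab hab' (1 : F) ∈ commutator (O8 F) := by
        rw [commutator_eq_E8]
        exact xO_mem _ _ _ _ _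
      have h2 := h ⟨xO a b hab hab' 1, hmem⟩
      have h3 : xO a b hab hab' (1 : F) * g.1 = g.1 * xO a b hab hab' 1 :=
        congrArg Subtype.val h2
      have h4 := congrArg toM8 h3
      rw [map_mul, map_mul, toM8_xO] at h4
      exact h4.symm
    have hs := scalar_of_comm _ hc
    apply Units.ext
    show (piO g.1 : Matrix I28 I28 F) = 1
    rw [piO_coe, hs, phiD_scalar _ (scalar_sq g.1 _ hs), LinearMap.toMatrix'_one]

/-- `Ω₈⁺(F)` modulo its centre is the Chevalley group of type `D₄` -/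
theorem chevD4_equiv_O8 : Nonempty (↥(chevD4.group F) ≃*
    ↥(commutator (O8 F)) ⧸ Subgroup.center ↥(commutator (O8 F))) := by
  have e1 : ↥(piOm (F := F)).range ≃*
      ↥(commutator (O8 F)) ⧸ Subgroup.center ↥(commutator (O8 F)) :=
    (QuotientGroup.quotientKerEquivRange piOm).symm.trans
      (QuotientGroup.quotientMulEquivOfEq ker_piOm)
  rw [range_piOm] at e1
  exact ⟨e1⟩

end Cfsg.Agent.Lib.Helper99.D4
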