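import Mathlib
import Cfsg.Prelude.Def_Classical
import Cfsg.Prelude.Def_ChevD4
import Cfsg.Agent.Lib.Helper99.IsoModel
import Cfsg.Agent.Lib.Helper99.D4Orth
import Cfsg.Agent.Lib.Helper99.D4Iso

/-!
# `D₄(F) ≅ PΩ₈⁺(F)` for the form of the statement
-/

set_option autoImplicit false
set_option linter.unusedSectionVars false
set_option linter.unnecessarySeqFocus false
set_option linter.unusedSimpArgs false

namespace Cfsg.Agent.Lib.Helper99.D4

open Cfsg Cfsg.Lie Matrix Cfsg.Agent.Lib.Helper99

variable {F : Type*} [Field F]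

/-- the coordinates of the hyperbolic basis -/
def e8 : Fin 8 ≃ Fin 4 ⊕ Fin 4 := (finSumFinEquiv (m := 4) (n := 4)).symm

/-- reindexing of vectors -/
def psi8 : (Fin 4 ⊕ Fin 4 → F) ≃ₗ[F] (Fin 8 → F) := LinearEquiv.funCongrLeft F F e8

theorem psi8_apply (v : Fin 4 ⊕ Fin 4 → F) (c : Fin 8) : psi8 v c = v (e8 c) := rfl

theorem Q8_psi8 (v : Fin 4 ⊕ Fin 4 → F) : Q8 (psi8 v) = quadFormPlus 4 F v := by
  unfold Q8 quadFormPlus
  rw [Fin.sum_univ_four]
  rfl

/-- the isometry group in the coordinates `Fin 8` and in the coordinates of the statement -/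
noncomputable def o8Equiv : O8 F ≃* isometryGroup F (quadFormPlus 4 F) :=
  (isoEquiv (LinearEquiv.refl F (Fin 8 → F)) (Q8 (F := F)) (Q8 (F := F)) (fun _ => rfl)).symm.trans
    (isoEquiv psi8 (quadFormPlus 4 F) (Q8 (F := F)) Q8_psi8)

/-- the quotient of the commutator subgroup by its centre is an isomorphism invariant -/
theorem pomega_congr {U B : Type*} [Group U] [Group B] (e : U ≃* B) :
    Nonempty ((↥(commutator U) ⧸ Subgroup.center ↥(commutator U)) ≃*
      (↥(commutator B) ⧸ Subgroup.center ↥(commutator B))) := by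
  have hmap : (commutator U).map e.toMonoidHom = commutator B := by
    rw [commutator_def, commutator_def, Subgroup.map_commutator,
      Subgroup.map_top_of_surjective _ e.surjective]
  let e' : ↥(commutator U) ≃* ↥(commutator B) :=
    (e.subgroupMap (commutator U)).trans (MulEquiv.subgroupCongr hmap)
  have he : (Subgroup.center ↥(commutator U)).map (e' : ↥(commutator U) →* ↥(commutator B)) =
      Subgroup.center ↥(commutator B) := by
    ext y
    constructor
    · rintro ⟨x, hx, rfl⟩
      rw [SetLike.mem_coe, Subgroup.mem_center_iff] at hx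
      rw [Subgroup.mem_center_iff]
      intro z
      obtain ⟨w, rfl⟩ := e'.surjective z
      show e' w * e' x = e' x * e' w
      rw [← map_mul, ← map_mul, hx w]
    · intro hy
      refine ⟨e'.symm y, ?_, e'.apply_symm_apply y⟩
      rw [Subgroup.mem_center_iff] at hy
      rw [SetLike.mem_coe, Subgroup.mem_center_iff]
      intro z
      apply e'.injective
      rw [map_mul, map_mul, e'.apply_symm_apply]
      exact hy (e' z)
  exact ⟨QuotientGroup.congr _ _ e' he⟩

/-- the Chevalley group of type `D₄` over any field is `PΩ₈⁺` -/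
theorem chevD4_equiv_pomega :
    Nonempty (↥(chevD4.group F) ≃* POmega F (quadFormPlus 4 F)) := by
  obtain ⟨e1⟩ := chevD4_equiv_O8 (F := F)
  obtain ⟨e2⟩ := pomega_congr (o8Equiv (F := F))
  exact ⟨e1.trans e2⟩

end Cfsg.Agent.Lib.Helper99.D4
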