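import Mathlib
import Cfsg.Agent.Lib.Helper52.SP8EBDefs

/-!
# SP8-EB (S5823), piece MIND

A non-scalar transported pure tensor of elements of the quaternion set has a factor `≠ ± 1`.
-/

set_option autoImplicit false

namespace Cfsg.Agent.Lib.Helper52.SP8EB

open Matrix Cfsg.Geo Cfsg.Agent.Lib.Helper71.Asch

variable {n : ℕ} {F : Type*} [Field F] [Fintype F]

/-- MIND. -/
theorem MIND (e : Fin n ≃ (Fin 3 → Fin 2)) (P : GL (Fin n) F)
    (cs : Fin 3 → Matrix (Fin 2) (Fin 2) F) (hcs : ∀ i, IsQ (cs i)) (g : GL (Fin n) F)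
    (hg : g.1 = tw e P (pt cs)) (hns : g ∉ scalars (Fin n) F) : ∃ i₀, cs i₀ ≠ 1 ∧ cs i₀ ≠ -1 := by
  by_contra hcon
  push_neg at hcon
  apply hns
  rw [mem_scalars_iff]
  have key : ∀ i, ∃ u : Fˣ, cs i = (u : F) • (1 : Matrix (Fin 2) (Fin 2) F) := by
    intro i
    by_cases h : cs i = 1
    · exact ⟨1, by rw [h]; simp⟩
    · exact ⟨-1, by rw [hcon i h]; simp⟩
  choose ε hε using key
  refine ⟨∏ i, ε i, ?_⟩
  have h1 : pt cs = pt (fun i => ((ε i : Fˣ) : F) • (1 : Matrix (Fin 2) (Fin 2) F)) := by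
    congr 1
    funext i
    exact hε i
  rw [hg, h1, pt_smul, pt_one, tw_smul, tw_one, Units.coe_prod]

end Cfsg.Agent.Lib.Helper52.SP8EB
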