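import Cfsg.Agent.Lib.Helper98.H74Defs

/-!
# Project H74 (S5974), piece AREVB: `ar_even_bwd`

Pure arithmetic: for `i` even, `Cond74 i d m` implies the model `ModelH 1 1 i d m`.
-/

set_option autoImplicit false

namespace Cfsg.Agent.Lib.Helper98.H74

open Cfsg.Agent.Lib.Helper47 Cfsg.Agent.Lib.Helper98.T73 Module Polynomial

theorem AREVB_sgn_even {i j : ℕ} (hi : Even i) (hj : Even j) : sgn i j = 1 := by
  unfold sgn; rw [if_pos hi]; exact hj.neg_one_pow

theorem AREVB_sgn_odd {i j : ℕ} (hi : Even i) (hj : Odd j) : sgn i j = -1 := by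
  unfold sgn; rw [if_pos hi]; exact hj.neg_one_pow

theorem AREVB_sgn_eq {i j A : ℕ} (hi : Even i) (h : Even (A - j)) (hjA : j ≤ A) :
    sgn i j = sgn i A := by
  unfold sgn; rw [if_pos hi, if_pos hi]
  obtain ⟨c, hc⟩ := h
  have hA : A = j + 2 * c := by omega
  rw [hA, pow_add, pow_mul]; simp

theorem AREVB_core (i D m a s b t A : ℕ) (hi0 : 0 < i) (heven : Even i)
    (hD : i * a + s = D) (hmb : i * b + t = m) (hs : s < i) (ht : t < i) (hmD : m < D)
    (hC : (s = 0 ∧ (Odd a ∨ (t = 0 ∧ Even b))) ∨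
      (i ≤ m ∧ ((t < s ∧ 0 < t) ∨ (s = t ∧ 0 < t ∧ Even (a + b)) ∨
        (0 < s ∧ t = 0 ∧ Even b))))
    (hA1 : 1 ≤ A) (hA2 : i * A ≤ D) (hA4 : D = i * A → sgn i A = 1) :
    ∃ j w, j ≤ A ∧ (Odd i → Even j) ∧ m = i * j + w ∧ w ≤ D - i * A ∧ (w = 0 → sgn i j = 1) ∧
      (0 < w → w = D - i * A → (1 : ℤ) * sgn i j = 1 * sgn i A) := by
  have hvac : ∀ j : ℕ, Odd i → Even j := fun j h => absurd heven (Nat.not_even_iff_odd.mpr h)
  have hAa : A ≤ a := by
    have h1 : i * A < i * (a + 1) := by rw [Nat.mul_succ]; omega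
    exact Nat.lt_succ_iff.mp (Nat.lt_of_mul_lt_mul_left h1)
  have hiAa : i * A ≤ i * a := Nat.mul_le_mul_left i hAa
  have hAlt : s = 0 → Odd a → A + 1 ≤ a := by
    intro hs0 ha
    by_contra hcon
    have hAae : A = a := by omega
    have h1 : sgn i A = 1 := hA4 (by rw [hAae]; omega)
    rw [AREVB_sgn_odd heven (by rw [hAae]; exact ha)] at h1
    omega
  by_cases hAb : A ≤ b
  · have hiAb : i * A ≤ i * b := Nat.mul_le_mul_left i hAb
    by_cases hsp : t = 0 ∧ A = b ∧ b % 2 = 1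
    · obtain ⟨ht0, hAbe, hbodd⟩ := hsp
      have hs0a : s = 0 ∧ a % 2 = 1 := by
        rcases hC with ⟨hs0, ha | ⟨-, hb⟩⟩ | ⟨-, ⟨-, h⟩ | ⟨-, h, -⟩ | ⟨-, -, hb⟩⟩
        · exact ⟨hs0, Nat.odd_iff.mp ha⟩
        · have := Nat.even_iff.mp hb; omega
        · omega
        · omega
        · have := Nat.even_iff.mp hb; omega
      obtain ⟨hs0, haodd⟩ := hs0a
      have hlt := hAlt hs0 (Nat.odd_iff.mpr haodd)
      have hA2' : A + 2 ≤ a := by omega
      have h2 : i * (A + 2) ≤ i * a := Nat.mul_le_mul_left i hA2'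
      have h3 : i * (A + 2) = i * A + 2 * i := by ring
      have h4 : i * (A - 1) + i = i * A := by
        obtain ⟨A', rfl⟩ : ∃ A', A = A' + 1 := ⟨A - 1, by omega⟩
        simp [Nat.mul_succ]
      have h5 : i * A = i * b := by rw [hAbe]
      refine ⟨A - 1, i, Nat.sub_le _ _, hvac _, ?_, ?_, ?_, ?_⟩
      · omega
      · omega
      · intro h; omega
      · intro _ h; exfalso; omega
    · refine ⟨A, m - i * A, le_refl _, hvac _, ?_, ?_, ?_, ?_⟩
      · omega
      · omega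
      · intro h
        have ht0 : t = 0 := by omega
        have hAbe : A = b := Nat.eq_of_mul_eq_mul_left hi0 (by omega)
        have hbev : b % 2 = 0 := by
          by_contra hb; exact hsp ⟨ht0, hAbe, by omega⟩
        exact AREVB_sgn_even heven (Nat.even_iff.mpr (by omega))
      · intro _ h; exfalso; omega
  · have hbA : b < A := by omega
    by_cases hsp : t = 0 ∧ b % 2 = 1
    · obtain ⟨ht0, hbodd⟩ := hsp
      have hs0a : s = 0 ∧ a % 2 = 1 := by
        rcases hC with ⟨hs0, ha | ⟨-, hb⟩⟩ | ⟨-, ⟨-, h⟩ | ⟨-, h, -⟩ | ⟨-, -, hb⟩⟩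
        · exact ⟨hs0, Nat.odd_iff.mp ha⟩
        · have := Nat.even_iff.mp hb; omega
        · omega
        · omega
        · have := Nat.even_iff.mp hb; omega
      obtain ⟨hs0, haodd⟩ := hs0a
      have hlt := hAlt hs0 (Nat.odd_iff.mpr haodd)
      have h2 : i * (A + 1) ≤ i * a := Nat.mul_le_mul_left i hlt
      have h3 : i * (A + 1) = i * A + i := by ring
      have h4 : i * (b - 1) + i = i * b := by
        obtain ⟨b', rfl⟩ : ∃ b', b = b' + 1 := ⟨b - 1, by omega⟩
        simp [Nat.mul_succ]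
      refine ⟨b - 1, i, by omega, hvac _, ?_, ?_, ?_, ?_⟩
      · omega
      · omega
      · intro h; omega
      · intro _ h
        have hAa1 : A + 1 = a := Nat.eq_of_mul_eq_mul_left hi0 (by omega)
        have hpar : Even (A - (b - 1)) := Nat.even_iff.mpr (by omega)
        rw [AREVB_sgn_eq heven hpar (by omega)]
    · refine ⟨b, t, by omega, hvac _, by omega, ?_, ?_, ?_⟩
      · rcases hC with ⟨hs0, ha | ⟨ht0, -⟩⟩ | ⟨-, ⟨h1, -⟩ | ⟨h1, -, -⟩ | ⟨-, ht0, -⟩⟩
        · have hlt := hAlt hs0 ha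
          have h2 : i * (A + 1) ≤ i * a := Nat.mul_le_mul_left i hlt
          have h3 : i * (A + 1) = i * A + i := by ring
          omega
        · omega
        · omega
        · omega
        · omega
      · intro ht0
        have hbev : b % 2 = 0 := by
          by_contra hb; exact hsp ⟨ht0, by omega⟩
        exact AREVB_sgn_even heven (Nat.even_iff.mpr hbev)
      · intro htpos h
        rcases hC with ⟨hs0, ha | ⟨ht0, -⟩⟩ | ⟨-, ⟨h1, -⟩ | ⟨h1, -, hab⟩ | ⟨-, ht0, -⟩⟩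
        · exfalso
          have hlt := hAlt hs0 ha
          have h2 : i * (A + 1) ≤ i * a := Nat.mul_le_mul_left i hlt
          have h3 : i * (A + 1) = i * A + i := by ring
          omega
        · exfalso; omega
        · exfalso; omega
        · have hAae : A = a := Nat.eq_of_mul_eq_mul_left hi0 (by omega)
          have hab' := Nat.even_iff.mp hab
          have hpar : Even (A - b) := Nat.even_iff.mpr (by omega)
          rw [AREVB_sgn_eq heven hpar (by omega)]
        · exfalso; omega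

/-- AREVB -/
theorem ar_even_bwd (i d m : ℕ) (hi : 1 ≤ i) (heven : Even i) (hd : 4 ≤ d) (hm : 2 ≤ m)
    (hme : Even m) (hmd : m < d) (hC : Cond74 i d m) : ModelH 1 1 i d m := by
  unfold Cond74 at hC
  rw [if_pos heven] at hC
  intro A hA
  obtain ⟨hA1, hA2, -, hA4⟩ := hA
  have hi0 : 0 < i := by omega
  have hq : (2 * d) % i = m % i →
      (2 * d + m - 2 * ((2 * d) % i)) / i = (2 * d) / i + m / i := by
    intro h
    have h1 := Nat.div_add_mod (2 * d) i
    have h2 := Nat.div_add_mod m i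
    have h3 : 2 * d + m - 2 * ((2 * d) % i) = i * ((2 * d) / i + m / i) := by
      rw [Nat.mul_add]; omega
    rw [h3, Nat.mul_div_cancel_left _ hi0]
  have hC' : ((2 * d) % i = 0 ∧ (Odd ((2 * d) / i) ∨ (m % i = 0 ∧ Even (m / i)))) ∨
      (i ≤ m ∧ ((m % i < (2 * d) % i ∧ 0 < m % i) ∨
        ((2 * d) % i = m % i ∧ 0 < m % i ∧ Even ((2 * d) / i + m / i)) ∨
        (0 < (2 * d) % i ∧ m % i = 0 ∧ Even (m / i)))) := by
    rcases hC with h | ⟨h1, h | ⟨h2, h3, h4⟩ | h⟩
    · exact Or.inl h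
    · exact Or.inr ⟨h1, Or.inl h⟩
    · exact Or.inr ⟨h1, Or.inr (Or.inl ⟨h2, h3, by rw [← hq h2]; exact h4⟩)⟩
    · exact Or.inr ⟨h1, Or.inr (Or.inr h)⟩
  exact AREVB_core i (2 * d) m ((2 * d) / i) ((2 * d) % i) (m / i) (m % i) A hi0 heven
    (Nat.div_add_mod (2 * d) i) (Nat.div_add_mod m i) (Nat.mod_lt _ hi0) (Nat.mod_lt _ hi0)
    (by omega) hC' hA1 hA2 hA4

end Cfsg.Agent.Lib.Helper98.H74
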