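import Mathlib

/-!
# Concrete models of the fields with nine and two elements

`F9 = F3[i]` with `i² = -1`: the element `f(a + 3 b)` is `a + b i`.  `F2 = {z, o}`.
Operations are given by tables, so that the kernel can evaluate them quickly.
-/

set_option autoImplicit false

namespace Cfsg.Agent.Lib.Helper99.G22

/-- the field with nine elements -/
inductive F9 : Type
  | f0 | f1 | f2 | f3 | f4 | f5 | f6 | f7 | f8
  deriving DecidableEq

instance : Fintype F9 where
  elems := ⟨↑[F9.f0, F9.f1, F9.f2, F9.f3, F9.f4, F9.f5, F9.f6, F9.f7, F9.f8], by decide⟩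
  complete := fun x => by cases x <;> decide

/-- the field with two elements -/
inductive F2 : Type
  | z | o
  deriving DecidableEq

instance : Fintype F2 where
  elems := ⟨↑[F2.z, F2.o], by decide⟩
  complete := fun x => by cases x <;> decide

namespace F9

/-- table -/
def add : F9 → F9 → F9
  | .f0, .f0 => .f0
  | .f0, .f1 => .f1
  | .f0, .f2 => .f2
  | .f0, .f3 => .f3
  | .f0, .f4 => .f4
  | .f0, .f5 => .f5
  | .f0, .f6 => .f6
  | .f0, .f7 => .f7
  | .f0, .f8 => .f8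
  | .f1, .f0 => .f1
  | .f1, .f1 => .f2
  | .f1, .f2 => .f0
  | .f1, .f3 => .f4
  | .f1, .f4 => .f5
  | .f1, .f5 => .f3
  | .f1, .f6 => .f7
  | .f1, .f7 => .f8
  | .f1, .f8 => .f6
  | .f2, .f0 => .f2
  | .f2, .f1 => .f0
  | .f2, .f2 => .f1
  | .f2, .f3 => .f5
  | .f2, .f4 => .f3
  | .f2, .f5 => .f4
  | .f2, .f6 => .f8
  | .f2, .f7 => .f6
  | .f2, .f8 => .f7
  | .f3, .f0 => .f3
  | .f3, .f1 => .f4
  | .f3, .f2 => .f5
  | .f3, .f3 => .f6
  | .f3, .f4 => .f7
  | .f3, .f5 => .f8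
  | .f3, .f6 => .f0
  | .f3, .f7 => .f1
  | .f3, .f8 => .f2
  | .f4, .f0 => .f4
  | .f4, .f1 => .f5
  | .f4, .f2 => .f3
  | .f4, .f3 => .f7
  | .f4, .f4 => .f8
  | .f4, .f5 => .f6
  | .f4, .f6 => .f1
  | .f4, .f7 => .f2
  | .f4, .f8 => .f0
  | .f5, .f0 => .f5
  | .f5, .f1 => .f3
  | .f5, .f2 => .f4
  | .f5, .f3 => .f8
  | .f5, .f4 => .f6
  | .f5, .f5 => .f7
  | .f5, .f6 => .f2
  | .f5, .f7 => .f0
  | .f5, .f8 => .f1
  | .f6, .f0 => .f6
  | .f6, .f1 => .f7
  | .f6, .f2 => .f8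
  | .f6, .f3 => .f0
  | .f6, .f4 => .f1
  | .f6, .f5 => .f2
  | .f6, .f6 => .f3
  | .f6, .f7 => .f4
  | .f6, .f8 => .f5
  | .f7, .f0 => .f7
  | .f7, .f1 => .f8
  | .f7, .f2 => .f6
  | .f7, .f3 => .f1
  | .f7, .f4 => .f2
  | .f7, .f5 => .f0
  | .f7, .f6 => .f4
  | .f7, .f7 => .f5
  | .f7, .f8 => .f3
  | .f8, .f0 => .f8
  | .f8, .f1 => .f6
  | .f8, .f2 => .f7
  | .f8, .f3 => .f2
  | .f8, .f4 => .f0
  | .f8, .f5 => .f1
  | .f8, .f6 => .f5
  | .f8, .f7 => .f3
  | .f8, .f8 => .f4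

/-- table -/
def mul : F9 → F9 → F9
  | .f0, .f0 => .f0
  | .f0, .f1 => .f0
  | .f0, .f2 => .f0
  | .f0, .f3 => .f0
  | .f0, .f4 => .f0
  | .f0, .f5 => .f0
  | .f0, .f6 => .f0
  | .f0, .f7 => .f0
  | .f0, .f8 => .f0
  | .f1, .f0 => .f0
  | .f1, .f1 => .f1
  | .f1, .f2 => .f2
  | .f1, .f3 => .f3
  | .f1, .f4 => .f4
  | .f1, .f5 => .f5
  | .f1, .f6 => .f6
  | .f1, .f7 => .f7
  | .f1, .f8 => .f8
  | .f2, .f0 => .f0
  | .f2, .f1 => .f2
  | .f2, .f2 => .f1
  | .f2, .f3 => .f6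
  | .f2, .f4 => .f8
  | .f2, .f5 => .f7
  | .f2, .f6 => .f3
  | .f2, .f7 => .f5
  | .f2, .f8 => .f4
  | .f3, .f0 => .f0
  | .f3, .f1 => .f3
  | .f3, .f2 => .f6
  | .f3, .f3 => .f2
  | .f3, .f4 => .f5
  | .f3, .f5 => .f8
  | .f3, .f6 => .f1
  | .f3, .f7 => .f4
  | .f3, .f8 => .f7
  | .f4, .f0 => .f0
  | .f4, .f1 => .f4
  | .f4, .f2 => .f8
  | .f4, .f3 => .f5
  | .f4, .f4 => .f6
  | .f4, .f5 => .f1
  | .f4, .f6 => .f7
  | .f4, .f7 => .f2
  | .f4, .f8 => .f3
  | .f5, .f0 => .f0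
  | .f5, .f1 => .f5
  | .f5, .f2 => .f7
  | .f5, .f3 => .f8
  | .f5, .f4 => .f1
  | .f5, .f5 => .f3
  | .f5, .f6 => .f4
  | .f5, .f7 => .f6
  | .f5, .f8 => .f2
  | .f6, .f0 => .f0
  | .f6, .f1 => .f6
  | .f6, .f2 => .f3
  | .f6, .f3 => .f1
  | .f6, .f4 => .f7
  | .f6, .f5 => .f4
  | .f6, .f6 => .f2
  | .f6, .f7 => .f8
  | .f6, .f8 => .f5
  | .f7, .f0 => .f0
  | .f7, .f1 => .f7
  | .f7, .f2 => .f5
  | .f7, .f3 => .f4
  | .f7, .f4 => .f2
  | .f7, .f5 => .f6
  | .f7, .f6 => .f8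
  | .f7, .f7 => .f3
  | .f7, .f8 => .f1
  | .f8, .f0 => .f0
  | .f8, .f1 => .f8
  | .f8, .f2 => .f4
  | .f8, .f3 => .f7
  | .f8, .f4 => .f3
  | .f8, .f5 => .f2
  | .f8, .f6 => .f5
  | .f8, .f7 => .f1
  | .f8, .f8 => .f6

/-- table -/
def neg : F9 → F9
  | .f0 => .f0
  | .f1 => .f2
  | .f2 => .f1
  | .f3 => .f6
  | .f4 => .f8
  | .f5 => .f7
  | .f6 => .f3
  | .f7 => .f5
  | .f8 => .f4

/-- table -/
def inv : F9 → F9
  | .f0 => .f0
  | .f1 => .f1
  | .f2 => .f2
  | .f3 => .f6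
  | .f4 => .f5
  | .f5 => .f4
  | .f6 => .f3
  | .f7 => .f8
  | .f8 => .f7

/-- table -/
def frob : F9 → F9
  | .f0 => .f0
  | .f1 => .f1
  | .f2 => .f2
  | .f3 => .f6
  | .f4 => .f7
  | .f5 => .f8
  | .f6 => .f3
  | .f7 => .f4
  | .f8 => .f5


theorem add_assoc' : ∀ a b c : F9, add (add a b) c = add a (add b c) := by decide +kernel
theorem zero_add' : ∀ a : F9, add f0 a = a := by decide
theorem add_zero' : ∀ a : F9, add a f0 = a := by decide
theorem neg_add' : ∀ a : F9, add (neg a) a = f0 := by decide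
theorem add_comm' : ∀ a b : F9, add a b = add b a := by decide +kernel
theorem left_distrib' : ∀ a b c : F9, mul a (add b c) = add (mul a b) (mul a c) := by decide +kernel
theorem right_distrib' : ∀ a b c : F9, mul (add a b) c = add (mul a c) (mul b c) := by decide +kernel
theorem zero_mul' : ∀ a : F9, mul f0 a = f0 := by decide
theorem mul_zero' : ∀ a : F9, mul a f0 = f0 := by decide
theorem mul_assoc' : ∀ a b c : F9, mul (mul a b) c = mul a (mul b c) := by decide +kernel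
theorem one_mul' : ∀ a : F9, mul f1 a = a := by decide
theorem mul_one' : ∀ a : F9, mul a f1 = a := by decide
theorem mul_comm' : ∀ a b : F9, mul a b = mul b a := by decide +kernel
theorem mul_inv' : ∀ a : F9, a ≠ f0 → mul a (inv a) = f1 := by decide

instance : Zero F9 := ⟨f0⟩
instance : One F9 := ⟨f1⟩
instance : Add F9 := ⟨add⟩
instance : Mul F9 := ⟨mul⟩
instance : Neg F9 := ⟨neg⟩
instance : Inv F9 := ⟨inv⟩

instance instCommRing : CommRing F9 where
  add_assoc := add_assoc'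
  zero_add := zero_add'
  add_zero := add_zero'
  nsmul := nsmulRec
  zsmul := zsmulRec
  neg_add_cancel := neg_add'
  add_comm := add_comm'
  left_distrib := left_distrib'
  right_distrib := right_distrib'
  zero_mul := zero_mul'
  mul_zero := mul_zero'
  mul_assoc := mul_assoc'
  one_mul := one_mul'
  mul_one := mul_one'
  mul_comm := mul_comm'

instance instField : Field F9 where
  toCommRing := instCommRing
  exists_pair_ne := ⟨f0, f1, by decide⟩
  mul_inv_cancel := mul_inv'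
  inv_zero := rfl
  nnqsmul := _
  nnqsmul_def := fun _ _ => rfl
  qsmul := _
  qsmul_def := fun _ _ => rfl


theorem card : Fintype.card F9 = 3 ^ 2 := rfl

theorem pow3 : ∀ x : F9, x ^ 3 = frob x := by decide

end F9

namespace F2

/-- table -/
def add : F2 → F2 → F2
  | .z, .z => .z
  | .z, .o => .o
  | .o, .z => .o
  | .o, .o => .z

/-- table -/
def mul : F2 → F2 → F2
  | .z, .z => .z
  | .z, .o => .z
  | .o, .z => .z
  | .o, .o => .o

/-- table -/
def neg : F2 → F2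
  | .z => .z
  | .o => .o

/-- table -/
def inv : F2 → F2
  | .z => .z
  | .o => .o


theorem add_assoc' : ∀ a b c : F2, add (add a b) c = add a (add b c) := by decide +kernel
theorem zero_add' : ∀ a : F2, add z a = a := by decide
theorem add_zero' : ∀ a : F2, add a z = a := by decide
theorem neg_add' : ∀ a : F2, add (neg a) a = z := by decide
theorem add_comm' : ∀ a b : F2, add a b = add b a := by decide +kernel
theorem left_distrib' : ∀ a b c : F2, mul a (add b c) = add (mul a b) (mul a c) := by decide +kernel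
theorem right_distrib' : ∀ a b c : F2, mul (add a b) c = add (mul a c) (mul b c) := by decide +kernel
theorem zero_mul' : ∀ a : F2, mul z a = z := by decide
theorem mul_zero' : ∀ a : F2, mul a z = z := by decide
theorem mul_assoc' : ∀ a b c : F2, mul (mul a b) c = mul a (mul b c) := by decide +kernel
theorem one_mul' : ∀ a : F2, mul o a = a := by decide
theorem mul_one' : ∀ a : F2, mul a o = a := by decide
theorem mul_comm' : ∀ a b : F2, mul a b = mul b a := by decide +kernel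
theorem mul_inv' : ∀ a : F2, a ≠ z → mul a (inv a) = o := by decide

instance : Zero F2 := ⟨z⟩
instance : One F2 := ⟨o⟩
instance : Add F2 := ⟨add⟩
instance : Mul F2 := ⟨mul⟩
instance : Neg F2 := ⟨neg⟩
instance : Inv F2 := ⟨inv⟩

instance instCommRing : CommRing F2 where
  add_assoc := add_assoc'
  zero_add := zero_add'
  add_zero := add_zero'
  nsmul := nsmulRec
  zsmul := zsmulRec
  neg_add_cancel := neg_add'
  add_comm := add_comm'
  left_distrib := left_distrib'
  right_distrib := right_distrib'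
  zero_mul := zero_mul'
  mul_zero := mul_zero'
  mul_assoc := mul_assoc'
  one_mul := one_mul'
  mul_one := mul_one'
  mul_comm := mul_comm'

instance instField : Field F2 where
  toCommRing := instCommRing
  exists_pair_ne := ⟨z, o, by decide⟩
  mul_inv_cancel := mul_inv'
  inv_zero := rfl
  nnqsmul := _
  nnqsmul_def := fun _ _ => rfl
  qsmul := _
  qsmul_def := fun _ _ => rfl


theorem card : Fintype.card F2 = 2 := rfl

end F2

end Cfsg.Agent.Lib.Helper99.G22
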