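import Mathlib

/-!
# Point systems: permutation actions of linear groups on a finite set of projective points

A point system is a table `P : X → (ι → R)` of vectors together with an index function
`idx : (ι → R) → X` which sends each "good" vector to the index of the table entry it is
proportional to.  A group acting linearly and preserving good vectors then acts on `X`.
-/

set_option autoImplicit false

namespace Cfsg.Agent.Lib.Helper99

open Matrix

/-- a table of points with an index function -/
structure PtSys (R : Type*) [Field R] (ι : Type*) [Fintype ι] [DecidableEq ι] (X : Type*) where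
  /-- the vectors that represent points -/
  good : (ι → R) → Prop
  /-- the table -/
  P : X → ι → R
  /-- the index of a vector -/
  idx : (ι → R) → X
  /-- zero is not a point -/
  good_zero : ¬ good 0
  /-- table entries are good -/
  good_P : ∀ x, good (P x)
  /-- every good vector is a multiple of its table entry -/
  spec : ∀ v, good v → ∃ c : R, v = c • P (idx v)
  /-- the index of a multiple of a table entry -/
  uniq : ∀ x (c : R), c ≠ 0 → idx (c • P x) = x

namespace PtSys

variable {R : Type*} [Field R] {ι : Type*} [Fintype ι] [DecidableEq ι] {X : Type*}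
  (S : PtSys R ι X) {G : Type*} [Group G] (M : G →* Matrix ι ι R)

/-- the action on indices -/
def act (g : G) (x : X) : X := S.idx (M g *ᵥ S.P x)

theorem act_one (x : X) : S.act M 1 x = x := by
  have h := S.uniq x 1 one_ne_zero
  rw [one_smul] at h
  unfold act
  rw [map_one, Matrix.one_mulVec]
  exact h

theorem act_mul (hM : ∀ g v, S.good v → S.good (M g *ᵥ v)) (g h : G) (x : X) :
    S.act M (g * h) x = S.act M g (S.act M h x) := by
  have hw : S.good (M h *ᵥ S.P x) := hM h _ (S.good_P x)
  obtain ⟨c, hc⟩ := S.spec _ hw
  have hu : S.good (M g *ᵥ S.P (S.act M h x)) := hM g _ (S.good_P _)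
  obtain ⟨c', hc'⟩ := S.spec _ hu
  have key : M (g * h) *ᵥ S.P x = (c * c') • S.P (S.act M g (S.act M h x)) := by
    rw [map_mul, ← Matrix.mulVec_mulVec]
    have h1 : M g *ᵥ (M h *ᵥ S.P x) = M g *ᵥ (c • S.P (S.act M h x)) := congrArg _ hc
    rw [h1, Matrix.mulVec_smul]
    have h2 : c • (M g *ᵥ S.P (S.act M h x)) = c • (c' • S.P (S.act M g (S.act M h x))) :=
      congrArg _ hc'
    rw [h2, smul_smul]
  have hgood : S.good ((c * c') • S.P (S.act M g (S.act M h x))) := by
    rw [← key]
    exact hM _ _ (S.good_P x)
  have hne : c * c' ≠ 0 := by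
    intro h0
    rw [h0, zero_smul] at hgood
    exact S.good_zero hgood
  show S.idx (M (g * h) *ᵥ S.P x) = _
  rw [key]
  exact S.uniq _ _ hne

/-- the permutation representation -/
def hom (hM : ∀ g v, S.good v → S.good (M g *ᵥ v)) : G →* Equiv.Perm X :=
  letI : MulAction G X :=
    { smul := S.act M
      one_smul := S.act_one M
      mul_smul := S.act_mul M hM }
  MulAction.toPermHom G X

theorem hom_apply (hM : ∀ g v, S.good v → S.good (M g *ᵥ v)) (g : G) (x : X) :
    S.hom M hM g x = S.idx (M g *ᵥ S.P x) := rfl

/-- an element acting trivially has every good vector as an eigenvector -/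
theorem eig_of_fix (hM : ∀ g v, S.good v → S.good (M g *ᵥ v)) (g : G)
    (hg : S.hom M hM g = 1) (v : ι → R) (hv : S.good v) : ∃ c : R, M g *ᵥ v = c • v := by
  obtain ⟨c, hc⟩ := S.spec v hv
  have hx : S.idx (M g *ᵥ S.P (S.idx v)) = S.idx v := by
    rw [← hom_apply S M hM, hg]
    rfl
  obtain ⟨c', hc'⟩ := S.spec _ (hM g _ (S.good_P (S.idx v)))
  rw [hx] at hc'
  refine ⟨c', ?_⟩
  have h1 : M g *ᵥ v = M g *ᵥ (c • S.P (S.idx v)) := congrArg _ hc
  rw [h1, Matrix.mulVec_smul, hc', smul_smul, mul_comm, ← smul_smul, ← hc]

end PtSys

section groups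

/-- the quotient by the centre is an isomorphism invariant -/
theorem center_quot_congr {A B : Type*} [Group A] [Group B] (e : A ≃* B) :
    Nonempty ((A ⧸ Subgroup.center A) ≃* (B ⧸ Subgroup.center B)) := by
  have he : (Subgroup.center A).map (e : A →* B) = Subgroup.center B := by
    ext y
    constructor
    · rintro ⟨x, hx, rfl⟩
      rw [SetLike.mem_coe, Subgroup.mem_center_iff] at hx
      rw [Subgroup.mem_center_iff]
      intro z
      obtain ⟨w, rfl⟩ := e.surjective z
      show e w * e x = e x * e w
      rw [← map_mul, ← map_mul, hx w]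
    · intro hy
      refine ⟨e.symm y, ?_, e.apply_symm_apply y⟩
      rw [Subgroup.mem_center_iff] at hy
      rw [SetLike.mem_coe, Subgroup.mem_center_iff]
      intro z
      apply e.injective
      rw [map_mul, map_mul, e.apply_symm_apply]
      exact hy (e z)
  exact ⟨QuotientGroup.congr _ _ e he⟩

/-- two groups with permutation representations on the same set, with the same image, the
first faithful and centreless, the second with kernel the centre, have isomorphic central
quotients -/
theorem perm_iso {A B X : Type*} [Group A] [Group B] (f : A →* Equiv.Perm X)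
    (g : B →* Equiv.Perm X) (hf : Function.Injective f) (hA : Subgroup.center A = ⊥)
    (hrange : f.range = g.range) (hker : g.ker = Subgroup.center B) :
    Nonempty ((A ⧸ Subgroup.center A) ≃* (B ⧸ Subgroup.center B)) := by
  have e1 : (A ⧸ Subgroup.center A) ≃* A :=
    (QuotientGroup.quotientMulEquivOfEq hA).trans QuotientGroup.quotientBot
  have e2 : A ≃* f.range := MonoidHom.ofInjective hf
  have e3 : f.range ≃* g.range := MulEquiv.subgroupCongr hrange
  have e4 : (B ⧸ g.ker) ≃* g.range := QuotientGroup.quotientKerEquivRange g
  have e5 : (B ⧸ Subgroup.center B) ≃* (B ⧸ g.ker) := QuotientGroup.quotientMulEquivOfEq hker.symm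
  exact ⟨((e1.trans e2).trans e3).trans (e4.symm.trans e5.symm)⟩

end groups

end Cfsg.Agent.Lib.Helper99
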