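import Mathlib
import Cfsg.Prelude.Def_ChevG2
import Cfsg.Agent.Lib.Helper99.PtSys
import Cfsg.Agent.Lib.Helper99.G22DataG

/-!
# The action of `G₂(2)` on sixty-three vectors of the adjoint module

The twelve root elements `x_r(1)` permute the sixty-three table vectors `PG k`, which span
the module; this gives a faithful permutation representation of `G₂(2)`.
-/

set_option autoImplicit false

namespace Cfsg.Agent.Lib.Helper99.G22

open Cfsg.Lie Matrix Cfsg.Agent.Lib.Helper99

theorem sum_idx' (f : Fin 2 ⊕ Fin 12 → F2) :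
    ∑ j, f j = (f (Sum.inl 0) + f (Sum.inl 1)) + (f (Sum.inr 0) + (f (Sum.inr 1) +
      (f (Sum.inr 2) + (f (Sum.inr 3) + (f (Sum.inr 4) + (f (Sum.inr 5) + (f (Sum.inr 6) +
      (f (Sum.inr 7) + (f (Sum.inr 8) + (f (Sum.inr 9) + (f (Sum.inr 10) +
      f (Sum.inr 11)))))))))))) := by
  rw [Fintype.sum_sum_type, Fin.sum_univ_two]
  simp only [Fin.sum_univ_succ, Fin.sum_univ_zero, add_zero]
  rfl

theorem sum_idx (f : chevG2.Idx → F2) : ∑ j, f j = sum14 f := sum_idx' f

theorem act_gen (r : Rt) (k : Pt63) :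
    chevG2.xMat F2 (rt r) 1 *ᵥ PG k = PG (permG r k) := by
  funext i
  rw [← tabG r k i, ← sum_idx]
  show ∑ j, chevG2.xMat F2 (rt r) 1 i j * PG k j = ∑ j, F2.mul (MTe r i j) (PG k j)
  refine Finset.sum_congr rfl (fun j _ => ?_)
  have h := xMat_one_eq r i j
  show F2.mul (ent r F2.o i j) (PG k j) = _
  rw [h]

theorem xMat_zero (r : Rt) : chevG2.xMat F2 (rt r) 0 = 1 := by
  ext i j
  exact xMat_zero_eq r i j

/-- the sum of a list of table vectors -/
def vsum (l : List Pt63) : chevG2.Idx → F2 :=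
  fun j => (l.map (fun k => PG k j)).foldr F2.add F2.z

theorem vsum_nil : vsum [] = 0 := rfl

theorem vsum_cons (k : Pt63) (l : List Pt63) : vsum (k :: l) = PG k + vsum l := rfl

theorem mulVec_vsum (M : Matrix chevG2.Idx chevG2.Idx F2) (h : ∀ k, M *ᵥ PG k = PG k)
    (l : List Pt63) : M *ᵥ vsum l = vsum l := by
  induction l with
  | nil => rw [vsum_nil, Matrix.mulVec_zero]
  | cons k l ih => rw [vsum_cons, Matrix.mulVec_add, h, ih]

theorem vsum_span (i : chevG2.Idx) : vsum (spanL i) = Pi.single i 1 := by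
  funext j
  rw [Pi.single_apply]
  exact span_ok i j

theorem eq_one_of_fix (M : Matrix chevG2.Idx chevG2.Idx F2) (h : ∀ k, M *ᵥ PG k = PG k) :
    M = 1 := by
  ext j i
  have h1 := mulVec_vsum M h (spanL i)
  rw [vsum_span, Matrix.mulVec_single_one] at h1
  have h2 := congrFun h1 j
  rw [Matrix.col_apply, Pi.single_apply] at h2
  rw [h2, Matrix.one_apply]

theorem xMat_sq (r : Rt) : chevG2.xMat F2 (rt r) 1 * chevG2.xMat F2 (rt r) 1 = 1 := by
  apply eq_one_of_fix
  intro k
  rw [← Matrix.mulVec_mulVec, act_gen, act_gen, invol]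

/-- the root elements as units -/
def genG (r : Rt) : GL chevG2.Idx F2 :=
  ⟨chevG2.xMat F2 (rt r) 1, chevG2.xMat F2 (rt r) 1, xMat_sq r, xMat_sq r⟩

theorem genG_val (r : Rt) :
    ((genG r : GL chevG2.Idx F2) : Matrix chevG2.Idx chevG2.Idx F2) = chevG2.xMat F2 (rt r) 1 :=
  rfl

theorem genG_mem (r : Rt) : genG r ∈ chevG2.group F2 :=
  Subgroup.subset_closure ⟨rt r, 1, rfl⟩

theorem genG_inv (r : Rt) : (genG r)⁻¹ = genG r := rfl

theorem gen_cases (g : GL chevG2.Idx F2) (r : Fin chevG2.nroots) (t : F2)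
    (hg : (g : Matrix chevG2.Idx chevG2.Idx F2) = chevG2.xMat F2 r t) :
    g = 1 ∨ ∃ r' : Rt, g = genG r' := by
  obtain ⟨r', rfl⟩ := rt_surj r
  cases t with
  | z =>
    left
    apply Units.ext
    rw [hg]
    exact xMat_zero r'
  | o =>
    right
    refine ⟨r', ?_⟩
    apply Units.ext
    rw [hg]
    rfl

theorem pres_aux (g : GL chevG2.Idx F2) (hg : g ∈ chevG2.group F2) :
    (∀ k, ∃ k', (g : Matrix chevG2.Idx chevG2.Idx F2) *ᵥ PG k = PG k') ∧
    (∀ k, ∃ k', ((g⁻¹ : GL chevG2.Idx F2) : Matrix chevG2.Idx chevG2.Idx F2) *ᵥ PG k = PG k') := by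
  induction hg using Subgroup.closure_induction with
  | mem g hg =>
    obtain ⟨r, t, hg⟩ := hg
    rcases gen_cases g r t hg with rfl | ⟨r', rfl⟩
    · constructor
      · intro k
        exact ⟨k, by rw [Units.val_one, Matrix.one_mulVec]⟩
      · intro k
        exact ⟨k, by rw [inv_one, Units.val_one, Matrix.one_mulVec]⟩
    · constructor
      · intro k
        exact ⟨permG r' k, act_gen r' k⟩
      · intro k
        exact ⟨permG r' k, act_gen r' k⟩
  | one =>
    constructor
    · intro k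
      exact ⟨k, by rw [Units.val_one, Matrix.one_mulVec]⟩
    · intro k
      exact ⟨k, by rw [inv_one, Units.val_one, Matrix.one_mulVec]⟩
  | mul x y _ _ ihx ihy =>
    constructor
    · intro k
      obtain ⟨k1, h1⟩ := ihy.1 k
      obtain ⟨k2, h2⟩ := ihx.1 k1
      exact ⟨k2, by rw [Units.val_mul, ← Matrix.mulVec_mulVec, h1, h2]⟩
    · intro k
      obtain ⟨k1, h1⟩ := ihx.2 k
      obtain ⟨k2, h2⟩ := ihy.2 k1
      exact ⟨k2, by rw [_root_.mul_inv_rev, Units.val_mul, ← Matrix.mulVec_mulVec, h1, h2]⟩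
  | inv x _ ih =>
    refine ⟨ih.2, ?_⟩
    rw [inv_inv]
    exact ih.1

theorem PG_injective : Function.Injective PG := fun k l h => PG_inj k l (fun i => congrFun h i)

/-- the index of a table vector -/
noncomputable def idxG (v : chevG2.Idx → F2) : Pt63 :=
  open Classical in if h : ∃ k, v = PG k then Classical.choose h else Pt63.q0

theorem idxG_PG (k : Pt63) : idxG (PG k) = k := by
  have h : ∃ k', PG k = PG k' := ⟨k, rfl⟩
  unfold idxG
  rw [dif_pos h]
  exact (PG_injective (Classical.choose_spec h)).symm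

/-- the point system of the sixty-three vectors -/
noncomputable def sysG : PtSys F2 chevG2.Idx Pt63 where
  good v := ∃ k, v = PG k
  P := PG
  idx := idxG
  good_zero := by
    rintro ⟨k, hk⟩
    obtain ⟨i, hi⟩ := PG_ne k
    exact hi (congrFun hk i).symm
  good_P x := ⟨x, rfl⟩
  spec := by
    rintro v ⟨k, rfl⟩
    exact ⟨1, by rw [one_smul, idxG_PG]⟩
  uniq := by
    intro x c hc
    cases c with
    | z => exact absurd rfl hc
    | o =>
      have h1 : (F2.o : F2) • PG x = PG x := one_smul F2 (PG x)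
      rw [h1, idxG_PG]

/-- the group as matrices -/
def MG : ↥(chevG2.group F2) →* Matrix chevG2.Idx chevG2.Idx F2 :=
  (Units.coeHom _).comp (chevG2.group F2).subtype

theorem MG_apply (g : ↥(chevG2.group F2)) :
    MG g = ((g : GL chevG2.Idx F2) : Matrix chevG2.Idx chevG2.Idx F2) := rfl

theorem MG_good (g : ↥(chevG2.group F2)) (v : chevG2.Idx → F2) (hv : sysG.good v) :
    sysG.good (MG g *ᵥ v) := by
  obtain ⟨k, rfl⟩ := hv
  obtain ⟨k', hk'⟩ := (pres_aux g.1 g.2).1 k
  exact ⟨k', hk'⟩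

/-- the permutation representation of `G₂(2)` on the sixty-three vectors -/
noncomputable def rhoG : ↥(chevG2.group F2) →* Equiv.Perm Pt63 := sysG.hom MG MG_good

theorem rhoG_apply (g : ↥(chevG2.group F2)) (x : Pt63) :
    rhoG g x = idxG (MG g *ᵥ PG x) := rfl

theorem rhoG_spec (g : ↥(chevG2.group F2)) (x : Pt63) :
    MG g *ᵥ PG x = PG (rhoG g x) := by
  obtain ⟨k', hk'⟩ := (pres_aux g.1 g.2).1 x
  rw [rhoG_apply]
  have h : MG g *ᵥ PG x = PG k' := hk'
  rw [h, idxG_PG]

theorem rhoG_gen (r : Rt) (x : Pt63) : rhoG ⟨genG r, genG_mem r⟩ x = permG r x := by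
  rw [rhoG_apply]
  have h : MG ⟨genG r, genG_mem r⟩ *ᵥ PG x = PG (permG r x) := act_gen r x
  rw [h, idxG_PG]

theorem rhoG_injective : Function.Injective rhoG := by
  rw [injective_iff_map_eq_one]
  intro g hg
  have h1 : MG g = 1 := by
    apply eq_one_of_fix
    intro k
    rw [rhoG_spec, hg]
    rfl
  apply Subtype.ext
  apply Units.ext
  exact h1

/-- the generating permutations -/
noncomputable def gG (r : Rt) : Equiv.Perm Pt63 := rhoG ⟨genG r, genG_mem r⟩

theorem gG_apply (r : Rt) (x : Pt63) : gG r x = permG r x := rhoG_gen r x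

theorem rhoG_mem_closure (g : GL chevG2.Idx F2) (hg : g ∈ chevG2.group F2) :
    ∀ h : ↥(chevG2.group F2), (h : GL chevG2.Idx F2) = g →
      rhoG h ∈ Subgroup.closure (Set.range gG) := by
  induction hg using Subgroup.closure_induction with
  | mem g hg =>
    intro h hh
    obtain ⟨r, t, hg'⟩ := hg
    rcases gen_cases g r t hg' with rfl | ⟨r', rfl⟩
    · have h1 : h = 1 := Subtype.ext hh
      rw [h1, map_one]
      exact Subgroup.one_mem _
    · have h1 : h = ⟨genG r', genG_mem r'⟩ := Subtype.ext hh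
      rw [h1]
      exact Subgroup.subset_closure ⟨r', rfl⟩
  | one =>
    intro h hh
    have h1 : h = 1 := Subtype.ext hh
    rw [h1, map_one]
    exact Subgroup.one_mem _
  | mul x y hx hy ihx ihy =>
    intro h hh
    have h1 : h = ⟨x, hx⟩ * ⟨y, hy⟩ := Subtype.ext hh
    rw [h1, map_mul]
    exact Subgroup.mul_mem _ (ihx _ rfl) (ihy _ rfl)
  | inv x hx ih =>
    intro h hh
    have h1 : h = ⟨x, hx⟩⁻¹ := Subtype.ext hh
    rw [h1, map_inv]
    exact Subgroup.inv_mem _ (ih _ rfl)

theorem rhoG_range : rhoG.range = Subgroup.closure (Set.range gG) := by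
  apply le_antisymm
  · rintro _ ⟨g, rfl⟩
    exact rhoG_mem_closure g.1 g.2 g rfl
  · rw [Subgroup.closure_le]
    rintro _ ⟨r, rfl⟩
    exact ⟨_, rfl⟩

end Cfsg.Agent.Lib.Helper99.G22
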