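import Mathlib
import Cfsg.Prelude.Def_Classical
import Cfsg.Prelude.Def_ClassicalGeometry
import Cfsg.Agent.Lib.Helper99.PtSys
import Cfsg.Agent.Lib.Helper99.G22DataU
import Cfsg.Agent.Lib.Helper18.Unitary

/-!
# The action of `SU₃(3)` on the sixty-three points of norm one

The permutation representation `rhoU : SU 3 F9 3 →* Perm Pt63` is faithful, and the unitary
transvections act by the tabulated permutations.
-/

set_option autoImplicit false

namespace Cfsg.Agent.Lib.Helper99.G22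

open Matrix Cfsg Cfsg.Agent.Lib.Helper99 Cfsg.Agent.Lib.Helper18

/-- table entry as a vector -/
def P9 (x : Pt63) : Fin 3 → F9 := ![(PT9 x).x0, (PT9 x).x1, (PT9 x).x2]

/-- the index of a vector -/
def idx9 (v : Fin 3 → F9) : Pt63 := idxT9 (v 0) (v 1) (v 2)

theorem hf_eq9 (u v : Fin 3 → F9) :
    hermForm 3 F9 3 u v = hfR9 (u 0) (u 1) (u 2) (v 0) (v 1) (v 2) := by
  simp only [hermForm, Fin.sum_univ_three, F9.pow3]
  rfl

/-- the unitary point system -/
def sysU9 : PtSys F9 (Fin 3) Pt63 where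
  good v := hermForm 3 F9 3 v v = 1
  P := P9
  idx := idx9
  good_zero := by
    intro h
    rw [hf_eq9] at h
    exact absurd h (by decide)
  good_P x := by
    rw [hf_eq9]
    exact goodP9 x
  spec v hv := by
    rw [hf_eq9] at hv
    obtain ⟨h0, h1, h2⟩ := spec9 _ _ _ hv
    refine ⟨scT9 (v 0) (v 1) (v 2), ?_⟩
    funext i
    fin_cases i
    · exact h0
    · exact h1
    · exact h2
  uniq x c hc := uniq9 x c hc

/-- the matrix of an element of `SU` -/
def MU9 : SU 3 F9 3 →* Matrix (Fin 3) (Fin 3) F9 := (slToMat 3 F9).comp (SU 3 F9 3).subtype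

theorem MU9_apply (g : SU 3 F9 3) :
    MU9 g = ((g : Matrix.SpecialLinearGroup (Fin 3) F9) : Matrix (Fin 3) (Fin 3) F9) := rfl

theorem MU9_good (g : SU 3 F9 3) (v : Fin 3 → F9) (hv : sysU9.good v) :
    sysU9.good (MU9 g *ᵥ v) :=
  (g.2 v v).trans hv

/-- the permutation representation of `SU₃(3)` -/
def rhoU : SU 3 F9 3 →* Equiv.Perm Pt63 := sysU9.hom MU9 MU9_good

theorem rhoU_apply (g : SU 3 F9 3) (x : Pt63) : rhoU g x = idx9 (MU9 g *ᵥ P9 x) := rfl

/-- a matrix with the frame vectors as eigenvectors is scalar -/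
theorem scalar_of_eig3 {R : Type*} [Field R] (A : Matrix (Fin 3) (Fin 3) R) (c : R) (hc : c ≠ 0)
    (h0 : ∃ d : R, A *ᵥ ![1, 0, 0] = d • ![1, 0, 0])
    (h1 : ∃ d : R, A *ᵥ ![0, 1, 0] = d • ![0, 1, 0])
    (h2 : ∃ d : R, A *ᵥ ![0, 0, 1] = d • ![0, 0, 1])
    (h3 : ∃ d : R, A *ᵥ ![c, c, 0] = d • ![c, c, 0])
    (h4 : ∃ d : R, A *ᵥ ![0, c, c] = d • ![0, c, c]) :
    ∃ d : R, A = d • (1 : Matrix (Fin 3) (Fin 3) R) := by
  obtain ⟨c0, h0⟩ := h0
  obtain ⟨c1, h1⟩ := h1
  obtain ⟨c2, h2⟩ := h2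
  obtain ⟨c3, h3⟩ := h3
  obtain ⟨c4, h4⟩ := h4
  have a00 := congrFun h0 0
  have a10 := congrFun h0 1
  have a20 := congrFun h0 2
  have a01 := congrFun h1 0
  have a11 := congrFun h1 1
  have a21 := congrFun h1 2
  have a02 := congrFun h2 0
  have a12 := congrFun h2 1
  have a22 := congrFun h2 2
  have b0 := congrFun h3 0
  have b1 := congrFun h3 1
  have d1 := congrFun h4 1
  have d2 := congrFun h4 2
  simp [Matrix.mulVec, dotProduct, Fin.sum_univ_three] at a00 a10 a20 a01 a11 a21 a02 a12 a22 b0 b1 d1 d2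
  simp only [a00, a01, a02, a10, a11, a12, a20, a21, a22, add_zero, zero_add, zero_mul] at b0 b1 d1 d2
  have e1 : c0 = c3 := mul_right_cancel₀ hc b0
  have e2 : c1 = c3 := mul_right_cancel₀ hc b1
  have e3 : c1 = c4 := mul_right_cancel₀ hc d1
  have e4 : c2 = c4 := mul_right_cancel₀ hc d2
  refine ⟨c0, ?_⟩
  have f1 : c1 = c0 := by rw [e2, e1]
  have f2 : c2 = c0 := by rw [e4, ← e3, f1]
  ext i j
  fin_cases i <;> fin_cases j <;>
    simp [a00, a10, a20, a01, a11, a21, a02, a12, a22, f1, f2]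

theorem rhoU_injective : Function.Injective rhoU := by
  rw [injective_iff_map_eq_one]
  intro g hg
  have eig := fun v hv => sysU9.eig_of_fix MU9 MU9_good g hg v hv
  have good : ∀ v : Fin 3 → F9, hfR9 (v 0) (v 1) (v 2) (v 0) (v 1) (v 2) = F9.f1 →
      sysU9.good v := fun v h => (hf_eq9 v v).trans h
  obtain ⟨c, hc⟩ := scalar_of_eig3 (MU9 g) F9.f4 (by decide) (eig _ (good _ (by decide)))
    (eig _ (good _ (by decide))) (eig _ (good _ (by decide))) (eig _ (good _ (by decide)))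
    (eig _ (good _ (by decide)))
  have hdet : (MU9 g).det = 1 := g.1.2
  rw [hc, Matrix.det_smul, Matrix.det_one, mul_one, Fintype.card_fin] at hdet
  have hc1 : c = 1 := (by decide : ∀ c : F9, c ^ 3 = 1 → c = 1) c hdet
  rw [hc1, one_smul] at hc
  apply Subtype.ext
  apply Subtype.ext
  exact hc

theorem rhoU_tvI (A : SU 3 F9 3) (v : Fin 3 → F9) (hv : hermForm 3 F9 3 v v = 0)
    (hA : ((A : Matrix.SpecialLinearGroup (Fin 3) F9) : Matrix (Fin 3) (Fin 3) F9) =
      unitaryTransvection 3 3 v F9.f3) (x : Pt63) :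
    rhoU A x = permT (isoIdxI (v 0) (v 1) (v 2)) x := by
  rw [rhoU_apply, MU9_apply, hA, unitaryTransvection_mulVec, hf_eq9]
  rw [hf_eq9] at hv
  exact (tabU _ _ _ hv x).1

theorem rhoU_tvM (A : SU 3 F9 3) (v : Fin 3 → F9) (hv : hermForm 3 F9 3 v v = 0)
    (hA : ((A : Matrix.SpecialLinearGroup (Fin 3) F9) : Matrix (Fin 3) (Fin 3) F9) =
      unitaryTransvection 3 3 v F9.f6) (x : Pt63) :
    rhoU A x = permT (isoIdxM (v 0) (v 1) (v 2)) x := by
  rw [rhoU_apply, MU9_apply, hA, unitaryTransvection_mulVec, hf_eq9]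
  rw [hf_eq9] at hv
  exact (tabU _ _ _ hv x).2

end Cfsg.Agent.Lib.Helper99.G22
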