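import Mathlib

/-!
# Permutation realisations of a simple group on the cosets of a subgroup

For a simple group `G` and a proper subgroup `H` of index `n`, the action on the cosets gives an
isomorphic copy `K` of `G` inside `Perm (Fin n)`, transitive, in which the stabiliser of `0`
is the image of `H`.
-/

set_option autoImplicit false

namespace Cfsg.Agent.Lib.Helper99.PermReal

variable {G : Type*} [Group G]

/-- the action on the cosets, transported to `Fin n` -/
noncomputable def cosetHom (H : Subgroup G) {n : ℕ} (φ : G ⧸ H ≃ Fin n) :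
    G →* Equiv.Perm (Fin n) :=
  (φ.permCongrHom : Equiv.Perm (G ⧸ H) →* Equiv.Perm (Fin n)).comp
    (MulAction.toPermHom G (G ⧸ H))

theorem cosetHom_apply (H : Subgroup G) {n : ℕ} (φ : G ⧸ H ≃ Fin n) (g : G) (x : Fin n) :
    cosetHom H φ g x = φ (g • φ.symm x) := rfl

theorem cosetHom_mk (H : Subgroup G) {n : ℕ} (φ : G ⧸ H ≃ Fin n) (g a : G) :
    cosetHom H φ g (φ (QuotientGroup.mk a)) = φ (QuotientGroup.mk (g * a)) := by
  rw [cosetHom_apply, Equiv.symm_apply_apply]
  rfl

theorem cosetHom_injective [IsSimpleGroup G] (H : Subgroup G) (hH : H ≠ ⊤) {n : ℕ}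
    (φ : G ⧸ H ≃ Fin n) : Function.Injective (cosetHom H φ) := by
  rw [← MonoidHom.ker_eq_bot_iff]
  rcases (MonoidHom.normal_ker (cosetHom H φ)).eq_bot_or_eq_top with h | h
  · exact h
  · exfalso
    apply hH
    rw [eq_top_iff]
    intro g _
    have hg : g ∈ (cosetHom H φ).ker := by
      rw [h]
      exact Subgroup.mem_top g
    rw [MonoidHom.mem_ker] at hg
    have h1 := cosetHom_mk H φ g 1
    rw [hg, mul_one, Equiv.Perm.one_apply] at h1
    have h2 := φ.injective h1
    have h3 : (1 : G)⁻¹ * g ∈ H := QuotientGroup.eq.mp h2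
    rwa [inv_one, one_mul] at h3

theorem cosetHom_fix_iff (H : Subgroup G) {n : ℕ} (φ : G ⧸ H ≃ Fin n) (g : G) :
    cosetHom H φ g (φ (QuotientGroup.mk 1)) = φ (QuotientGroup.mk 1) ↔ g ∈ H := by
  rw [cosetHom_mk, mul_one]
  constructor
  · intro h
    have h2 := φ.injective h
    have h3 : g⁻¹ * (1 : G) ∈ H := QuotientGroup.eq.mp h2
    rw [mul_one] at h3
    exact (Subgroup.inv_mem_iff H).mp h3
  · intro h
    congr 1
    apply QuotientGroup.eq.mpr
    rw [mul_one]
    exact (Subgroup.inv_mem_iff H).mpr h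

theorem cosetHom_trans (H : Subgroup G) {n : ℕ} (φ : G ⧸ H ≃ Fin n) (x y : Fin n) :
    ∃ g : G, cosetHom H φ g x = y := by
  obtain ⟨a, ha⟩ := QuotientGroup.mk_surjective (φ.symm x)
  obtain ⟨b, hb⟩ := QuotientGroup.mk_surjective (φ.symm y)
  refine ⟨b * a⁻¹, ?_⟩
  have hx : x = φ (QuotientGroup.mk a) := by rw [ha, Equiv.apply_symm_apply]
  have hy : y = φ (QuotientGroup.mk b) := by rw [hb, Equiv.apply_symm_apply]
  rw [hx, hy, cosetHom_mk, inv_mul_cancel_right]

/-- a bijection of the cosets with `Fin n` sending the trivial coset to `0` -/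
theorem exists_equiv_zero (H : Subgroup G) (n : ℕ) [NeZero n] (hn : H.index = n) :
    ∃ φ : G ⧸ H ≃ Fin n, φ (QuotientGroup.mk 1) = 0 := by
  have hfin : Finite (G ⧸ H) := by
    apply Nat.finite_of_card_ne_zero
    have h1 : Nat.card (G ⧸ H) = n := hn
    rw [h1]
    exact NeZero.ne n
  have h1 : Nat.card (G ⧸ H) = n := hn
  obtain ⟨φ0⟩ : Nonempty (G ⧸ H ≃ Fin n) :=
    ⟨(Finite.equivFin (G ⧸ H)).trans (finCongr h1)⟩
  refine ⟨φ0.trans (Equiv.swap (φ0 (QuotientGroup.mk 1)) 0), ?_⟩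
  rw [Equiv.trans_apply, Equiv.swap_apply_left]

/-- the permutation realisation of a simple group on the cosets of a proper subgroup -/
theorem exists_realization [IsSimpleGroup G] (H : Subgroup G) (n : ℕ) [NeZero n]
    (hn : H.index = n) (hH : H ≠ ⊤) :
    ∃ (K : Subgroup (Equiv.Perm (Fin n))) (e : G ≃* ↥K),
      MulAction.IsPretransitive ↥K (Fin n) ∧
      ∀ g : G, ((e g : Equiv.Perm (Fin n)) (0 : Fin n) = 0 ↔ g ∈ H) := by
  obtain ⟨φ, hφ⟩ := exists_equiv_zero H n hn
  have hinj := cosetHom_injective H hH φ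
  refine ⟨(cosetHom H φ).range, MonoidHom.ofInjective hinj, ⟨?_⟩, ?_⟩
  · intro x y
    obtain ⟨g, hg⟩ := cosetHom_trans H φ x y
    exact ⟨⟨cosetHom H φ g, ⟨g, rfl⟩⟩, hg⟩
  · intro g
    have h1 := cosetHom_fix_iff H φ g
    rw [hφ] at h1
    exact h1

/-- in a permutation realisation, the stabiliser of `0` is isomorphic to the subgroup -/
theorem stabilizer_equiv (H : Subgroup G) (n : ℕ) [NeZero n]
    (K : Subgroup (Equiv.Perm (Fin n))) (e : G ≃* ↥K)
    (he : ∀ g : G, ((e g : Equiv.Perm (Fin n)) (0 : Fin n) = 0 ↔ g ∈ H)) :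
    Nonempty (↥H ≃* ↥(MulAction.stabilizer ↥K (0 : Fin n))) := by
  have hmap : H.map (e : G →* ↥K) = MulAction.stabilizer ↥K (0 : Fin n) := by
    ext k
    rw [MulAction.mem_stabilizer_iff]
    constructor
    · rintro ⟨g, hg, rfl⟩
      exact (he g).mpr hg
    · intro hk
      refine ⟨e.symm k, ?_, e.apply_symm_apply k⟩
      apply (he (e.symm k)).mp
      rw [e.apply_symm_apply]
      exact hk
  exact ⟨(e.subgroupMap H).trans (MulEquiv.subgroupCongr hmap)⟩

/-- transport of a subgroup of index two with a given isomorphism type -/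
theorem transport_index_two {A B S : Type*} [Group A] [Group B] [Group S] (ψ : A ≃* B)
    (N : Subgroup A) (hN : N.index = 2) (hS : Nonempty (↥N ≃* S)) :
    ∃ N' : Subgroup B, N'.index = 2 ∧ Nonempty (↥N' ≃* S) := by
  obtain ⟨s⟩ := hS
  refine ⟨N.map (ψ : A →* B), ?_, ⟨(ψ.subgroupMap N).symm.trans s⟩⟩
  rw [Subgroup.index_map_equiv]
  exact hN

end Cfsg.Agent.Lib.Helper99.PermReal
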