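import Mathlib
import Cfsg.Prelude.Def_Sporadic
import Cfsg.Agent.Lib.Helper99.PermReal

/-!
# The Held group as a permutation group of degree 2058 (glue)

From a simple group of the order of the Held group with a subgroup of index 2058 which has a
subgroup of index two isomorphic to `Sp₄(4)`, we get the permutation realisation.
-/

set_option autoImplicit false

namespace Cfsg.Agent.Lib.Helper99.PermReal

theorem he_perm_real {G : Type*} [Group G] (hG : Cfsg.IsHe G) (H : Subgroup G)
    (hH : H.index = 2058)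
    (hN : ∃ (N : Subgroup ↥H) (K : Type) (_ : Field K) (_ : Fintype K), N.Normal ∧ N.index = 2 ∧
      Fintype.card K = 4 ∧ Nonempty (↥N ≃* Matrix.symplecticGroup (Fin 2) K)) :
    ∃ H' : Subgroup (Equiv.Perm (Fin 2058)), Cfsg.IsHe H' ∧
      MulAction.IsPretransitive H' (Fin 2058) ∧
      ∃ (F : Type) (_ : Field F) (_ : Fintype F), Fintype.card F = 4 ∧
        ∃ N : Subgroup (MulAction.stabilizer H' (0 : Fin 2058)), N.index = 2 ∧
          Nonempty (N ≃* Matrix.symplecticGroup (Fin 2) F) := by
  obtain ⟨hs, hc⟩ := hG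
  haveI := hs
  have hne : H ≠ ⊤ := by
    intro h
    rw [h, Subgroup.index_top] at hH
    norm_num at hH
  obtain ⟨K, e, htr, he⟩ := exists_realization H 2058 hH hne
  obtain ⟨ψ⟩ := stabilizer_equiv H 2058 K e he
  obtain ⟨N, F, iF, iFt, -, hN2, hF, hS⟩ := hN
  obtain ⟨N', h2, hS'⟩ := transport_index_two ψ N hN2 hS
  refine ⟨K, ⟨e.symm.isSimpleGroup, ?_⟩, htr, F, iF, iFt, hF, N', h2, hS'⟩
  rw [← hc]
  exact Nat.card_congr e.symm.toEquiv

end Cfsg.Agent.Lib.Helper99.PermReal
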