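import Mathlib
import Cfsg.Prelude.Def_Classical
import Cfsg.Agent.Lib.Helper99.IsoModel
import Cfsg.Agent.Lib.Helper99.HypExt
import Cfsg.Agent.Lib.Helper99.Klein
import Cfsg.Agent.Lib.Helper99.KleinSurj
import Cfsg.Agent.S0299

/-!
# The image of `SL₄(F)` in the isometry group of the Klein quadric is the commutator subgroup
-/

set_option autoImplicit false
set_option linter.unusedSectionVars false
set_option linter.unnecessarySeqFocus false

namespace Cfsg.Agent.Lib.Helper99.Klein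

open Cfsg Matrix Cfsg.Agent.Lib.Helper99
open scoped commutatorElement

variable {F : Type*} [Field F]

theorem sup_eq_top : (kf (F := F)).range ⊔ Subgroup.closure (KS (F := F)) = ⊤ := by
  refine eq_top_of_hyp (F := F) (V := Matrix (Fin 2) (Fin 2) F) kN₀ kN₀_zero
    ((kf (F := F)).range ⊔ Subgroup.closure (KS (F := F))) ?_ ?_ ?_
  · intro u hu hN
    obtain ⟨g, hg, h⟩ := exists_move_hex u hu hN
    obtain ⟨g', hg'⟩ : ∃ g' : Matrix.SpecialLinearGroup (Fin 4) F, g'.1 = g := ⟨⟨g, hg⟩, rfl⟩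
    refine ⟨kf g', Subgroup.mem_sup_left ⟨g', rfl⟩, ?_⟩
    show act4 g'.1 hex = u
    rw [hg']
    exact h
  · intro v
    obtain ⟨g, hg, h1, h2⟩ := exists_move_hey v
    obtain ⟨g', hg'⟩ : ∃ g' : Matrix.SpecialLinearGroup (Fin 4) F, g'.1 = g := ⟨⟨g, hg⟩, rfl⟩
    refine ⟨kf g', Subgroup.mem_sup_left ⟨g', rfl⟩, ?_, ?_⟩
    · show act4 g'.1 hex = hex
      rw [hg']
      exact h1
    · show act4 g'.1 hey = _
      rw [hg']
      exact h2
  · intro T hx hy
    obtain ⟨τ, τ', hτ, hττ', hT⟩ :=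
      stab_units (F := F) (V := Matrix (Fin 2) (Fin 2) F) kN₀ kN₀_zero T hx hy
    have hdet : ∀ X, (τ X).det = X.det := fun X => by
      have h := hτ X
      simp only [kN₀] at h
      exact neg_inj.mp h
    obtain ⟨A, C, hA, hC, t, ht, h⟩ := Cfsg.Agent.S0299.exists_rep_lin τ τ' hττ' hdet
    obtain ⟨g₁, hg₁⟩ : ∃ g₁ : Matrix.SpecialLinearGroup (Fin 4) F, g₁.1 = bd A Cᵀ :=
      ⟨⟨bd A Cᵀ, by rw [det_bd, hA, det_transpose, hC, one_mul]⟩, rfl⟩
    obtain ⟨g₂, hg₂⟩ : ∃ g₂ : Matrix.SpecialLinearGroup (Fin 4) F,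
        g₂.1 = bd !![t, 0; 0, 1] !![t⁻¹, 0; 0, 1] :=
      ⟨⟨bd !![t, 0; 0, 1] !![t⁻¹, 0; 0, 1], by
        rw [det_bd, det_fin_two_of, det_fin_two_of]
        simp
        field_simp⟩, rfl⟩
    have e1 : hext (Cfsg.Agent.S0299.lr A C) = appHom (hypN kN₀) (kf g₁) := by
      rw [hext_lr A C hA hC]
      show _ = act4 g₁.1
      rw [hg₁]
    have e2 : hext (Cfsg.Agent.S0299.lr !![t, 0; 0, 1] !![t⁻¹, 0; 0, 1]) =
        appHom (hypN kN₀) (kdd t⁻¹ (inv_ne_zero ht) * kf g₂) := by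
      rw [map_mul]
      show _ = kdLin t⁻¹ * act4 g₂.1
      rw [hg₂]
      have hT' : (!![t⁻¹, 0; 0, 1] : Matrix (Fin 2) (Fin 2) F)ᵀ = !![t⁻¹, 0; 0, 1] := by
        refine Matrix.ext fun i j => ?_
        fin_cases i <;> fin_cases j <;> rfl
      refine LinearMap.ext fun w => ?_
      rw [Module.End.mul_apply, act4_bd, hT', kdLin_apply, hext_apply,
        Cfsg.Agent.S0299.lr_apply]
      refine Prod.ext ?_ (Prod.ext ?_ rfl)
      · simp [det_fin_two_of]
        field_simp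
      · simp [det_fin_two_of]
        field_simp
    have hm1 : kf g₁ ∈ (kf (F := F)).range ⊔ Subgroup.closure (KS (F := F)) :=
      Subgroup.mem_sup_left ⟨g₁, rfl⟩
    have hm2 : kdd t⁻¹ (inv_ne_zero ht) * kf g₂ ∈
        (kf (F := F)).range ⊔ Subgroup.closure (KS (F := F)) :=
      Subgroup.mul_mem _
        (Subgroup.mem_sup_right (Subgroup.subset_closure (Or.inl ⟨_, _, rfl⟩)))
        (Subgroup.mem_sup_left ⟨g₂, rfl⟩)
    have hm3 : kalpha ∈ (kf (F := F)).range ⊔ Subgroup.closure (KS (F := F)) :=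
      Subgroup.mem_sup_right (Subgroup.subset_closure (Or.inr rfl))
    rcases h with h | h
    · have hTe : T = kf g₁ * (kdd t⁻¹ (inv_ne_zero ht) * kf g₂) := by
        apply appHom_injective
        rw [hT, h, hext_mul, e1, e2, ← map_mul]
      rw [hTe]
      exact Subgroup.mul_mem _ hm1 hm2
    · have hTe : T = kf g₁ * (kdd t⁻¹ (inv_ne_zero ht) * kf g₂) * kalpha := by
        apply appHom_injective
        rw [hT, h, hext_mul, hext_mul, e1, e2, ← map_mul, map_mul _ _ kalpha]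
        rfl
      rw [hTe]
      exact Subgroup.mul_mem _ (Subgroup.mul_mem _ hm1 hm2) hm3

theorem range_kf (hperf : commutator (Matrix.SpecialLinearGroup (Fin 4) F) = ⊤) :
    (kf (F := F)).range = commutator (isoUnits (F := F) (W := KW F) (hypN kN₀)) := by
  apply le_antisymm
  · rintro _ ⟨g, rfl⟩
    have hg : g ∈ commutator (Matrix.SpecialLinearGroup (Fin 4) F) := by
      rw [hperf]; trivial
    rw [commutator_def] at hg ⊢
    have h1 : kf g ∈ Subgroup.map kf ⁅(⊤ : Subgroup (Matrix.SpecialLinearGroup (Fin 4) F)),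
        (⊤ : Subgroup (Matrix.SpecialLinearGroup (Fin 4) F))⁆ :=
      Subgroup.mem_map_of_mem kf hg
    rw [Subgroup.map_commutator] at h1
    exact Subgroup.commutator_mono le_top le_top h1
  · exact (commutator_le_of_sup_eq_top _ KS KS_conj KS_comm sup_eq_top).2

theorem kf_ne_one : ∃ g : Matrix.SpecialLinearGroup (Fin 4) F, kf g ≠ 1 := by
  obtain ⟨g, hg, _, h2⟩ := exists_move_hey (1 : Matrix (Fin 2) (Fin 2) F)
  obtain ⟨g', hg'⟩ : ∃ g' : Matrix.SpecialLinearGroup (Fin 4) F, g'.1 = g := ⟨⟨g, hg⟩, rfl⟩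
  refine ⟨g', fun h => ?_⟩
  have h3 : act4 g'.1 hey = hey := by
    have h0 := congrArg (appHom (hypN kN₀)) h
    rw [map_one] at h0
    have h4 : act4 g'.1 = 1 := h0
    rw [h4, Module.End.one_apply]
  rw [hg', h2] at h3
  have h5 := congrFun (congrFun (congrArg (fun w : KW F => w.2.2) h3) 0) 0
  simp [hey] at h5

end Cfsg.Agent.Lib.Helper99.Klein
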