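import Mathlib
import Cfsg.Prelude.Def_Classical
import Cfsg.Agent.Lib.Helper99.IsoModel

/-!
# A model of the minus type orthogonal space of dimension 4

`W = F × F × L` with `L = F[ω]` the quadratic algebra with norm `z₁² + a z₁ z₂ + b z₂²`, and the
form `N(x, y, z) = x y + N(z)`; the vectors are the Hermitian 2 x 2 matrices over `L`, the form is
minus the determinant, and `M ∈ M₂(L)` acts by `H ↦ M H Mᴴ`.
-/

set_option autoImplicit false
set_option linter.unusedSectionVars false
set_option linter.unnecessarySeqFocus false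

namespace Cfsg.Agent.Lib.Helper99.OM4

open Cfsg Matrix Cfsg.Agent.Lib.Helper99 QuadraticAlgebra
open scoped commutatorElement

/-- the quadratic algebra in which `z₁² + a z₁ z₂ + b z₂²` is the norm of `z₁ + z₂ ω` -/
abbrev LL (F : Type*) [Field F] (a b : F) : Type _ := QuadraticAlgebra F (-b) a

/-- the model space `F × F × L` -/
abbrev WW (F : Type*) [Field F] (a b : F) : Type _ := F × F × LL F a b

variable {F : Type*} [Field F] {a b : F}

/-- the model form `x y + N(z)` -/
def NN (w : WW F a b) : F := w.1 * w.2.1 + QuadraticAlgebra.norm w.2.2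

/-- coordinates -/
def psi : (((Fin 1 ⊕ Fin 1) ⊕ Fin 2) → F) ≃ₗ[F] WW F a b where
  toFun v := (v (.inl (.inl 0)), v (.inl (.inr 0)), ⟨v (.inr 0), v (.inr 1)⟩)
  invFun w := Sum.elim (Sum.elim (fun _ => w.1) (fun _ => w.2.1)) ![w.2.2.re, w.2.2.im]
  map_add' u v := by
    refine Prod.ext rfl (Prod.ext rfl ?_)
    ext <;> rfl
  map_smul' c v := by
    refine Prod.ext rfl (Prod.ext rfl ?_)
    ext <;> rfl
  left_inv v := by
    funext i
    rcases i with (i | i) | i <;> fin_cases i <;> rfl
  right_inv w := by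
    refine Prod.ext rfl (Prod.ext rfl ?_)
    ext <;> rfl

theorem NN_psi (v : ((Fin 1 ⊕ Fin 1) ⊕ Fin 2) → F) :
    NN (a := a) (b := b) (psi v) = quadFormMinus 1 F a b v := by
  simp [psi, NN, quadFormMinus, QuadraticAlgebra.norm_def]
  ring

theorem star_algebraMap' (x : F) : star (algebraMap F (LL F a b) x) = algebraMap F (LL F a b) x := by
  refine QuadraticAlgebra.ext ?_ ?_ <;> simp

theorem im_mul_star (u : LL F a b) : (u * star u).im = 0 := by
  simp; ring

theorem im_add_star (u : LL F a b) : (u + star u).im = 0 := by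
  simp

theorem algebraMap_re_of_im (u : LL F a b) (h : u.im = 0) : algebraMap F (LL F a b) u.re = u := by
  refine QuadraticAlgebra.ext ?_ ?_ <;> simp [h]

/-- a vector as a Hermitian matrix -/
def Hm : WW F a b →ₗ[F] Matrix (Fin 2) (Fin 2) (LL F a b) where
  toFun w := !![algebraMap F (LL F a b) w.1, w.2.2; star w.2.2, -algebraMap F (LL F a b) w.2.1]
  map_add' u v := by
    refine Matrix.ext fun i j => ?_
    fin_cases i <;> fin_cases j <;> refine QuadraticAlgebra.ext ?_ ?_ <;> simp <;> ring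
  map_smul' c v := by
    refine Matrix.ext fun i j => ?_
    fin_cases i <;> fin_cases j <;> refine QuadraticAlgebra.ext ?_ ?_ <;> simp <;> ring

theorem Hm_apply (w : WW F a b) :
    Hm w = !![algebraMap F (LL F a b) w.1, w.2.2; star w.2.2, -algebraMap F (LL F a b) w.2.1] := rfl

theorem Hm_conjTranspose (w : WW F a b) : (Hm w)ᴴ = Hm w := by
  rw [Hm_apply]
  refine Matrix.ext fun i j => ?_
  fin_cases i <;> fin_cases j <;> simp [star_algebraMap']

/-- a matrix to a vector -/
def Hinv : Matrix (Fin 2) (Fin 2) (LL F a b) →ₗ[F] WW F a b where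
  toFun X := ((X 0 0).re, -(X 1 1).re, X 0 1)
  map_add' X Y := by
    refine Prod.ext ?_ (Prod.ext ?_ ?_) <;> simp <;> ring
  map_smul' c X := by
    refine Prod.ext ?_ (Prod.ext ?_ ?_) <;> simp

theorem Hinv_apply (X : Matrix (Fin 2) (Fin 2) (LL F a b)) :
    Hinv X = ((X 0 0).re, -(X 1 1).re, X 0 1) := rfl

theorem Hinv_Hm (w : WW F a b) : Hinv (Hm w) = w := by
  rw [Hm_apply, Hinv_apply]
  refine Prod.ext ?_ (Prod.ext ?_ ?_) <;> simp

theorem Hm_Hinv_of (Y : Matrix (Fin 2) (Fin 2) (LL F a b)) (hY : Yᴴ = Y) (h0 : (Y 0 0).im = 0)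
    (h1 : (Y 1 1).im = 0) : Hm (Hinv Y) = Y := by
  rw [Hinv_apply, Hm_apply]
  refine Matrix.ext fun i j => ?_
  have h10 : star (Y 0 1) = Y 1 0 := by
    have := congrFun (congrFun hY 1) 0
    rwa [Matrix.conjTranspose_apply] at this
  fin_cases i <;> fin_cases j
  · exact algebraMap_re_of_im _ h0
  · rfl
  · exact h10
  · show -algebraMap F (LL F a b) (-(Y 1 1).re) = Y 1 1
    rw [map_neg, neg_neg]
    exact algebraMap_re_of_im _ h1

theorem diag_im (p q z : LL F a b) (x y : F) :
    (p * algebraMap F (LL F a b) x * star p + p * z * star q + q * star z * star p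
      + q * (-algebraMap F (LL F a b) y) * star q).im = 0 := by
  obtain ⟨p1, p2⟩ := p
  obtain ⟨q1, q2⟩ := q
  obtain ⟨z1, z2⟩ := z
  simp
  ring

theorem conj_diag (M : Matrix (Fin 2) (Fin 2) (LL F a b)) (w : WW F a b) (i : Fin 2) :
    (M * Hm w * Mᴴ) i i = M i 0 * algebraMap F (LL F a b) w.1 * star (M i 0)
      + M i 0 * w.2.2 * star (M i 1) + M i 1 * star w.2.2 * star (M i 0)
      + M i 1 * (-algebraMap F (LL F a b) w.2.1) * star (M i 1) := by
  rw [Hm_apply]
  simp [Matrix.mul_apply, Fin.sum_univ_two]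
  ring

theorem Hm_Hinv_conj (M : Matrix (Fin 2) (Fin 2) (LL F a b)) (w : WW F a b) :
    Hm (Hinv (M * Hm w * Mᴴ)) = M * Hm w * Mᴴ := by
  apply Hm_Hinv_of
  · rw [Matrix.conjTranspose_mul, Matrix.conjTranspose_mul, Matrix.conjTranspose_conjTranspose,
      Hm_conjTranspose, Matrix.mul_assoc]
  · rw [conj_diag, diag_im]
  · rw [conj_diag, diag_im]

/-- `X ↦ M X Mᴴ` -/
def conjL (M : Matrix (Fin 2) (Fin 2) (LL F a b)) :
    Module.End F (Matrix (Fin 2) (Fin 2) (LL F a b)) where
  toFun X := M * X * Mᴴ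
  map_add' X Y := by rw [Matrix.mul_add, Matrix.add_mul]
  map_smul' c X := by simp

theorem conjL_apply (M X : Matrix (Fin 2) (Fin 2) (LL F a b)) : conjL M X = M * X * Mᴴ := rfl


/-- the action of `M₂(L)` on the model space -/
def act : Matrix (Fin 2) (Fin 2) (LL F a b) →* Module.End F (WW F a b) where
  toFun M := Hinv ∘ₗ conjL M ∘ₗ Hm
  map_one' := by
    refine LinearMap.ext fun w => ?_
    simp [conjL_apply, Hinv_Hm]
  map_mul' M M' := by
    refine LinearMap.ext fun w => ?_
    show Hinv ((M * M') * Hm w * (M * M')ᴴ) = Hinv (M * Hm (Hinv (M' * Hm w * M'ᴴ)) * Mᴴ)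
    rw [Hm_Hinv_conj, Matrix.conjTranspose_mul]
    simp only [Matrix.mul_assoc]

theorem act_apply (M : Matrix (Fin 2) (Fin 2) (LL F a b)) (w : WW F a b) :
    act M w = Hinv (M * Hm w * Mᴴ) := rfl

theorem Hm_act (M : Matrix (Fin 2) (Fin 2) (LL F a b)) (w : WW F a b) :
    Hm (act M w) = M * Hm w * Mᴴ := Hm_Hinv_conj M w

theorem Hm_injective : Function.Injective (Hm (F := F) (a := a) (b := b)) := by
  intro u v h
  rw [← Hinv_Hm u, ← Hinv_Hm v, h]

theorem det_Hm (w : WW F a b) : (Hm w).det = -algebraMap F (LL F a b) (NN w) := by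
  rw [Hm_apply, det_fin_two_of, NN, map_add, map_mul, algebraMap_norm_eq_mul_star]
  ring

theorem NN_act (M : Matrix (Fin 2) (Fin 2) (LL F a b)) (w : WW F a b) :
    NN (act M w) = QuadraticAlgebra.norm M.det * NN w := by
  apply QuadraticAlgebra.algebraMap_injective (a := -b) (b := a)
  have h := det_Hm (act M w)
  rw [Hm_act, det_mul, det_mul, det_conjTranspose, det_Hm] at h
  rw [map_mul, algebraMap_norm_eq_mul_star]
  linear_combination h

/-- the explicit action -/
theorem act_of (α β γ δ : LL F a b) (w : WW F a b) :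
    act !![α, β; γ, δ] w =
      ((α * algebraMap F (LL F a b) w.1 * star α + α * w.2.2 * star β + β * star w.2.2 * star α
          + β * (-algebraMap F (LL F a b) w.2.1) * star β).re,
        -(γ * algebraMap F (LL F a b) w.1 * star γ + γ * w.2.2 * star δ + δ * star w.2.2 * star γ
          + δ * (-algebraMap F (LL F a b) w.2.1) * star δ).re,
        α * algebraMap F (LL F a b) w.1 * star γ + α * w.2.2 * star δ + β * star w.2.2 * star γ
          + β * (-algebraMap F (LL F a b) w.2.1) * star δ) := by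
  rw [act_apply, Hinv_apply, conj_diag, conj_diag]
  refine Prod.ext rfl (Prod.ext rfl ?_)
  rw [Hm_apply]
  simp [Matrix.mul_apply, Fin.sum_univ_two]
  ring

/-! ### the complement: diagonal maps and the conjugation -/

/-- `(x, y, z) ↦ (t x, t⁻¹ y, z)` -/
def ddLin (t : F) : Module.End F (WW F a b) where
  toFun w := (t * w.1, t⁻¹ * w.2.1, w.2.2)
  map_add' u v := by
    refine Prod.ext ?_ (Prod.ext ?_ rfl) <;> simp <;> ring
  map_smul' c v := by
    refine Prod.ext ?_ (Prod.ext ?_ rfl) <;> simp <;> ring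

theorem ddLin_apply (t : F) (w : WW F a b) : ddLin t w = (t * w.1, t⁻¹ * w.2.1, w.2.2) := rfl

/-- `(x, y, z) ↦ (x, y, l z)` -/
def rhoLin (l : LL F a b) : Module.End F (WW F a b) where
  toFun w := (w.1, w.2.1, l * w.2.2)
  map_add' u v := by
    refine Prod.ext rfl (Prod.ext rfl ?_)
    simp [mul_add]
  map_smul' c v := by
    refine Prod.ext rfl (Prod.ext rfl ?_)
    simp

theorem rhoLin_apply (l : LL F a b) (w : WW F a b) : rhoLin l w = (w.1, w.2.1, l * w.2.2) := rfl

/-- `(x, y, z) ↦ (x, y, star z)` -/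
def sigLin : Module.End F (WW F a b) where
  toFun w := (w.1, w.2.1, star w.2.2)
  map_add' u v := by
    refine Prod.ext rfl (Prod.ext rfl ?_)
    simp
  map_smul' c v := by
    refine Prod.ext rfl (Prod.ext rfl ?_)
    refine QuadraticAlgebra.ext ?_ ?_ <;> simp <;> ring

theorem sigLin_apply (w : WW F a b) : sigLin w = (w.1, w.2.1, star w.2.2) := rfl

theorem ddLin_mul (s t : F) : ddLin (a := a) (b := b) s * ddLin t = ddLin (s * t) := by
  refine LinearMap.ext fun w => ?_
  rw [Module.End.mul_apply, ddLin_apply, ddLin_apply, ddLin_apply]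
  refine Prod.ext ?_ (Prod.ext ?_ rfl) <;> simp <;> ring

theorem ddLin_one : ddLin (a := a) (b := b) 1 = 1 := by
  refine LinearMap.ext fun w => ?_
  rw [ddLin_apply]
  simp

theorem rhoLin_mul (l m : LL F a b) : rhoLin l * rhoLin m = rhoLin (l * m) := by
  refine LinearMap.ext fun w => ?_
  rw [Module.End.mul_apply, rhoLin_apply, rhoLin_apply, rhoLin_apply]
  simp [mul_assoc]

theorem rhoLin_one : rhoLin (1 : LL F a b) = 1 := by
  refine LinearMap.ext fun w => ?_
  rw [rhoLin_apply]
  simp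

theorem sigLin_mul_self : sigLin (a := a) (b := b) * sigLin = 1 := by
  refine LinearMap.ext fun w => ?_
  rw [Module.End.mul_apply, sigLin_apply, sigLin_apply]
  simp

theorem NN_ddLin (t : F) (ht : t ≠ 0) (w : WW F a b) : NN (ddLin t w) = NN w := by
  rw [ddLin_apply, NN, NN]
  simp
  field_simp

theorem NN_rhoLin (l : LL F a b) (hl : QuadraticAlgebra.norm l = 1) (w : WW F a b) :
    NN (rhoLin l w) = NN w := by
  rw [rhoLin_apply, NN, NN]
  simp [hl]

theorem NN_sigLin (w : WW F a b) : NN (sigLin w) = NN w := by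
  rw [sigLin_apply, NN, NN]
  simp

theorem mul_star_of_norm (l : LL F a b) (hl : QuadraticAlgebra.norm l = 1) : l * star l = 1 := by
  rw [← algebraMap_norm_eq_mul_star, hl, map_one]

theorem ddLin_eq (t : F) (ht : t ≠ 0) :
    ddLin (a := a) (b := b) t = t⁻¹ • act !![algebraMap F (LL F a b) t, 0; 0, 1] := by
  refine LinearMap.ext fun w => ?_
  rw [LinearMap.smul_apply, act_of, ddLin_apply]
  refine Prod.ext ?_ (Prod.ext ?_ ?_)
  · simp [star_algebraMap']
    field_simp
  · simp [star_algebraMap']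
  · refine QuadraticAlgebra.ext ?_ ?_ <;> simp <;> field_simp

theorem rhoLin_eq (l : LL F a b) (hl : QuadraticAlgebra.norm l = 1) :
    rhoLin l = act !![l, 0; 0, 1] := by
  refine LinearMap.ext fun w => ?_
  rw [act_of, rhoLin_apply]
  have h := mul_star_of_norm l hl
  refine Prod.ext ?_ (Prod.ext ?_ ?_)
  · show w.1 = _
    have : l * algebraMap F (LL F a b) w.1 * star l = algebraMap F (LL F a b) w.1 := by
      linear_combination algebraMap F (LL F a b) w.1 * h
    simp [this]
  · simp
  · simp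


/-! ### relations -/

/-- conjugation of a matrix by `diag(t, 1)`, where `s = t⁻¹` -/
def cjm (t s : LL F a b) (M : Matrix (Fin 2) (Fin 2) (LL F a b)) :
    Matrix (Fin 2) (Fin 2) (LL F a b) :=
  !![M 0 0, t * M 0 1; s * M 1 0, M 1 1]

theorem det_cjm (t s : LL F a b) (hts : t * s = 1) (M : Matrix (Fin 2) (Fin 2) (LL F a b)) :
    (cjm t s M).det = M.det := by
  rw [cjm, det_fin_two_of, det_fin_two]
  linear_combination (-(M 0 1 * M 1 0)) * hts

theorem diag_mul (t s : LL F a b) (hts : t * s = 1) (M : Matrix (Fin 2) (Fin 2) (LL F a b)) :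
    !![t, 0; 0, 1] * M = cjm t s M * !![t, 0; 0, 1] := by
  refine Matrix.ext fun i j => ?_
  fin_cases i <;> fin_cases j <;> simp [cjm, Matrix.mul_apply, Fin.sum_univ_two]
  · ring
  · linear_combination (-(M 1 0)) * hts

theorem ddLin_mul_act (t : F) (ht : t ≠ 0) (M : Matrix (Fin 2) (Fin 2) (LL F a b)) :
    ddLin t * act M = act (cjm (algebraMap F (LL F a b) t) (algebraMap F (LL F a b) t⁻¹) M) *
      ddLin t := by
  have h : algebraMap F (LL F a b) t * algebraMap F (LL F a b) t⁻¹ = 1 := by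
    rw [← map_mul, mul_inv_cancel₀ ht, map_one]
  rw [ddLin_eq t ht, smul_mul_assoc, mul_smul_comm, ← map_mul, ← map_mul, diag_mul _ _ h]

theorem rhoLin_mul_act (l : LL F a b) (hl : QuadraticAlgebra.norm l = 1)
    (M : Matrix (Fin 2) (Fin 2) (LL F a b)) :
    rhoLin l * act M = act (cjm l (star l) M) * rhoLin l := by
  rw [rhoLin_eq l hl, ← map_mul, ← map_mul, diag_mul _ _ (mul_star_of_norm l hl)]

theorem Hm_sigLin (w : WW F a b) : Hm (sigLin w) = (Hm w).map star := by
  rw [sigLin_apply, Hm_apply, Hm_apply]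
  refine Matrix.ext fun i j => ?_
  fin_cases i <;> fin_cases j <;> simp [star_algebraMap']

theorem map_star_conj (M H : Matrix (Fin 2) (Fin 2) (LL F a b)) :
    (M * H * Mᴴ).map star = M.map star * H.map star * (M.map star)ᴴ := by
  refine Matrix.ext fun i j => ?_
  fin_cases i <;> fin_cases j <;> simp [Matrix.mul_apply, Fin.sum_univ_two]

theorem sigLin_mul_act (M : Matrix (Fin 2) (Fin 2) (LL F a b)) :
    sigLin * act M = act (M.map star) * sigLin := by
  refine LinearMap.ext fun w => ?_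
  apply Hm_injective
  rw [Module.End.mul_apply, Module.End.mul_apply, Hm_sigLin, Hm_act, Hm_act, Hm_sigLin,
    map_star_conj]

theorem det_map_star (M : Matrix (Fin 2) (Fin 2) (LL F a b)) : (M.map star).det = star M.det := by
  rw [det_fin_two, det_fin_two]
  simp

theorem ddLin_comm (s t : F) : ddLin (a := a) (b := b) s * ddLin t = ddLin t * ddLin s := by
  rw [ddLin_mul, ddLin_mul, mul_comm]

theorem ddLin_rhoLin_comm (t : F) (l : LL F a b) : ddLin t * rhoLin l = rhoLin l * ddLin t := by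
  refine LinearMap.ext fun w => ?_
  rfl

theorem ddLin_sigLin_comm (t : F) : ddLin (a := a) (b := b) t * sigLin = sigLin * ddLin t := by
  refine LinearMap.ext fun w => ?_
  rfl

theorem rhoLin_comm (l m : LL F a b) : rhoLin l * rhoLin m = rhoLin m * rhoLin l := by
  rw [rhoLin_mul, rhoLin_mul, mul_comm]

theorem rhoLin_mul_sigLin (l : LL F a b) (hl : QuadraticAlgebra.norm l = 1) :
    rhoLin l * sigLin = act !![l, 0; 0, star l] * sigLin * rhoLin l := by
  have h := mul_star_of_norm l hl
  refine LinearMap.ext fun w => ?_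
  rw [Module.End.mul_apply, Module.End.mul_apply, Module.End.mul_apply, act_of, rhoLin_apply,
    sigLin_apply, rhoLin_apply, sigLin_apply]
  refine Prod.ext ?_ (Prod.ext ?_ ?_)
  · show w.1 = _
    have : l * algebraMap F (LL F a b) w.1 * star l = algebraMap F (LL F a b) w.1 := by
      linear_combination algebraMap F (LL F a b) w.1 * h
    simp [this]
  · show w.2.1 = _
    have : star l * algebraMap F (LL F a b) w.2.1 * l = algebraMap F (LL F a b) w.2.1 := by
      linear_combination algebraMap F (LL F a b) w.2.1 * h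
    simp [this]
  · show l * star w.2.2 = _
    simp
    linear_combination (-(l * star w.2.2)) * h

/-! ### the group level -/

/-- the action of `SL₂(L)` -/
def slHom : Matrix.SpecialLinearGroup (Fin 2) (LL F a b) →* Module.End F (WW F a b) where
  toFun g := act g.1
  map_one' := by simp
  map_mul' g h := by simp

/-- the action of `SL₂(L)` as a hom to the isometry group of the model -/
def ff : Matrix.SpecialLinearGroup (Fin 2) (LL F a b) →*
    isoUnits (F := F) (W := WW F a b) NN :=
  liftU NN slHom (fun g w => by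
    show NN (act g.1 w) = NN w
    rw [NN_act, g.2, map_one, one_mul])

theorem appHom_ff (g : Matrix.SpecialLinearGroup (Fin 2) (LL F a b)) :
    appHom NN (ff g) = act g.1 := rfl

/-- the diagonal isometry `(x, y, z) ↦ (t x, t⁻¹ y, z)` -/
def dd (t : F) (ht : t ≠ 0) : isoUnits (F := F) (W := WW F a b) NN :=
  mkU NN (ddLin t) (ddLin t⁻¹) (by rw [ddLin_mul, mul_inv_cancel₀ ht, ddLin_one])
    (by rw [ddLin_mul, inv_mul_cancel₀ ht, ddLin_one]) (NN_ddLin t ht)

theorem appHom_dd (t : F) (ht : t ≠ 0) : appHom NN (dd (a := a) (b := b) t ht) = ddLin t := rfl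

/-- the isometry `(x, y, z) ↦ (x, y, l z)` for `l` of norm 1 -/
def rho (l : LL F a b) (hl : QuadraticAlgebra.norm l = 1) : isoUnits (F := F) (W := WW F a b) NN :=
  mkU NN (rhoLin l) (rhoLin (star l)) (by rw [rhoLin_mul, mul_star_of_norm l hl, rhoLin_one])
    (by rw [rhoLin_mul, mul_comm, mul_star_of_norm l hl, rhoLin_one]) (NN_rhoLin l hl)

theorem appHom_rho (l : LL F a b) (hl : QuadraticAlgebra.norm l = 1) :
    appHom NN (rho l hl) = rhoLin l := rfl

/-- the isometry `(x, y, z) ↦ (x, y, star z)` -/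
def sig : isoUnits (F := F) (W := WW F a b) NN :=
  mkU NN sigLin sigLin sigLin_mul_self sigLin_mul_self NN_sigLin

theorem appHom_sig : appHom NN (sig (a := a) (b := b)) = sigLin := rfl

/-- the generators of the complement -/
def SS : Set (isoUnits (F := F) (W := WW F a b) NN) :=
  {k | (∃ (t : F) (ht : t ≠ 0), k = dd t ht) ∨
    (∃ (l : LL F a b) (hl : QuadraticAlgebra.norm l = 1), k = rho l hl) ∨ k = sig}

theorem dd_mul_ff (t : F) (ht : t ≠ 0) (g : Matrix.SpecialLinearGroup (Fin 2) (LL F a b)) :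
    ∃ g', dd t ht * ff g = ff g' * dd t ht := by
  have h : algebraMap F (LL F a b) t * algebraMap F (LL F a b) t⁻¹ = 1 := by
    rw [← map_mul, mul_inv_cancel₀ ht, map_one]
  refine ⟨⟨cjm (algebraMap F (LL F a b) t) (algebraMap F (LL F a b) t⁻¹) g.1, ?_⟩, ?_⟩
  · rw [det_cjm _ _ h, g.2]
  · apply appHom_injective
    rw [map_mul, map_mul]
    exact ddLin_mul_act t ht g.1

theorem rho_mul_ff (l : LL F a b) (hl : QuadraticAlgebra.norm l = 1)
    (g : Matrix.SpecialLinearGroup (Fin 2) (LL F a b)) :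
    ∃ g', rho l hl * ff g = ff g' * rho l hl := by
  refine ⟨⟨cjm l (star l) g.1, ?_⟩, ?_⟩
  · rw [det_cjm _ _ (mul_star_of_norm l hl), g.2]
  · apply appHom_injective
    rw [map_mul, map_mul]
    exact rhoLin_mul_act l hl g.1

theorem sig_mul_ff (g : Matrix.SpecialLinearGroup (Fin 2) (LL F a b)) :
    ∃ g', sig * ff g = ff g' * sig := by
  refine ⟨⟨g.1.map star, ?_⟩, ?_⟩
  · rw [det_map_star, g.2, star_one]
  · apply appHom_injective
    rw [map_mul, map_mul]
    exact sigLin_mul_act g.1

theorem SS_inv (k : isoUnits (F := F) (W := WW F a b) NN) (hk : k ∈ SS) : k⁻¹ ∈ SS := by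
  rcases hk with ⟨t, ht, rfl⟩ | ⟨l, hl, rfl⟩ | rfl
  · refine Or.inl ⟨t⁻¹, inv_ne_zero ht, ?_⟩
    rw [inv_eq_iff_mul_eq_one]
    apply appHom_injective
    rw [map_mul, appHom_dd, appHom_dd, ddLin_mul, mul_inv_cancel₀ ht, ddLin_one, map_one]
  · refine Or.inr (Or.inl ⟨star l, by rw [QuadraticAlgebra.norm_star]; exact hl, ?_⟩)
    rw [inv_eq_iff_mul_eq_one]
    apply appHom_injective
    rw [map_mul, appHom_rho, appHom_rho, rhoLin_mul, mul_star_of_norm l hl, rhoLin_one, map_one]
  · refine Or.inr (Or.inr ?_)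
    rw [inv_eq_iff_mul_eq_one]
    apply appHom_injective
    rw [map_mul, appHom_sig, sigLin_mul_self, map_one]

theorem SS_mul_ff (k : isoUnits (F := F) (W := WW F a b) NN) (hk : k ∈ SS)
    (g : Matrix.SpecialLinearGroup (Fin 2) (LL F a b)) : ∃ g', k * ff g = ff g' * k := by
  rcases hk with ⟨t, ht, rfl⟩ | ⟨l, hl, rfl⟩ | rfl
  · exact dd_mul_ff t ht g
  · exact rho_mul_ff l hl g
  · exact sig_mul_ff g

theorem SS_conj (k : isoUnits (F := F) (W := WW F a b) NN) (hk : k ∈ SS)
    (n : isoUnits (F := F) (W := WW F a b) NN) (hn : n ∈ (ff (a := a) (b := b)).range) :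
    k * n * k⁻¹ ∈ (ff (a := a) (b := b)).range ∧ k⁻¹ * n * k ∈ (ff (a := a) (b := b)).range := by
  obtain ⟨g, rfl⟩ := hn
  constructor
  · obtain ⟨g', hg'⟩ := SS_mul_ff k hk g
    exact ⟨g', by rw [hg']; group⟩
  · obtain ⟨g', hg'⟩ := SS_mul_ff k⁻¹ (SS_inv k hk) g
    refine ⟨g', ?_⟩
    have : k⁻¹ * ff g * k = k⁻¹ * ff g * k⁻¹⁻¹ := by rw [inv_inv]
    rw [this, hg']; group

theorem SS_comm (x : isoUnits (F := F) (W := WW F a b) NN) (hx : x ∈ SS)
    (y : isoUnits (F := F) (W := WW F a b) NN) (hy : y ∈ SS) :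
    ⁅x, y⁆ ∈ (ff (a := a) (b := b)).range := by
  have hc : ∀ x y : isoUnits (F := F) (W := WW F a b) NN, x * y = y * x →
      ⁅x, y⁆ ∈ (ff (a := a) (b := b)).range := by
    intro x y h
    have : Commute x y := h
    rw [commutatorElement_eq_one_iff_commute.mpr this]
    exact Subgroup.one_mem _
  have key : ∀ (l : LL F a b) (hl : QuadraticAlgebra.norm l = 1),
      ⁅rho l hl, sig⁆ ∈ (ff (a := a) (b := b)).range := by
    intro l hl
    have hdet : (!![l, 0; 0, star l] : Matrix (Fin 2) (Fin 2) (LL F a b)).det = 1 := by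
      rw [det_fin_two_of, mul_zero, sub_zero, mul_star_of_norm l hl]
    have : rho l hl * sig = ff ⟨!![l, 0; 0, star l], hdet⟩ * sig * rho l hl := by
      apply appHom_injective
      rw [map_mul, map_mul, map_mul]
      exact rhoLin_mul_sigLin l hl
    rw [comm_of_mul_eq this]
    exact ⟨_, rfl⟩
  rcases hx with ⟨t, ht, rfl⟩ | ⟨l, hl, rfl⟩ | rfl <;>
    rcases hy with ⟨t', ht', rfl⟩ | ⟨l', hl', rfl⟩ | rfl
  · apply hc
    apply appHom_injective
    rw [map_mul, map_mul, appHom_dd, appHom_dd, ddLin_comm]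
  · apply hc
    apply appHom_injective
    rw [map_mul, map_mul, appHom_dd, appHom_rho, ddLin_rhoLin_comm]
  · apply hc
    apply appHom_injective
    rw [map_mul, map_mul, appHom_dd, appHom_sig, ddLin_sigLin_comm]
  · apply hc
    apply appHom_injective
    rw [map_mul, map_mul, appHom_dd, appHom_rho, ddLin_rhoLin_comm]
  · apply hc
    apply appHom_injective
    rw [map_mul, map_mul, appHom_rho, appHom_rho, rhoLin_comm]
  · exact key l hl
  · apply hc
    apply appHom_injective
    rw [map_mul, map_mul, appHom_dd, appHom_sig, ddLin_sigLin_comm]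
  · have h := Subgroup.inv_mem _ (key l' hl')
    rwa [commutatorElement_inv] at h
  · apply hc
    rfl

end Cfsg.Agent.Lib.Helper99.OM4
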