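import Mathlib
import Cfsg.Agent.Lib.Helper99.IsoModel
import Cfsg.Agent.Lib.Helper99.GenComm
import Cfsg.Agent.Lib.Helper99.OM4Model

/-!
# The isometry group of the 4-dimensional minus type model is generated by `SL₂(L)` and a complement
-/

set_option autoImplicit false
set_option linter.unusedSectionVars false
set_option linter.unnecessarySeqFocus false

namespace Cfsg.Agent.Lib.Helper99.OM4

open Cfsg Matrix Cfsg.Agent.Lib.Helper99 QuadraticAlgebra
open scoped commutatorElement

variable {F : Type*} [Field F] {a b : F}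

theorem re_mul_star (u : LL F a b) : (u * star u).re = QuadraticAlgebra.norm u := by
  rw [← algebraMap_norm_eq_mul_star]
  rfl

/-- the first hyperbolic vector -/
def ex : WW F a b := (1, 0, 0)

/-- the second hyperbolic vector -/
def ey : WW F a b := (0, 1, 0)

/-- the anisotropic part -/
def ez (z : LL F a b) : WW F a b := (0, 0, z)

theorem NN_ez (z : LL F a b) : NN (ez z) = QuadraticAlgebra.norm z := by
  simp [NN, ez]

variable [Fact (∀ r : F, r ^ 2 ≠ -b + a * r)]

theorem exists_move_ex (u : WW F a b) (hu : u ≠ 0) (hN : NN u = 0) :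
    ∃ M : Matrix (Fin 2) (Fin 2) (LL F a b), M.det = 1 ∧
      ∃ t : F, t ≠ 0 ∧ act M (ddLin t ex) = u := by
  obtain ⟨x, y, z⟩ := u
  have hN' : x * y + QuadraticAlgebra.norm z = 0 := hN
  by_cases hx : x = 0
  · subst hx
    have hz : z = 0 := by
      rw [zero_mul, zero_add] at hN'
      exact norm_eq_zero_iff_eq_zero.mp hN'
    subst hz
    have hy : y ≠ 0 := by
      rintro rfl
      exact hu rfl
    refine ⟨!![0, 1; -1, 0], ?_, -y, neg_ne_zero.mpr hy, ?_⟩
    · rw [det_fin_two_of]; ring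
    · rw [ddLin_apply, act_of]
      refine Prod.ext ?_ (Prod.ext ?_ ?_)
      · simp [ex]
      · simp [ex]
      · simp [ex]
  · refine ⟨!![1, 0; algebraMap F (LL F a b) x⁻¹ * star z, 1], ?_, x, hx, ?_⟩
    · rw [det_fin_two_of]; ring
    · rw [ddLin_apply, act_of]
      refine Prod.ext ?_ (Prod.ext ?_ ?_)
      · simp [ex]
      · simp [ex]
        rw [QuadraticAlgebra.norm_def] at hN'
        field_simp
        linear_combination -hN'
      · simp [ex]
        rw [star_algebraMap', mul_inv_cancel_left₀]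
        exact (map_ne_zero _).mpr hx


omit [Fact (∀ r : F, r ^ 2 ≠ -b + a * r)] in
theorem exists_move_ey (z : LL F a b) :
    ∃ M : Matrix (Fin 2) (Fin 2) (LL F a b), M.det = 1 ∧ act M ex = ex ∧
      act M ey = (-QuadraticAlgebra.norm z, 1, z) := by
  refine ⟨!![1, -z; 0, 1], ?_, ?_, ?_⟩
  · rw [det_fin_two_of]; ring
  · rw [act_of]
    refine Prod.ext ?_ (Prod.ext ?_ ?_) <;> simp [ex]
  · rw [act_of]
    refine Prod.ext ?_ (Prod.ext ?_ ?_)
    · simp [ey]
      rw [QuadraticAlgebra.norm_def]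
      ring
    · simp [ey]
    · simp [ey]

omit [Fact (∀ r : F, r ^ 2 ≠ -b + a * r)] in
theorem fix_ex_ey (T : Module.End F (WW F a b)) (hT : ∀ w, NN (T w) = NN w) (hx : T ex = ex) :
    T ey = (-QuadraticAlgebra.norm (T ey).2.2, 1, (T ey).2.2) := by
  have h1 := hT ey
  have h2 := hT (ex + ey)
  rw [map_add, hx] at h2
  generalize T ey = v at h1 h2 ⊢
  obtain ⟨p, q, r⟩ := v
  simp [NN, ex, ey] at h1 h2
  have hq : q = 1 := by linear_combination h2 - h1
  subst hq
  have hp : p = -QuadraticAlgebra.norm r := by linear_combination h1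
  subst hp
  rfl

theorem stab_ex_ey (T : Module.End F (WW F a b)) (hT : ∀ w, NN (T w) = NN w) (hx : T ex = ex)
    (hy : T ey = ey) :
    ∃ l : LL F a b, QuadraticAlgebra.norm l = 1 ∧ (T = rhoLin l ∨ T = rhoLin l * sigLin) := by
  -- `T` maps the anisotropic part to itself
  have h1 : ∀ z : LL F a b, T (ez z) = ez (T (ez z)).2.2 := by
    intro z
    have e0 := hT (ez z)
    have e1 := hT (ez z + ex)
    have e2 := hT (ez z + ey)
    rw [map_add, hx] at e1
    rw [map_add, hy] at e2
    generalize T (ez z) = v at e0 e1 e2 ⊢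
    obtain ⟨p, q, r⟩ := v
    simp [NN, ex, ey, ez] at e0 e1 e2
    have hq : q = 0 := by linear_combination e1 - e0
    have hp : p = 0 := by linear_combination e2 - e0
    subst hq hp
    rfl
  set τ : LL F a b → LL F a b := fun z => (T (ez z)).2.2 with hτ
  have hτadd : ∀ z z', τ (z + z') = τ z + τ z' := by
    intro z z'
    have : ez (z + z') = ez z + ez z' := by simp [ez]
    simp only [hτ, this, map_add]
    rfl
  have hτsmul : ∀ (c : F) z, τ (c • z) = c • τ z := by
    intro c z
    have : ez (c • z) = c • ez z := by simp [ez]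
    simp only [hτ, this, map_smul]
    rfl
  have hτnorm : ∀ z, QuadraticAlgebra.norm (τ z) = QuadraticAlgebra.norm z := by
    intro z
    have e0 := hT (ez z)
    rw [h1 z, NN_ez, NN_ez] at e0
    exact e0
  have hTw : ∀ w : WW F a b, T w = (w.1, w.2.1, τ w.2.2) := by
    intro w
    have hw : w = w.1 • ex + w.2.1 • ey + ez w.2.2 := by
      obtain ⟨x, y, z⟩ := w
      simp [ex, ey, ez]
    conv_lhs => rw [hw]
    rw [map_add, map_add, map_smul, map_smul, hx, hy, h1]
    simp [ex, ey, ez]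
    rfl
  set l := τ 1 with hl
  have hl1 : QuadraticAlgebra.norm l = 1 := by rw [hl, hτnorm, map_one]
  have hll : star l * l = 1 := by rw [mul_comm]; exact mul_star_of_norm l hl1
  set μ := star l * τ ω with hμ
  have hμn : QuadraticAlgebra.norm μ = QuadraticAlgebra.norm (ω : LL F a b) := by
    rw [hμ, map_mul, QuadraticAlgebra.norm_star, hl1, one_mul, hτnorm]
  have hμ1 : QuadraticAlgebra.norm (1 + μ) = QuadraticAlgebra.norm (1 + (ω : LL F a b)) := by
    have : 1 + μ = star l * τ (1 + ω) := by rw [hτadd, mul_add, ← hl, hll]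
    rw [this, map_mul, QuadraticAlgebra.norm_star, hl1, one_mul, hτnorm]
  have htr : ∀ z : LL F a b, QuadraticAlgebra.norm (1 + z) =
      1 + QuadraticAlgebra.trace z + QuadraticAlgebra.norm z := by
    intro z
    simp [QuadraticAlgebra.norm_def, QuadraticAlgebra.trace_def]
    ring
  have hμt : QuadraticAlgebra.trace μ = QuadraticAlgebra.trace (ω : LL F a b) := by
    rw [htr, htr, hμn] at hμ1
    linear_combination hμ1
  have hmu : μ = ω ∨ μ = star ω := by
    have e1 := sq_sub_trace_smul_add_norm_eq_zero μ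
    have e2 := sq_sub_trace_smul_add_norm_eq_zero (ω : LL F a b)
    rw [hμt, hμn] at e1
    have : (μ - ω) * (μ - star ω) = 0 := by
      rw [star_eq (ω : LL F a b)]
      rw [Algebra.smul_def] at e1 e2
      linear_combination e1 - e2
    rcases mul_eq_zero.mp this with h | h
    · left; exact sub_eq_zero.mp h
    · right; exact sub_eq_zero.mp h
  have hτz : ∀ z : LL F a b, τ z = l * (z.re • 1 + z.im • μ) := by
    intro z
    have hz : z = z.re • (1 : LL F a b) + z.im • ω := by
      refine QuadraticAlgebra.ext ?_ ?_ <;> simp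
    conv_lhs => rw [hz]
    rw [hτadd, hτsmul, hτsmul, ← hl, hμ, mul_add, mul_smul_comm, mul_smul_comm, mul_one,
      ← mul_assoc, mul_star_of_norm l hl1, one_mul]
  refine ⟨l, hl1, ?_⟩
  rcases hmu with h | h
  · left
    refine LinearMap.ext fun w => ?_
    rw [hTw, rhoLin_apply, hτz, h]
    congr 3
    refine QuadraticAlgebra.ext ?_ ?_ <;> simp
  · right
    refine LinearMap.ext fun w => ?_
    rw [hTw, Module.End.mul_apply, rhoLin_apply, sigLin_apply, hτz, h]
    congr 3
    refine QuadraticAlgebra.ext ?_ ?_ <;> simp <;> ring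


/-! ### the group level -/

theorem exists_rep (u : isoUnits (F := F) (W := WW F a b) NN) :
    ∃ n ∈ (ff (a := a) (b := b)).range, ∃ k ∈ Subgroup.closure (SS (a := a) (b := b)),
      u = n * k := by
  have hv0 : appHom NN u ex ≠ 0 := by
    intro h0
    have h := appHom_inv_apply NN u ex
    rw [h0, map_zero] at h
    have h' : (0 : F) = 1 := congrArg Prod.fst h
    exact zero_ne_one h'
  have hvN : NN (appHom NN u ex) = 0 := by
    have h := N_appHom NN u ex
    rw [h]
    simp [NN, ex]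
  obtain ⟨M₁, hM₁, t, ht, h1⟩ := exists_move_ex _ hv0 hvN
  obtain ⟨g₁, hg₁⟩ : ∃ g₁ : Matrix.SpecialLinearGroup (Fin 2) (LL F a b), g₁.1 = M₁ :=
    ⟨⟨M₁, hM₁⟩, rfl⟩
  obtain ⟨n₁, hn₁⟩ : ∃ n₁ : isoUnits (F := F) (W := WW F a b) NN, n₁ = ff g₁ * dd t ht :=
    ⟨_, rfl⟩
  have hn₁x : appHom NN n₁ ex = appHom NN u ex := by
    rw [hn₁, map_mul]
    show act g₁.1 (ddLin t ex) = _
    rw [hg₁]
    exact h1
  obtain ⟨u₁, hu₁⟩ : ∃ u₁, u₁ = n₁⁻¹ * u := ⟨_, rfl⟩
  have hu₁x : appHom NN u₁ ex = ex := by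
    rw [hu₁, map_mul, Module.End.mul_apply, ← hn₁x, appHom_inv_apply]
  have hu₁y := fix_ex_ey (appHom NN u₁) (N_appHom NN u₁) hu₁x
  obtain ⟨M₂, hM₂, h2x, h2y⟩ := exists_move_ey (appHom NN u₁ ey).2.2
  obtain ⟨g₂, hg₂⟩ : ∃ g₂ : Matrix.SpecialLinearGroup (Fin 2) (LL F a b), g₂.1 = M₂ :=
    ⟨⟨M₂, hM₂⟩, rfl⟩
  have hn₂x : appHom NN (ff g₂) ex = ex := by
    show act g₂.1 ex = _
    rw [hg₂]
    exact h2x
  have hn₂y : appHom NN (ff g₂) ey = appHom NN u₁ ey := by
    rw [hu₁y]
    show act g₂.1 ey = _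
    rw [hg₂]
    exact h2y
  obtain ⟨u₂, hu₂⟩ : ∃ u₂, u₂ = (ff g₂)⁻¹ * u₁ := ⟨_, rfl⟩
  have hu₂x : appHom NN u₂ ex = ex := by
    rw [hu₂, map_mul, Module.End.mul_apply, hu₁x]
    nth_rewrite 1 [← hn₂x]
    rw [appHom_inv_apply]
  have hu₂y : appHom NN u₂ ey = ey := by
    rw [hu₂, map_mul, Module.End.mul_apply, ← hn₂y, appHom_inv_apply]
  obtain ⟨l, hl, h3⟩ := stab_ex_ey (appHom NN u₂) (N_appHom NN u₂) hu₂x hu₂y
  obtain ⟨g', hg'⟩ := dd_mul_ff t ht g₂
  have hu : u = ff (g₁ * g') * (dd t ht * u₂) := by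
    calc u = n₁ * (ff g₂ * u₂) := by rw [hu₂, hu₁]; group
      _ = ff g₁ * (dd t ht * ff g₂) * u₂ := by rw [hn₁]; group
      _ = ff g₁ * (ff g' * dd t ht) * u₂ := by rw [hg']
      _ = ff (g₁ * g') * (dd t ht * u₂) := by rw [map_mul]; group
  have hdd : dd t ht ∈ Subgroup.closure (SS (a := a) (b := b)) :=
    Subgroup.subset_closure (Or.inl ⟨t, ht, rfl⟩)
  have hrho : rho l hl ∈ Subgroup.closure (SS (a := a) (b := b)) :=
    Subgroup.subset_closure (Or.inr (Or.inl ⟨l, hl, rfl⟩))
  have hsig : sig ∈ Subgroup.closure (SS (a := a) (b := b)) :=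
    Subgroup.subset_closure (Or.inr (Or.inr rfl))
  refine ⟨_, ⟨_, rfl⟩, dd t ht * u₂, Subgroup.mul_mem _ hdd ?_, hu⟩
  rcases h3 with h3 | h3
  · have : u₂ = rho l hl := appHom_injective NN h3
    rw [this]
    exact hrho
  · have : u₂ = rho l hl * sig := appHom_injective NN (by rw [map_mul]; exact h3)
    rw [this]
    exact Subgroup.mul_mem _ hrho hsig

omit [Fact (∀ r : F, r ^ 2 ≠ -b + a * r)] in
theorem act_ex (α β γ δ : LL F a b) :
    act !![α, β; γ, δ] ex = (QuadraticAlgebra.norm α, -QuadraticAlgebra.norm γ, α * star γ) := by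
  rw [act_of]
  refine Prod.ext ?_ (Prod.ext ?_ ?_) <;> simp [ex, QuadraticAlgebra.norm_def] <;> ring

omit [Fact (∀ r : F, r ^ 2 ≠ -b + a * r)] in
theorem act_ey (α β γ δ : LL F a b) :
    act !![α, β; γ, δ] ey =
      (-QuadraticAlgebra.norm β, QuadraticAlgebra.norm δ, -(β * star δ)) := by
  rw [act_of]
  refine Prod.ext ?_ (Prod.ext ?_ ?_) <;> simp [ey, QuadraticAlgebra.norm_def] <;> ring

omit [Fact (∀ r : F, r ^ 2 ≠ -b + a * r)] in
theorem act_ez_snd (α β γ δ z : LL F a b) :
    (act !![α, β; γ, δ] (ez z)).2.2 = α * z * star δ + β * star z * star γ := by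
  rw [act_of]
  simp [ez]

theorem ff_ker_le (g : Matrix.SpecialLinearGroup (Fin 2) (LL F a b)) (hg : ff g = 1) :
    g ∈ Subgroup.center (Matrix.SpecialLinearGroup (Fin 2) (LL F a b)) := by
  have h : act g.1 = 1 := by
    have h0 := congrArg (appHom NN) hg
    rw [map_one] at h0
    exact h0
  obtain ⟨α, β, γ, δ, hM⟩ : ∃ α β γ δ : LL F a b, g.1 = !![α, β; γ, δ] :=
    ⟨_, _, _, _, eta_fin_two _⟩
  have hdet : α * δ - β * γ = 1 := by
    have h0 := g.2
    rw [hM, det_fin_two_of] at h0
    exact h0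
  rw [hM] at h
  have e1 := LinearMap.congr_fun h ex
  have e2 := LinearMap.congr_fun h ey
  have e3 := congrArg (fun w : WW F a b => w.2.2) (LinearMap.congr_fun h (ez 1))
  rw [act_ex, Module.End.one_apply] at e1
  rw [act_ey, Module.End.one_apply] at e2
  simp only [Module.End.one_apply] at e3
  rw [act_ez_snd] at e3
  have hα : QuadraticAlgebra.norm α = 1 := congrArg Prod.fst e1
  have hγ : γ = 0 := by
    have h0 : -QuadraticAlgebra.norm γ = 0 := congrArg (fun w : WW F a b => w.2.1) e1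
    exact norm_eq_zero_iff_eq_zero.mp (neg_eq_zero.mp h0)
  have hβ : β = 0 := by
    have h0 : -QuadraticAlgebra.norm β = 0 := congrArg Prod.fst e2
    exact norm_eq_zero_iff_eq_zero.mp (neg_eq_zero.mp h0)
  subst hγ hβ
  have h1 : α * star α = 1 := mul_star_of_norm α hα
  have h2 : α * δ = 1 := by linear_combination hdet
  have h3 : α * star δ = 1 := by
    have h0 : α * 1 * star δ + 0 * star 1 * star 0 = (1 : LL F a b) := e3
    linear_combination h0
  have h4 : δ = star α := by
    calc δ = star α * (α * δ) := by linear_combination (-δ) * h1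
      _ = star α := by rw [h2, mul_one]
  have h5 : star δ = star α := by
    calc star δ = star α * (α * star δ) := by linear_combination (-star δ) * h1
      _ = star α := by rw [h3, mul_one]
  have h6 : δ = α := by
    have h0 : star (star δ) = star (star α) := by rw [h5]
    rw [star_star, star_star] at h0
    exact h0
  subst h6
  rw [Matrix.SpecialLinearGroup.mem_center_iff]
  refine ⟨δ, ?_, ?_⟩
  · simp only [Fintype.card_fin]
    linear_combination h2
  · rw [hM]
    refine Matrix.ext fun i j => ?_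
    fin_cases i <;> fin_cases j <;> simp [Matrix.scalar_apply]

theorem range_le_commutator (hne : ¬ (a = 0 ∧ b = -1)) :
    (ff (a := a) (b := b)).range ≤ commutator (isoUnits (F := F) (W := WW F a b) NN) := by
  have hω0 : (ω : LL F a b) ≠ 0 := by
    intro h
    have h0 := congrArg QuadraticAlgebra.im h
    simp at h0
  have hω1 : (ω : LL F a b) ^ 2 ≠ 1 := by
    intro h
    rw [pow_two, omega_mul_omega_eq_mk] at h
    have h1 := congrArg QuadraticAlgebra.re h
    have h2 := congrArg QuadraticAlgebra.im h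
    simp at h1 h2
    exact hne ⟨h2, by linear_combination -h1⟩
  have hperf : commutator (Matrix.SpecialLinearGroup (Fin 2) (LL F a b)) = ⊤ :=
    SL2.commutator_eq_top hω0 hω1
  rintro _ ⟨g, rfl⟩
  have hg : g ∈ commutator (Matrix.SpecialLinearGroup (Fin 2) (LL F a b)) := by
    rw [hperf]; trivial
  rw [commutator_def] at hg ⊢
  have h1 : ff g ∈ Subgroup.map ff ⁅(⊤ : Subgroup (Matrix.SpecialLinearGroup (Fin 2) (LL F a b))),
      (⊤ : Subgroup (Matrix.SpecialLinearGroup (Fin 2) (LL F a b)))⁆ :=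
    Subgroup.mem_map_of_mem ff hg
  rw [Subgroup.map_commutator] at h1
  exact Subgroup.commutator_mono le_top le_top h1

theorem range_ff (hne : ¬ (a = 0 ∧ b = -1)) :
    (ff (a := a) (b := b)).range = commutator (isoUnits (F := F) (W := WW F a b) NN) :=
  le_antisymm (range_le_commutator hne)
    (commutator_le_of_generators _ SS SS_conj SS_comm exists_rep).2

end Cfsg.Agent.Lib.Helper99.OM4
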