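import Mathlib
import Cfsg.Prelude.Def_Classical
import Cfsg.Prelude.Def_ClassicalGeometry
import Cfsg.Agent.Lib.Helper99.PtSys
import Cfsg.Agent.Lib.Helper99.U42Data

/-!
# The action of `SU₄(2)` on the forty points of norm one

The permutation representation `rho1 : SU 4 F4 2 →* Perm Pt` is faithful.
-/

set_option autoImplicit false

namespace Cfsg.Agent.Lib.Helper99.U42

open Matrix Cfsg Cfsg.Agent.Lib.Helper99

/-- table entry as a vector -/
def P4 (x : Pt) : Fin 4 → F4 := ![(PT4 x).x0, (PT4 x).x1, (PT4 x).x2, (PT4 x).x3]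

/-- the index of a vector -/
def idx4 (v : Fin 4 → F4) : Pt := idxT4 (v 0) (v 1) (v 2) (v 3)

theorem hf_eq (u v : Fin 4 → F4) :
    hermForm 4 F4 2 u v = hfR (u 0) (u 1) (u 2) (u 3) (v 0) (v 1) (v 2) (v 3) := by
  simp only [hermForm, Fin.sum_univ_four, pow_two]
  rfl

/-- the unitary point system -/
def sysU : PtSys F4 (Fin 4) Pt where
  good v := hermForm 4 F4 2 v v = 1
  P := P4
  idx := idx4
  good_zero := by
    intro h
    rw [hf_eq] at h
    exact absurd h (by decide)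
  good_P x := by
    rw [hf_eq]
    exact goodP4 x
  spec v hv := by
    rw [hf_eq] at hv
    obtain ⟨h0, h1, h2, h3⟩ := spec4 _ _ _ _ hv
    refine ⟨first4 (v 0) (v 1) (v 2) (v 3), ?_⟩
    funext i
    fin_cases i
    · exact h0
    · exact h1
    · exact h2
    · exact h3
  uniq x c hc := uniq4 x c hc

/-- the matrix of an element of `SU` -/
def MU : SU 4 F4 2 →* Matrix (Fin 4) (Fin 4) F4 := (slToMat 4 F4).comp (SU 4 F4 2).subtype

theorem MU_apply (g : SU 4 F4 2) :
    MU g = ((g : Matrix.SpecialLinearGroup (Fin 4) F4) : Matrix (Fin 4) (Fin 4) F4) := rfl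

theorem MU_good (g : SU 4 F4 2) (v : Fin 4 → F4) (hv : sysU.good v) : sysU.good (MU g *ᵥ v) :=
  (g.2 v v).trans hv

/-- the permutation representation of `SU₄(2)` -/
def rho1 : SU 4 F4 2 →* Equiv.Perm Pt := sysU.hom MU MU_good

theorem rho1_apply (g : SU 4 F4 2) (x : Pt) : rho1 g x = idx4 (MU g *ᵥ P4 x) := rfl

/-- a matrix with the frame vectors as eigenvectors is scalar -/
theorem scalar_of_eig {R : Type*} [Field R] (A : Matrix (Fin 4) (Fin 4) R)
    (h0 : ∃ c : R, A *ᵥ ![1, 0, 0, 0] = c • ![1, 0, 0, 0])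
    (h1 : ∃ c : R, A *ᵥ ![0, 1, 0, 0] = c • ![0, 1, 0, 0])
    (h2 : ∃ c : R, A *ᵥ ![0, 0, 1, 0] = c • ![0, 0, 1, 0])
    (h3 : ∃ c : R, A *ᵥ ![0, 0, 0, 1] = c • ![0, 0, 0, 1])
    (h4 : ∃ c : R, A *ᵥ ![1, 1, 1, 0] = c • ![1, 1, 1, 0])
    (h5 : ∃ c : R, A *ᵥ ![0, 1, 1, 1] = c • ![0, 1, 1, 1]) :
    ∃ c : R, A = c • (1 : Matrix (Fin 4) (Fin 4) R) := by
  obtain ⟨c0, h0⟩ := h0
  obtain ⟨c1, h1⟩ := h1
  obtain ⟨c2, h2⟩ := h2
  obtain ⟨c3, h3⟩ := h3
  obtain ⟨c4, h4⟩ := h4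
  obtain ⟨c5, h5⟩ := h5
  have a00 := congrFun h0 0
  have a10 := congrFun h0 1
  have a20 := congrFun h0 2
  have a30 := congrFun h0 3
  have a01 := congrFun h1 0
  have a11 := congrFun h1 1
  have a21 := congrFun h1 2
  have a31 := congrFun h1 3
  have a02 := congrFun h2 0
  have a12 := congrFun h2 1
  have a22 := congrFun h2 2
  have a32 := congrFun h2 3
  have a03 := congrFun h3 0
  have a13 := congrFun h3 1
  have a23 := congrFun h3 2
  have a33 := congrFun h3 3
  have b0 := congrFun h4 0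
  have b1 := congrFun h4 1
  have b2 := congrFun h4 2
  have d1 := congrFun h5 1
  have d3 := congrFun h5 3
  simp [Matrix.mulVec, dotProduct, Fin.sum_univ_four] at a00 a10 a20 a30 a01 a11 a21 a31 a02 a12 a22 a32 a03 a13 a23 a33 b0 b1 b2 d1 d3
  simp only [a00, a01, a02, a10, a11, a12, a13, a20, a21, a22, a31, a32, a33, add_zero, zero_add]
    at b0 b1 b2 d1 d3
  refine ⟨c0, ?_⟩
  have e1 : c1 = c0 := by rw [b1, b0]
  have e2 : c2 = c0 := by rw [b2, b0]
  have e3 : c3 = c0 := by rw [d3, ← d1, e1]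
  ext i j
  fin_cases i <;> fin_cases j <;>
    simp [a00, a10, a20, a30, a01, a11, a21, a31, a02, a12, a22, a32, a03, a13, a23, a33, e1, e2, e3]

theorem rho1_injective : Function.Injective rho1 := by
  rw [injective_iff_map_eq_one]
  intro g hg
  have eig := fun v hv => sysU.eig_of_fix MU MU_good g hg v hv
  have good : ∀ v : Fin 4 → F4, hfR (v 0) (v 1) (v 2) (v 3) (v 0) (v 1) (v 2) (v 3) = F4.i →
      sysU.good v := fun v h => (hf_eq v v).trans h
  obtain ⟨c, hc⟩ := scalar_of_eig (MU g) (eig _ (good _ (by decide))) (eig _ (good _ (by decide)))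
    (eig _ (good _ (by decide))) (eig _ (good _ (by decide))) (eig _ (good _ (by decide)))
    (eig _ (good _ (by decide)))
  have hdet : (MU g).det = 1 := g.1.2
  rw [hc, Matrix.det_smul, Matrix.det_one, mul_one, Fintype.card_fin] at hdet
  have hc1 : c = 1 := (by decide : ∀ c : F4, c ^ 4 = 1 → c = 1) c hdet
  rw [hc1, one_smul] at hc
  apply Subtype.ext
  apply Subtype.ext
  exact hc

end Cfsg.Agent.Lib.Helper99.U42
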