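import Mathlib
import Cfsg.Prelude.Def_Classical
import Cfsg.Agent.Lib.Helper99.OM4Model

/-!
# The quadratic extension of a finite field: the conjugation is the Frobenius map

For `L = F[ω]` (a quadratic algebra which is a field) over a finite field `F` with `q` elements:
`z ^ q = star z`, the element `δ = ω - star ω` is nonzero with square `a² - 4 b`, and there is an
element of trace one.
-/

set_option autoImplicit false
set_option linter.unusedSectionVars false
set_option linter.unnecessarySeqFocus false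

namespace Cfsg.Agent.Lib.Helper99.U4

open Cfsg Matrix Cfsg.Agent.Lib.Helper99 Cfsg.Agent.Lib.Helper99.OM4 QuadraticAlgebra

variable {F : Type*} [Field F] {a b : F}

/-- `δ = ω - star ω` -/
def dl : LL F a b := ⟨-a, 2⟩

theorem star_dl : star (dl : LL F a b) = -dl := by
  refine QuadraticAlgebra.ext ?_ ?_ <;> simp [dl] <;> ring

theorem dl_mul_dl : (dl : LL F a b) * dl = algebraMap F (LL F a b) (a ^ 2 - 4 * b) := by
  refine QuadraticAlgebra.ext ?_ ?_ <;> simp [dl, map_sub, map_mul, map_pow, pow_two] <;> ring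

/-- in a finite field, an anisotropic binary form is not `z₁² + b z₂²` in characteristic two -/
theorem not_zero_and_two [Finite F]
    (hab : ∀ z₁ z₂ : F, z₁ ^ 2 + a * z₁ * z₂ + b * z₂ ^ 2 = 0 → z₁ = 0 ∧ z₂ = 0) :
    ¬ (a = 0 ∧ (2 : F) = 0) := by
  rintro ⟨ha, h2⟩
  have hinj : Function.Injective (fun x : F => x ^ 2) := by
    intro x y hxy
    have h : (x - y) ^ 2 = 0 := by
      have hxy' : x ^ 2 = y ^ 2 := hxy
      linear_combination hxy' + (y ^ 2 - x * y) * h2
    exact sub_eq_zero.mp (pow_eq_zero_iff (two_ne_zero) |>.mp h)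
  obtain ⟨c, hc⟩ := (Finite.injective_iff_surjective.mp hinj) b
  have hc' : c ^ 2 = b := hc
  have h := hab c 1 (by rw [ha, hc']; linear_combination b * h2)
  exact one_ne_zero h.2

theorem dl_ne_zero [Finite F]
    (hab : ∀ z₁ z₂ : F, z₁ ^ 2 + a * z₁ * z₂ + b * z₂ ^ 2 = 0 → z₁ = 0 ∧ z₂ = 0) :
    (dl : LL F a b) ≠ 0 := by
  intro h
  apply not_zero_and_two hab
  have h1 := congrArg QuadraticAlgebra.re h
  have h2 := congrArg QuadraticAlgebra.im h
  simp [dl] at h1 h2
  exact ⟨h1, h2⟩

/-- the discriminant is nonzero -/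
theorem disc_ne_zero [Finite F]
    (hab : ∀ z₁ z₂ : F, z₁ ^ 2 + a * z₁ * z₂ + b * z₂ ^ 2 = 0 → z₁ = 0 ∧ z₂ = 0) :
    a ^ 2 - 4 * b ≠ 0 := by
  intro h
  by_cases h2 : (2 : F) = 0
  · have h4 : (4 : F) = 0 := by linear_combination (2 : F) * h2
    rw [h4, zero_mul, sub_zero] at h
    exact not_zero_and_two hab ⟨pow_eq_zero_iff (two_ne_zero) |>.mp h, h2⟩
  · have h0 := hab (-a / 2) 1 (by field_simp; linear_combination -h)
    exact one_ne_zero h0.2

/-- an element of trace one -/
theorem exists_trace_one [Finite F]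
    (hab : ∀ z₁ z₂ : F, z₁ ^ 2 + a * z₁ * z₂ + b * z₂ ^ 2 = 0 → z₁ = 0 ∧ z₂ = 0) :
    ∃ β : LL F a b, β + star β = 1 := by
  by_cases h2 : (2 : F) = 0
  · have ha : a ≠ 0 := fun ha => not_zero_and_two hab ⟨ha, h2⟩
    refine ⟨⟨0, a⁻¹⟩, ?_⟩
    refine QuadraticAlgebra.ext ?_ ?_
    · simp
      field_simp
    · simp
  · refine ⟨⟨2⁻¹, 0⟩, ?_⟩
    refine QuadraticAlgebra.ext ?_ ?_
    · simp
      field_simp
      norm_num
    · simp

variable [Fact (∀ r : F, r ^ 2 ≠ -b + a * r)]

/-- the Frobenius map of `F` on the quadratic extension is the conjugation -/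
theorem pow_card_eq_star [Fintype F] (z : LL F a b) : z ^ Fintype.card F = star z := by
  classical
  have : Finite (LL F a b) := Finite.of_equiv (F × F) (QuadraticAlgebra.equivProd (-b) a).symm
  have hne : FiniteField.frobeniusAlgHom F (LL F a b) ≠ 1 := by
    intro h
    have h1 := FiniteField.orderOf_frobeniusAlgHom F (LL F a b)
    rw [h, orderOf_one, QuadraticAlgebra.finrank_eq_two] at h1
    exact absurd h1 (by norm_num)
  have hφ : ∀ x : LL F a b, FiniteField.frobeniusAlgHom F (LL F a b) x = x ^ Fintype.card F :=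
    fun x => rfl
  obtain ⟨u, hu⟩ : ∃ u, u = FiniteField.frobeniusAlgHom F (LL F a b) ω := ⟨_, rfl⟩
  have hroot : u * u = algebraMap F (LL F a b) (-b) + algebraMap F (LL F a b) a * u := by
    rw [hu, ← map_mul, omega_mul_omega_eq_algebraMap, map_add, map_mul, AlgHom.commutes,
      AlgHom.commutes]
  have hprod : (u - ω) * (u - star (ω : LL F a b)) = 0 := by
    have h1 : (ω : LL F a b) + star ω = algebraMap F (LL F a b) a := by
      refine QuadraticAlgebra.ext ?_ ?_ <;> simp
    have h2 : (ω : LL F a b) * star ω = algebraMap F (LL F a b) b := by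
      refine QuadraticAlgebra.ext ?_ ?_ <;> simp
    have h3 : algebraMap F (LL F a b) (-b) = -algebraMap F (LL F a b) b := map_neg _ _
    rw [h3] at hroot
    linear_combination hroot - u * h1 + h2
  have hu' : u = star (ω : LL F a b) := by
    rcases mul_eq_zero.mp hprod with h | h
    · exfalso
      apply hne
      apply QuadraticAlgebra.algHom_ext
      rw [← hu, sub_eq_zero.mp h]
      rfl
    · exact sub_eq_zero.mp h
  have hz : z = algebraMap F (LL F a b) z.re + algebraMap F (LL F a b) z.im * ω := by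
    refine QuadraticAlgebra.ext ?_ ?_ <;> simp
  rw [← hφ]
  conv_lhs => rw [hz]
  rw [map_add, map_mul, AlgHom.commutes, AlgHom.commutes, ← hu, hu']
  refine QuadraticAlgebra.ext ?_ ?_ <;> simp <;> ring

end Cfsg.Agent.Lib.Helper99.U4
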