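import Mathlib
import Cfsg.Prelude.Def_Classical
import Cfsg.Agent.Lib.Helper99.IsoModel
import Cfsg.Agent.Lib.Helper99.HypExt
import Cfsg.Agent.Lib.Helper99.Klein
import Cfsg.Agent.Lib.Helper99.KleinSurj
import Cfsg.Agent.Lib.Helper99.OM4Model
import Cfsg.Agent.Lib.Helper99.U4Field

/-!
# The unitary group of the hyperbolic Hermitian form in dimension 4 acting on the 6-dimensional
minus type orthogonal space

`L = F[ω]` is a quadratic field extension, `W₆ = F × F × (F × F × L)` with the form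
`x₁ y₁ + x₂ y₂ + N(l)`.  It is embedded in the Klein model `L × L × M₂(L)` over `L` as the fixed
points of the semilinear involution `θ = conj ∘ (Φ · Φᵀ) ∘ ⋆`; matrices of determinant one
preserving the Hermitian form `Φ` commute with `θ`.
-/

set_option autoImplicit false
set_option linter.unusedSectionVars false
set_option linter.unnecessarySeqFocus false

namespace Cfsg.Agent.Lib.Helper99.U4

open Cfsg Matrix Cfsg.Agent.Lib.Helper99 Cfsg.Agent.Lib.Helper99.Klein
  Cfsg.Agent.Lib.Helper99.OM4 QuadraticAlgebra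

/-- the model space `F × F × (F × F × L)` -/
abbrev W6 (F : Type*) [Field F] (a b : F) : Type _ := F × F × WW F a b

variable {F : Type*} [Field F] {a b : F}

/-- coordinates -/
def psi6 : (((Fin 2 ⊕ Fin 2) ⊕ Fin 2) → F) ≃ₗ[F] W6 F a b where
  toFun v := (v (.inl (.inl 0)), v (.inl (.inr 0)),
    (v (.inl (.inl 1)), v (.inl (.inr 1)), ⟨v (.inr 0), v (.inr 1)⟩))
  invFun w := Sum.elim (Sum.elim ![w.1, w.2.2.1] ![w.2.1, w.2.2.2.1])
    ![w.2.2.2.2.re, w.2.2.2.2.im]
  map_add' u v := by
    refine Prod.ext rfl (Prod.ext rfl (Prod.ext rfl (Prod.ext rfl ?_)))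
    ext <;> rfl
  map_smul' c v := by
    refine Prod.ext rfl (Prod.ext rfl (Prod.ext rfl (Prod.ext rfl ?_)))
    ext <;> rfl
  left_inv v := by
    funext i
    rcases i with (i | i) | i <;> fin_cases i <;> rfl
  right_inv w := by
    refine Prod.ext rfl (Prod.ext rfl (Prod.ext rfl (Prod.ext rfl ?_)))
    ext <;> rfl

theorem hypN_psi6 (v : ((Fin 2 ⊕ Fin 2) ⊕ Fin 2) → F) :
    hypN (NN (a := a) (b := b)) (psi6 v) = quadFormMinus 2 F a b v := by
  simp [psi6, hypN, NN, quadFormMinus, QuadraticAlgebra.norm_def, Fin.sum_univ_two]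
  ring

theorem NN_zero : NN (0 : WW F a b) = 0 := by
  simp [NN]

/-- the discriminant `a² - 4 b` -/
def dsc (a b : F) : F := a ^ 2 - 4 * b

theorem dl_sq : (dl : LL F a b) * dl = algebraMap F (LL F a b) (dsc a b) := dl_mul_dl

variable [Fact (∀ r : F, r ^ 2 ≠ -b + a * r)]

/-- the embedding into the Klein model over `L` -/
def iota6 : W6 F a b →ₗ[F] KW (LL F a b) where
  toFun u := (algebraMap F (LL F a b) u.1, algebraMap F (LL F a b) ((dsc a b) * u.2.1),
    !![-(dl * u.2.2.2.2), dl * algebraMap F (LL F a b) u.2.2.1;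
       dl * algebraMap F (LL F a b) u.2.2.2.1, dl * star u.2.2.2.2])
  map_add' u v := by
    apply kw_ext <;> simp [mul_add] <;> ring
  map_smul' c v := by
    apply kw_ext <;>
      simp only [Prod.smul_fst, Prod.smul_snd, Matrix.smul_apply, RingHom.id_apply] <;>
      simp [Algebra.smul_def, star_algebraMap'] <;> ring

theorem iota6_apply (u : W6 F a b) : iota6 u =
    (algebraMap F (LL F a b) u.1, algebraMap F (LL F a b) ((dsc a b) * u.2.1),
    !![-(dl * u.2.2.2.2), dl * algebraMap F (LL F a b) u.2.2.1;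
       dl * algebraMap F (LL F a b) u.2.2.2.1, dl * star u.2.2.2.2]) := rfl

/-- the projection from the Klein model over `L` -/
def pi6 : KW (LL F a b) →ₗ[F] W6 F a b where
  toFun k := (k.1.re, k.2.1.re / (dsc a b),
    ((dl * k.2.2 0 1).re / (dsc a b), (dl * k.2.2 1 0).re / (dsc a b),
      -(algebraMap F (LL F a b) (dsc a b)⁻¹ * dl * k.2.2 0 0)))
  map_add' u v := by
    refine Prod.ext ?_ (Prod.ext ?_ (Prod.ext ?_ (Prod.ext ?_ ?_)))
    · simp
    · simp [add_div]
    · simp [mul_add, add_div]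
    · simp [mul_add, add_div]
    · simp [mul_add]
      ring
  map_smul' c v := by
    refine Prod.ext ?_ (Prod.ext ?_ (Prod.ext ?_ (Prod.ext ?_ ?_)))
    · simp
    · simp [mul_div_assoc]
    · simp [mul_div_assoc]
    · simp [mul_div_assoc]
    · simp

theorem pi6_apply (k : KW (LL F a b)) : pi6 k = (k.1.re, k.2.1.re / (dsc a b),
    ((dl * k.2.2 0 1).re / (dsc a b), (dl * k.2.2 1 0).re / (dsc a b),
      -(algebraMap F (LL F a b) (dsc a b)⁻¹ * dl * k.2.2 0 0))) := rfl

variable [hD : Fact (dsc a b ≠ 0)]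

theorem algebraMap_disc_mul_inv :
    algebraMap F (LL F a b) (dsc a b) * algebraMap F (LL F a b) (dsc a b)⁻¹ = 1 := by
  rw [← map_mul, mul_inv_cancel₀ hD.out, map_one]

theorem pi6_iota6 (u : W6 F a b) : pi6 (iota6 u) = u := by
  have hD' := hD.out
  have h1 := algebraMap_disc_mul_inv (a := a) (b := b)
  have h2 := dl_sq (a := a) (b := b)
  rw [iota6_apply, pi6_apply]
  refine Prod.ext ?_ (Prod.ext ?_ (Prod.ext ?_ (Prod.ext ?_ ?_)))
  · simp
  · simp
    field_simp
  · show (dl * (dl * algebraMap F (LL F a b) u.2.2.1)).re / (dsc a b) = u.2.2.1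
    rw [← mul_assoc, h2, ← map_mul]
    simp
    field_simp
  · show (dl * (dl * algebraMap F (LL F a b) u.2.2.2.1)).re / (dsc a b) = u.2.2.2.1
    rw [← mul_assoc, h2, ← map_mul]
    simp
    field_simp
  · show -(algebraMap F (LL F a b) (dsc a b)⁻¹ * dl * -(dl * u.2.2.2.2)) = u.2.2.2.2
    linear_combination (algebraMap F (LL F a b) (dsc a b)⁻¹ * u.2.2.2.2) * h2
      + u.2.2.2.2 * h1

theorem iota6_injective : Function.Injective (iota6 (a := a) (b := b)) := by
  intro u v h
  rw [← pi6_iota6 u, ← pi6_iota6 v, h]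

theorem real_of_star (x : LL F a b) (h : star x = x) : algebraMap F (LL F a b) x.re = x := by
  have h1 : (star x).re = x.re := congrArg QuadraticAlgebra.re h
  have h2 : (star x).im = x.im := congrArg QuadraticAlgebra.im h
  rw [QuadraticAlgebra.re_star] at h1
  rw [QuadraticAlgebra.im_star] at h2
  have h3 : (dsc a b) * x.im = 0 := by
    rw [dsc]
    linear_combination a * h1 + (2 * b) * h2
  have h4 : x.im = 0 := by
    rcases mul_eq_zero.mp h3 with h | h
    · exact absurd h hD.out
    · exact h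
  exact algebraMap_re_of_im x h4

/-- entrywise conjugation -/
def cc (k : KW (LL F a b)) : KW (LL F a b) := (star k.1, star k.2.1, k.2.2.map star)

/-- the Hermitian form `[[0, 1], [1, 0]]` in 2 x 2 blocks -/
def Phi : Matrix (Fin 4) (Fin 4) (LL F a b) := !![0, 0, 1, 0; 0, 0, 0, 1; 1, 0, 0, 0; 0, 1, 0, 0]

/-- the semilinear involution whose fixed points are the image of `iota6` -/
def theta (k : KW (LL F a b)) : KW (LL F a b) := cc (act4 Phi (starLin k))

theorem theta_apply (k : KW (LL F a b)) : theta k = (star k.1, star k.2.1,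
    !![star (k.2.2 1 1), -star (k.2.2 0 1); -star (k.2.2 1 0), star (k.2.2 0 0)]) := by
  rw [theta, cc]
  apply kw_ext <;>
    simp only [act4_fst, act4_snd, act4_00, act4_01, act4_10, act4_11, conj_entry, starLin_apply,
      Matrix.map_apply] <;>
    simp [Phi]

theorem theta_iota6 (u : W6 F a b) : theta (iota6 u) = iota6 u := by
  rw [theta_apply, iota6_apply]
  apply kw_ext <;> simp [star_dl, star_algebraMap']

theorem iota6_pi6 (k : KW (LL F a b)) (hk : theta k = k) : iota6 (pi6 k) = k := by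
  have hD' := hD.out
  have h1 := algebraMap_disc_mul_inv (a := a) (b := b)
  have h2 := dl_sq (a := a) (b := b)
  rw [theta_apply] at hk
  have e1 : star k.1 = k.1 := congrArg Prod.fst hk
  have e2 : star k.2.1 = k.2.1 := congrArg (fun w : KW (LL F a b) => w.2.1) hk
  have e00 : star (k.2.2 1 1) = k.2.2 0 0 :=
    congrFun (congrFun (congrArg (fun w : KW (LL F a b) => w.2.2) hk) 0) 0
  have e01 : -star (k.2.2 0 1) = k.2.2 0 1 :=
    congrFun (congrFun (congrArg (fun w : KW (LL F a b) => w.2.2) hk) 0) 1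
  have e10 : -star (k.2.2 1 0) = k.2.2 1 0 :=
    congrFun (congrFun (congrArg (fun w : KW (LL F a b) => w.2.2) hk) 1) 0
  have r01 : algebraMap F (LL F a b) (dl * k.2.2 0 1).re = dl * k.2.2 0 1 := by
    apply real_of_star
    rw [star_mul', star_dl]
    linear_combination dl * e01
  have r10 : algebraMap F (LL F a b) (dl * k.2.2 1 0).re = dl * k.2.2 1 0 := by
    apply real_of_star
    rw [star_mul', star_dl]
    linear_combination dl * e10
  rw [pi6_apply, iota6_apply]
  apply kw_ext
  · exact real_of_star _ e1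
  · show algebraMap F (LL F a b) ((dsc a b) * (k.2.1.re / (dsc a b))) = k.2.1
    rw [mul_div_cancel₀ _ hD']
    exact real_of_star _ e2
  · show -(dl * -(algebraMap F (LL F a b) (dsc a b)⁻¹ * dl * k.2.2 0 0)) = k.2.2 0 0
    linear_combination (algebraMap F (LL F a b) (dsc a b)⁻¹ * k.2.2 0 0) * h2
      + k.2.2 0 0 * h1
  · show dl * algebraMap F (LL F a b) ((dl * k.2.2 0 1).re / (dsc a b)) = k.2.2 0 1
    rw [div_eq_mul_inv, map_mul, r01]
    linear_combination (algebraMap F (LL F a b) (dsc a b)⁻¹ * k.2.2 0 1) * h2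
      + k.2.2 0 1 * h1
  · show dl * algebraMap F (LL F a b) ((dl * k.2.2 1 0).re / (dsc a b)) = k.2.2 1 0
    rw [div_eq_mul_inv, map_mul, r10]
    linear_combination (algebraMap F (LL F a b) (dsc a b)⁻¹ * k.2.2 1 0) * h2
      + k.2.2 1 0 * h1
  · show dl * star (-(algebraMap F (LL F a b) (dsc a b)⁻¹ * dl * k.2.2 0 0)) = k.2.2 1 1
    have e11 : star (k.2.2 0 0) = k.2.2 1 1 := by rw [← e00, star_star]
    rw [star_neg, star_mul', star_mul', star_dl, star_algebraMap', e11]
    linear_combination (algebraMap F (LL F a b) (dsc a b)⁻¹ * k.2.2 1 1) * h2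
      + k.2.2 1 1 * h1

theorem hypN_iota6 (u : W6 F a b) :
    hypN kN₀ (iota6 u) = algebraMap F (LL F a b) ((dsc a b) * hypN NN u) := by
  have h2 := dl_sq (a := a) (b := b)
  rw [iota6_apply]
  simp only [hypN, kN₀, NN, Matrix.det_fin_two_of]
  simp only [mul_add, map_add, map_mul]
  rw [algebraMap_norm_eq_mul_star]
  linear_combination (u.2.2.2.2 * star u.2.2.2.2
    + algebraMap F (LL F a b) u.2.2.1 * algebraMap F (LL F a b) u.2.2.2.1) * h2

/-- special unitary matrices for `Phi` -/
def IsU (M : Matrix (Fin 4) (Fin 4) (LL F a b)) : Prop := M.det = 1 ∧ M * Phi * Mᴴ = Phi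

theorem cc_act4 (N : Matrix (Fin 4) (Fin 4) (LL F a b)) (k : KW (LL F a b)) :
    cc (act4 N k) = act4 (N.map star) (cc k) := by
  apply kw_ext <;>
    simp only [cc, act4_fst, act4_snd, act4_00, act4_01, act4_10, act4_11, conj_entry,
      Matrix.map_apply] <;>
    simp

theorem map_star_mul (A B : Matrix (Fin 4) (Fin 4) (LL F a b)) :
    (A * B).map star = A.map star * B.map star :=
  Matrix.map_mul (f := starRingEnd (LL F a b))

theorem Phi_map_star : (Phi (a := a) (b := b)).map star = Phi := by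
  refine Matrix.ext fun i j => ?_
  fin_cases i <;> fin_cases j <;> simp [Phi]

theorem Phi_mul_adjugate (M : Matrix (Fin 4) (Fin 4) (LL F a b)) (hM : IsU M) :
    Phi * (adjugate M)ᴴ = M * Phi := by
  have h1 : Mᴴ * (adjugate M)ᴴ = 1 := by
    rw [← Matrix.conjTranspose_mul, Matrix.adjugate_mul, hM.1, one_smul,
      Matrix.conjTranspose_one]
  calc Phi * (adjugate M)ᴴ = M * Phi * Mᴴ * (adjugate M)ᴴ := by rw [hM.2]
    _ = M * Phi := by rw [Matrix.mul_assoc, h1, Matrix.mul_one]

theorem theta_act4 (M : Matrix (Fin 4) (Fin 4) (LL F a b)) (hM : IsU M) (k : KW (LL F a b)) :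
    theta (act4 M k) = act4 M (theta k) := by
  have h1 : starLin (act4 M k) = act4 (adjugate M)ᵀ (starLin k) := by
    have h := starLin_mul_act4 M hM.1
    have h' := LinearMap.congr_fun h k
    rwa [Module.End.mul_apply, Module.End.mul_apply] at h'
  rw [theta, theta, h1, ← Module.End.mul_apply (act4 Phi), ← map_mul, cc_act4, cc_act4,
    ← Module.End.mul_apply (act4 M), ← map_mul, map_star_mul, Phi_map_star]
  have h2 : ((adjugate M)ᵀ).map star = (adjugate M)ᴴ := rfl
  rw [h2, Phi_mul_adjugate M hM]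

/-- the action on the 6-dimensional model -/
def act6 (M : Matrix (Fin 4) (Fin 4) (LL F a b)) : Module.End F (W6 F a b) :=
  pi6 ∘ₗ (act4 M).restrictScalars F ∘ₗ iota6

theorem act6_apply (M : Matrix (Fin 4) (Fin 4) (LL F a b)) (u : W6 F a b) :
    act6 M u = pi6 (act4 M (iota6 u)) := rfl

theorem iota6_act6 (M : Matrix (Fin 4) (Fin 4) (LL F a b)) (hM : IsU M) (u : W6 F a b) :
    iota6 (act6 M u) = act4 M (iota6 u) := by
  rw [act6_apply, iota6_pi6]
  rw [theta_act4 M hM, theta_iota6]

theorem act6_one : act6 (1 : Matrix (Fin 4) (Fin 4) (LL F a b)) = 1 := by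
  refine LinearMap.ext fun u => ?_
  rw [act6_apply, map_one, Module.End.one_apply, pi6_iota6, Module.End.one_apply]

theorem act6_mul (M M' : Matrix (Fin 4) (Fin 4) (LL F a b)) (h' : IsU M') :
    act6 (M * M') = act6 M * act6 M' := by
  refine LinearMap.ext fun u => ?_
  rw [Module.End.mul_apply, act6_apply, act6_apply, iota6_act6 M' h', map_mul,
    Module.End.mul_apply]

theorem hypN_act6 (M : Matrix (Fin 4) (Fin 4) (LL F a b)) (hM : IsU M) (u : W6 F a b) :
    hypN NN (act6 M u) = hypN NN u := by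
  have h1 := hypN_iota6 (act6 M u)
  rw [iota6_act6 M hM, hypN_act4, hM.1, one_mul, hypN_iota6] at h1
  have h2 := QuadraticAlgebra.algebraMap_injective (a := -b) (b := a) h1
  exact (mul_left_cancel₀ hD.out h2).symm

/-- an endomorphism of the model intertwining `act6 M` and `act6 M'` -/
theorem twist (E : Module.End F (W6 F a b)) (Ψ : KW (LL F a b) → KW (LL F a b))
    (hE : ∀ u, iota6 (E u) = Ψ (iota6 u)) (M M' : Matrix (Fin 4) (Fin 4) (LL F a b))
    (hM : IsU M) (hM' : IsU M') (hΨ : ∀ k, Ψ (act4 M k) = act4 M' (Ψ k)) :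
    E * act6 M = act6 M' * E := by
  refine LinearMap.ext fun u => ?_
  apply iota6_injective
  rw [Module.End.mul_apply, Module.End.mul_apply, hE, iota6_act6 M hM, hΨ, iota6_act6 M' hM', hE]

end Cfsg.Agent.Lib.Helper99.U4
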