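import Mathlib
import Cfsg.Prelude.Def_Classical
import Cfsg.Agent.Lib.Helper99.IsoModel
import Cfsg.Agent.Lib.Helper99.HypExt
import Cfsg.Agent.Lib.Helper99.Klein
import Cfsg.Agent.Lib.Helper99.KleinSurj
import Cfsg.Agent.Lib.Helper99.OM4Model
import Cfsg.Agent.Lib.Helper99.OM4Surj
import Cfsg.Agent.Lib.Helper99.Sp4Surj
import Cfsg.Agent.Lib.Helper99.U4Field
import Cfsg.Agent.Lib.Helper99.U4Model

/-!
# Explicit unitary matrices and the group `SUh` acting on the 6-dimensional model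
-/

set_option autoImplicit false
set_option linter.unusedSectionVars false
set_option linter.unnecessarySeqFocus false

namespace Cfsg.Agent.Lib.Helper99.U4

open Cfsg Matrix Cfsg.Agent.Lib.Helper99 Cfsg.Agent.Lib.Helper99.Klein
  Cfsg.Agent.Lib.Helper99.OM4 QuadraticAlgebra
open scoped commutatorElement

variable {F : Type*} [Field F] {a b : F} [Fact (∀ r : F, r ^ 2 ≠ -b + a * r)]
variable [hD : Fact (dsc a b ≠ 0)]

/-! ### unitary matrices -/

theorem isU_one : IsU (1 : Matrix (Fin 4) (Fin 4) (LL F a b)) :=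
  ⟨det_one, by rw [Matrix.one_mul, Matrix.conjTranspose_one, Matrix.mul_one]⟩

theorem isU_mul (M M' : Matrix (Fin 4) (Fin 4) (LL F a b)) (hM : IsU M) (hM' : IsU M') :
    IsU (M * M') := by
  refine ⟨by rw [det_mul, hM.1, hM'.1, one_mul], ?_⟩
  rw [Matrix.conjTranspose_mul]
  calc M * M' * Phi * (M'ᴴ * Mᴴ) = M * (M' * Phi * M'ᴴ) * Mᴴ := by simp only [Matrix.mul_assoc]
    _ = Phi := by rw [hM'.2, hM.2]

theorem Phi_mul_Phi : (Phi (a := a) (b := b)) * Phi = 1 := by
  refine Matrix.ext fun i j => ?_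
  fin_cases i <;> fin_cases j <;> simp [Phi, Matrix.mul_apply, Fin.sum_univ_four]

theorem Phi_conjTranspose : (Phi (a := a) (b := b))ᴴ = Phi := by
  refine Matrix.ext fun i j => ?_
  fin_cases i <;> fin_cases j <;> simp [Phi]

theorem det_Phi : (Phi (a := a) (b := b)).det = 1 := by
  rw [det4]
  simp [Phi]

theorem isU_Phi : IsU (Phi (a := a) (b := b)) :=
  ⟨det_Phi, by rw [Phi_conjTranspose, Phi_mul_Phi, Matrix.one_mul]⟩

theorem isU_map_star (M : Matrix (Fin 4) (Fin 4) (LL F a b)) (hM : IsU M) : IsU (M.map star) := by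
  refine ⟨?_, ?_⟩
  · have h := (RingHom.map_det (starRingEnd (LL F a b)) M).symm
    have h' : (M.map star).det = star M.det := h
    rw [h', hM.1, star_one]
  · have h1 : (M.map star)ᴴ = Mᴴ.map star := by
      refine Matrix.ext fun i j => ?_
      simp
    rw [h1, ← Phi_map_star, ← map_star_mul, ← map_star_mul, Phi_map_star, hM.2, Phi_map_star]

/-- the upper unipotent matrix with block `Q` -/
def uQ (Q : Matrix (Fin 2) (Fin 2) (LL F a b)) : Matrix (Fin 4) (Fin 4) (LL F a b) :=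
  !![1, 0, Q 0 0, Q 0 1; 0, 1, Q 1 0, Q 1 1; 0, 0, 1, 0; 0, 0, 0, 1]

theorem det_uQ (Q : Matrix (Fin 2) (Fin 2) (LL F a b)) : (uQ Q).det = 1 := by
  rw [det4]
  simp [uQ]

theorem isU_uQ (Q : Matrix (Fin 2) (Fin 2) (LL F a b)) (hQ : Qᴴ = -Q) : IsU (uQ Q) := by
  have h00 : star (Q 0 0) = -Q 0 0 := by simpa using congrFun (congrFun hQ 0) 0
  have h01 : star (Q 1 0) = -Q 0 1 := by simpa using congrFun (congrFun hQ 0) 1
  have h10 : star (Q 0 1) = -Q 1 0 := by simpa using congrFun (congrFun hQ 1) 0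
  have h11 : star (Q 1 1) = -Q 1 1 := by simpa using congrFun (congrFun hQ 1) 1
  refine ⟨det_uQ Q, ?_⟩
  refine Matrix.ext fun i j => ?_
  fin_cases i <;> fin_cases j <;>
    simp [uQ, Phi, Matrix.mul_apply, Fin.sum_univ_four, h00, h01, h10, h11]

theorem uQ_mul (Q Q' : Matrix (Fin 2) (Fin 2) (LL F a b)) : uQ Q * uQ Q' = uQ (Q + Q') := by
  refine Matrix.ext fun i j => ?_
  fin_cases i <;> fin_cases j <;> simp [uQ, Matrix.mul_apply, Fin.sum_univ_four] <;> ring

theorem uQ_zero : uQ (0 : Matrix (Fin 2) (Fin 2) (LL F a b)) = 1 := by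
  refine Matrix.ext fun i j => ?_
  fin_cases i <;> fin_cases j <;> simp [uQ]

theorem uQ_pow (Q : Matrix (Fin 2) (Fin 2) (LL F a b)) (n : ℕ) : uQ Q ^ n = uQ (n • Q) := by
  induction n with
  | zero => rw [pow_zero, zero_smul, uQ_zero]
  | succ n ih => rw [pow_succ, ih, uQ_mul, succ_nsmul]

theorem act4_uQ_hex (Q : Matrix (Fin 2) (Fin 2) (LL F a b)) : act4 (uQ Q) hex = hex := by
  rw [act4_hex]
  apply kw_ext <;> simp [uQ, hex]

theorem act4_uQ_fst (Q : Matrix (Fin 2) (Fin 2) (LL F a b)) (k : KW (LL F a b)) :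
    (act4 (uQ Q) k).1 = k.1 + (Q 0 0 * Q 1 1 - Q 0 1 * Q 1 0) * k.2.1 + Q 1 0 * k.2.2 0 0
      + Q 1 1 * k.2.2 0 1 - Q 0 0 * k.2.2 1 0 - Q 0 1 * k.2.2 1 1 := by
  rw [act4_fst, conj_entry]
  simp [uQ]
  ring

theorem act4_uQ_y (Q : Matrix (Fin 2) (Fin 2) (LL F a b)) (y : LL F a b) :
    act4 (uQ Q) ((0, y, 0) : KW (LL F a b)) = ((Q 0 0 * Q 1 1 - Q 0 1 * Q 1 0) * y, y,
      !![-(Q 0 1 * y), Q 0 0 * y; -(Q 1 1 * y), Q 1 0 * y]) := by
  apply kw_ext <;>
    simp only [act4_fst, act4_snd, act4_00, act4_01, act4_10, act4_11, conj_entry] <;>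
    simp [uQ]

theorem act4_Phi (k : KW (LL F a b)) : act4 Phi k = (k.2.1, k.1, -k.2.2ᵀ) := by
  apply kw_ext <;>
    simp only [act4_fst, act4_snd, act4_00, act4_01, act4_10, act4_11, conj_entry] <;>
    simp [Phi]

theorem isU_mvx (k : KW (LL F a b)) (hx : k.1 ≠ 0) (hk : theta k = k) : IsU (Sp4.mvx k) := by
  rw [theta_apply] at hk
  obtain ⟨x, y, B⟩ := k
  have hx' : x ≠ 0 := hx
  have e1 : star x = x := congrArg Prod.fst hk
  have e00 : star (B 1 1) = B 0 0 :=
    congrFun (congrFun (congrArg (fun w : KW (LL F a b) => w.2.2) hk) 0) 0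
  have e01' : -star (B 0 1) = B 0 1 :=
    congrFun (congrFun (congrArg (fun w : KW (LL F a b) => w.2.2) hk) 0) 1
  have e10' : -star (B 1 0) = B 1 0 :=
    congrFun (congrFun (congrArg (fun w : KW (LL F a b) => w.2.2) hk) 1) 0
  have e01 : star (B 0 1) = -B 0 1 := by linear_combination -e01'
  have e10 : star (B 1 0) = -B 1 0 := by linear_combination -e10'
  have e11 : star (B 0 0) = B 1 1 := by rw [← e00, star_star]
  refine ⟨?_, ?_⟩
  · rw [det4]
    simp [Sp4.mvx]
    field_simp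
  · refine Matrix.ext fun i j => ?_
    fin_cases i <;> fin_cases j <;>
      simp [Sp4.mvx, Phi, Matrix.mul_apply, Fin.sum_univ_four, e1, e00, e01, e10, e11,
        star_div₀, star_inv₀] <;>
      field_simp <;> ring

/-- the inverse conjugate transpose of a 2 x 2 matrix of determinant one -/
def invH (P : Matrix (Fin 2) (Fin 2) (LL F a b)) : Matrix (Fin 2) (Fin 2) (LL F a b) :=
  !![star (P 1 1), -star (P 1 0); -star (P 0 1), star (P 0 0)]

theorem det_invH (P : Matrix (Fin 2) (Fin 2) (LL F a b)) : (invH P).det = star P.det := by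
  rw [invH, det_fin_two_of, det_fin_two]
  simp
  ring

theorem isU_bd (P : Matrix (Fin 2) (Fin 2) (LL F a b)) (hP : P.det = 1) : IsU (bd P (invH P)) := by
  have hd : P 0 0 * P 1 1 - P 0 1 * P 1 0 = 1 := by rw [← det_fin_two]; exact hP
  have hd' : star (P 0 0) * star (P 1 1) - star (P 0 1) * star (P 1 0) = 1 := by
    have h := congrArg star hd
    simpa using h
  refine ⟨by rw [det_bd, det_invH, hP, star_one, one_mul], ?_⟩
  refine Matrix.ext fun i j => ?_
  fin_cases i <;> fin_cases j <;>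
    simp [bd, invH, Phi, Matrix.mul_apply, Fin.sum_univ_four] <;>
    first
      | ring1
      | linear_combination hd
      | linear_combination -hd
      | linear_combination hd'

/-- the matrix `J = [[0, 1], [-1, 0]]` -/
def J2 : Matrix (Fin 2) (Fin 2) (LL F a b) := !![0, 1; -1, 0]

theorem J2_mul_invH (P : Matrix (Fin 2) (Fin 2) (LL F a b)) : J2 * (invH P)ᵀ = Pᴴ * J2 := by
  refine Matrix.ext fun i j => ?_
  fin_cases i <;> fin_cases j <;> simp [J2, invH, Matrix.mul_apply, Fin.sum_univ_two]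

theorem iota6_snd (u : W6 F a b) :
    (iota6 u).2.2 = (dl : LL F a b) • (Hm u.2.2 * (J2 (a := a) (b := b))) := by
  rw [iota6_apply, Hm_apply]
  refine Matrix.ext fun i j => ?_
  fin_cases i <;> fin_cases j <;> simp [J2, Algebra.smul_def, mul_comm]

theorem act4_bd_iota6 (P : Matrix (Fin 2) (Fin 2) (LL F a b)) (hP : P.det = 1) (u : W6 F a b) :
    act4 (bd P (invH P)) (iota6 u) = iota6 (hext (act P) u) := by
  rw [act4_bd, det_invH, hP, star_one, one_mul, one_mul]
  refine Prod.ext rfl (Prod.ext rfl ?_)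
  show P * (iota6 u).2.2 * (invH P)ᵀ = (iota6 (hext (act P) u)).2.2
  rw [iota6_snd, iota6_snd, hext_apply, Hm_act, Matrix.mul_smul, Matrix.smul_mul,
    Matrix.mul_assoc, Matrix.mul_assoc, J2_mul_invH]
  simp only [Matrix.mul_assoc]

end Cfsg.Agent.Lib.Helper99.U4
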