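import Mathlib
import Cfsg.Prelude.Def_Classical
import Cfsg.Agent.Lib.Helper99.IsoModel
import Cfsg.Agent.Lib.Helper99.HypExt
import Cfsg.Agent.Lib.Helper99.Klein
import Cfsg.Agent.Lib.Helper99.KleinSurj
import Cfsg.Agent.Lib.Helper99.OM4Model
import Cfsg.Agent.Lib.Helper99.OM4Surj
import Cfsg.Agent.Lib.Helper99.Sp4Surj
import Cfsg.Agent.Lib.Helper99.U4Field
import Cfsg.Agent.Lib.Helper99.U4Model
import Cfsg.Agent.Lib.Helper99.U4Surj

/-!
# The group `SUh`, its action on the 6-dimensional model and the complement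
-/

set_option autoImplicit false
set_option linter.unusedSectionVars false
set_option linter.unnecessarySeqFocus false

namespace Cfsg.Agent.Lib.Helper99.U4

open Cfsg Matrix Cfsg.Agent.Lib.Helper99 Cfsg.Agent.Lib.Helper99.Klein
  Cfsg.Agent.Lib.Helper99.OM4 QuadraticAlgebra
open scoped commutatorElement

variable {F : Type*} [Field F] {a b : F} [Fact (∀ r : F, r ^ 2 ≠ -b + a * r)]
variable [hD : Fact (dsc a b ≠ 0)]

/-- the special unitary group of the hyperbolic Hermitian form -/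
def SUh : Subgroup (Matrix.SpecialLinearGroup (Fin 4) (LL F a b)) where
  carrier := {g | g.1 * Phi * g.1ᴴ = Phi}
  mul_mem' := by
    intro g h hg hh
    exact (isU_mul g.1 h.1 ⟨g.2, hg⟩ ⟨h.2, hh⟩).2
  one_mem' := (isU_one (a := a) (b := b)).2
  inv_mem' := by
    intro g hg
    have hg' : g.1 * Phi * g.1ᴴ = Phi := hg
    have h1 : (g⁻¹).1 * g.1 = 1 := by
      rw [← Matrix.SpecialLinearGroup.coe_mul, inv_mul_cancel, Matrix.SpecialLinearGroup.coe_one]
    have h2 : g.1ᴴ * ((g⁻¹).1)ᴴ = 1 := by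
      rw [← Matrix.conjTranspose_mul, h1, Matrix.conjTranspose_one]
    show (g⁻¹).1 * Phi * ((g⁻¹).1)ᴴ = Phi
    calc (g⁻¹).1 * Phi * ((g⁻¹).1)ᴴ = (g⁻¹).1 * (g.1 * Phi * g.1ᴴ) * ((g⁻¹).1)ᴴ := by rw [hg']
      _ = ((g⁻¹).1 * g.1) * Phi * (g.1ᴴ * ((g⁻¹).1)ᴴ) := by simp only [Matrix.mul_assoc]
      _ = Phi := by rw [h1, h2, Matrix.one_mul, Matrix.mul_one]

theorem isU_coe (g : SUh (a := a) (b := b)) : IsU (g.1.1) := ⟨g.1.2, g.2⟩

theorem exists_suh (M : Matrix (Fin 4) (Fin 4) (LL F a b)) (hM : IsU M) :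
    ∃ g : SUh (a := a) (b := b), g.1.1 = M := ⟨⟨⟨M, hM.1⟩, hM.2⟩, rfl⟩

/-- the action of `SUh` -/
def f6hom : SUh (a := a) (b := b) →* Module.End F (W6 F a b) where
  toFun g := act6 g.1.1
  map_one' := act6_one
  map_mul' g h := act6_mul _ _ (isU_coe h)

/-- the action of `SUh` as a hom to the isometry group of the model -/
def f6 : SUh (a := a) (b := b) →* isoUnits (F := F) (W := W6 F a b) (hypN NN) :=
  liftU _ f6hom (fun g u => hypN_act6 _ (isU_coe g) u)

theorem appHom_f6 (g : SUh (a := a) (b := b)) : appHom (hypN NN) (f6 g) = act6 g.1.1 := rfl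

/-- extension of isometries of the 4-dimensional space -/
def hextUfun (u : isoUnits (F := F) (W := WW F a b) NN) :
    isoUnits (F := F) (W := W6 F a b) (hypN NN) :=
  mkU (F := F) (W := W6 F a b) (hypN NN) (hext (appHom NN u)) (hext (appHom NN u⁻¹))
    (by rw [← hext_mul, ← map_mul, mul_inv_cancel, map_one, hext_one])
    (by rw [← hext_mul, ← map_mul, inv_mul_cancel, map_one, hext_one])
    (hypN_hext NN _ (N_appHom NN u))

theorem appHom_hextUfun (u : isoUnits (F := F) (W := WW F a b) NN) :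
    appHom (F := F) (W := W6 F a b) (hypN NN) (hextUfun u) = hext (appHom NN u) := rfl

/-- extension of isometries of the 4-dimensional space, as a hom -/
def hextU : isoUnits (F := F) (W := WW F a b) NN →*
    isoUnits (F := F) (W := W6 F a b) (hypN NN) where
  toFun := hextUfun
  map_one' := by
    apply appHom_injective
    rw [appHom_hextUfun, map_one, map_one, hext_one]
  map_mul' u v := by
    apply appHom_injective
    rw [appHom_hextUfun, map_mul, map_mul, hext_mul, appHom_hextUfun, appHom_hextUfun]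

theorem appHom_hextU (u : isoUnits (F := F) (W := WW F a b) NN) :
    appHom (F := F) (W := W6 F a b) (hypN NN) (hextU u) = hext (appHom NN u) := rfl

theorem hextU_ff (g₂ : Matrix.SpecialLinearGroup (Fin 2) (LL F a b)) :
    ∃ g : SUh (a := a) (b := b), f6 g = hextU (ff g₂) := by
  obtain ⟨g, hg⟩ := exists_suh _ (isU_bd g₂.1 g₂.2)
  refine ⟨g, ?_⟩
  apply appHom_injective
  rw [appHom_f6, appHom_hextU, appHom_ff, hg]
  refine LinearMap.ext fun u => ?_
  apply iota6_injective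
  rw [iota6_act6 _ (isU_bd g₂.1 g₂.2), act4_bd_iota6 _ g₂.2]

/-! ### the complement -/

/-- `(x, y, w) ↦ (t x, t⁻¹ y, w)` -/
def kd6Lin (t : F) : Module.End F (W6 F a b) where
  toFun w := (t * w.1, t⁻¹ * w.2.1, w.2.2)
  map_add' u v := by
    refine Prod.ext ?_ (Prod.ext ?_ rfl) <;> simp <;> ring
  map_smul' c v := by
    refine Prod.ext ?_ (Prod.ext ?_ rfl) <;> simp <;> ring

theorem kd6Lin_apply (t : F) (w : W6 F a b) : kd6Lin t w = (t * w.1, t⁻¹ * w.2.1, w.2.2) := rfl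

theorem kd6Lin_mul (s t : F) : kd6Lin (a := a) (b := b) s * kd6Lin t = kd6Lin (s * t) := by
  refine LinearMap.ext fun w => ?_
  rw [Module.End.mul_apply, kd6Lin_apply, kd6Lin_apply, kd6Lin_apply]
  refine Prod.ext ?_ (Prod.ext ?_ rfl) <;> simp <;> ring

theorem kd6Lin_one : kd6Lin (a := a) (b := b) 1 = 1 := by
  refine LinearMap.ext fun w => ?_
  rw [kd6Lin_apply]
  simp

theorem hypN_kd6Lin (t : F) (ht : t ≠ 0) (w : W6 F a b) :
    hypN NN (kd6Lin t w) = hypN NN w := by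
  rw [kd6Lin_apply, hypN, hypN]
  simp
  field_simp

/-- the diagonal isometry `(x, y, w) ↦ (t x, t⁻¹ y, w)` -/
def kd6 (t : F) (ht : t ≠ 0) : isoUnits (F := F) (W := W6 F a b) (hypN NN) :=
  mkU _ (kd6Lin t) (kd6Lin t⁻¹) (by rw [kd6Lin_mul, mul_inv_cancel₀ ht, kd6Lin_one])
    (by rw [kd6Lin_mul, inv_mul_cancel₀ ht, kd6Lin_one]) (hypN_kd6Lin t ht)

theorem appHom_kd6 (t : F) (ht : t ≠ 0) :
    appHom (hypN NN) (kd6 (a := a) (b := b) t ht) = kd6Lin t := rfl

/-- conjugation by a diagonal matrix -/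
def cjd (d : Fin 4 → LL F a b) (M : Matrix (Fin 4) (Fin 4) (LL F a b)) :
    Matrix (Fin 4) (Fin 4) (LL F a b) :=
  Matrix.of fun i j => d i * M i j * (d j)⁻¹

theorem diagonal_mul_eq (d : Fin 4 → LL F a b) (hd : ∀ i, d i ≠ 0)
    (M : Matrix (Fin 4) (Fin 4) (LL F a b)) :
    Matrix.diagonal d * M = cjd d M * Matrix.diagonal d := by
  refine Matrix.ext fun i j => ?_
  rw [Matrix.diagonal_mul, Matrix.mul_diagonal, cjd, Matrix.of_apply]
  have := hd j
  field_simp

theorem det_cjd (d : Fin 4 → LL F a b) (hd : ∀ i, d i ≠ 0)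
    (M : Matrix (Fin 4) (Fin 4) (LL F a b)) : (cjd d M).det = M.det := by
  have h := congrArg Matrix.det (diagonal_mul_eq d hd M)
  rw [det_mul, det_mul, mul_comm] at h
  have hd' : (Matrix.diagonal d).det ≠ 0 := by
    rw [Matrix.det_diagonal, Finset.prod_ne_zero_iff]
    intro i _
    exact hd i
  exact (mul_right_cancel₀ hd' h).symm

theorem isU_cjd (d : Fin 4 → LL F a b) (hd : ∀ i, d i ≠ 0) (c : LL F a b) (hc : c ≠ 0)
    (hΦ : Matrix.diagonal d * Phi * (Matrix.diagonal d)ᴴ = c • Phi)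
    (M : Matrix (Fin 4) (Fin 4) (LL F a b)) (hM : IsU M) : IsU (cjd d M) := by
  have h1 : Matrix.diagonal d * M = cjd d M * Matrix.diagonal d := diagonal_mul_eq d hd M
  have h2 : Mᴴ * (Matrix.diagonal d)ᴴ = (Matrix.diagonal d)ᴴ * (cjd d M)ᴴ := by
    have h := congrArg Matrix.conjTranspose h1
    rwa [Matrix.conjTranspose_mul, Matrix.conjTranspose_mul] at h
  have key : c • (cjd d M * Phi * (cjd d M)ᴴ) = c • Phi := by
    calc c • (cjd d M * Phi * (cjd d M)ᴴ)
        = cjd d M * (Matrix.diagonal d * Phi * (Matrix.diagonal d)ᴴ) * (cjd d M)ᴴ := by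
          rw [hΦ, Matrix.mul_smul, Matrix.smul_mul]
      _ = (cjd d M * Matrix.diagonal d) * Phi * ((Matrix.diagonal d)ᴴ * (cjd d M)ᴴ) := by
          simp only [Matrix.mul_assoc]
      _ = (Matrix.diagonal d * M) * Phi * (Mᴴ * (Matrix.diagonal d)ᴴ) := by rw [h1, h2]
      _ = Matrix.diagonal d * (M * Phi * Mᴴ) * (Matrix.diagonal d)ᴴ := by
          simp only [Matrix.mul_assoc]
      _ = c • Phi := by rw [hM.2, hΦ]
  exact ⟨by rw [det_cjd d hd, hM.1], smul_right_injective _ hc key⟩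

theorem act4_diagonal (d : Fin 4 → LL F a b) (k : KW (LL F a b)) :
    act4 (Matrix.diagonal d) k = (d 0 * d 1 * k.1, d 2 * d 3 * k.2.1,
      !![d 0 * d 2 * k.2.2 0 0, d 0 * d 3 * k.2.2 0 1;
         d 1 * d 2 * k.2.2 1 0, d 1 * d 3 * k.2.2 1 1]) := by
  apply kw_ext <;>
    simp only [act4_fst, act4_snd, act4_00, act4_01, act4_10, act4_11, conj_entry] <;>
    simp [Matrix.diagonal]

theorem twist_diag (E : Module.End F (W6 F a b)) (d : Fin 4 → LL F a b) (hd : ∀ i, d i ≠ 0)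
    (c' : LL F a b) (hE : ∀ u, iota6 (E u) = c' • act4 (Matrix.diagonal d) (iota6 u))
    (M : Matrix (Fin 4) (Fin 4) (LL F a b)) (hM : IsU M) (hM' : IsU (cjd d M)) :
    E * act6 M = act6 (cjd d M) * E := by
  refine twist E (fun k => c' • act4 (Matrix.diagonal d) k) hE M _ hM hM' ?_
  intro k
  show c' • act4 (Matrix.diagonal d) (act4 M k) = act4 (cjd d M) (c' • act4 (Matrix.diagonal d) k)
  rw [map_smul, ← Module.End.mul_apply, ← map_mul, diagonal_mul_eq d hd, map_mul,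
    Module.End.mul_apply]

end Cfsg.Agent.Lib.Helper99.U4
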