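import Mathlib
import Cfsg.Prelude.Def_Classical
import Cfsg.Agent.Lib.Helper99.IsoModel
import Cfsg.Agent.Lib.Helper99.OM4Model
import Cfsg.Agent.Lib.Helper99.U4Field
import Cfsg.Agent.Lib.Helper99.U4Model
import Cfsg.Agent.Lib.Helper99.U4Surj
import Cfsg.Agent.Lib.Helper99.U4Gen
import Cfsg.Agent.Lib.Helper7.SUCenter

/-!
# Transport from the standard special unitary group to `SUh`

`SU 4 K q` (for the form `Σ u_i v_i^q`) is isomorphic to the group `SUh` of the hyperbolic
Hermitian form over `L ≅ K`, through an isomorphism of fields and a change of basis.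
-/

set_option autoImplicit false
set_option linter.unusedSectionVars false
set_option linter.unnecessarySeqFocus false

namespace Cfsg.Agent.Lib.Helper99.U4

open Cfsg Matrix Cfsg.Agent.Lib.Helper99 Cfsg.Agent.Lib.Helper99.OM4 QuadraticAlgebra
  Cfsg.Agent.Lib.Helper7

variable {F : Type*} [Field F] {a b : F} [Fact (∀ r : F, r ^ 2 ≠ -b + a * r)]
variable [hD : Fact (dsc a b ≠ 0)]

/-- the change of basis from the standard to the hyperbolic Hermitian form -/
def Pm (μ β : LL F a b) : Matrix (Fin 4) (Fin 4) (LL F a b) :=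
  !![1, μ, 0, 0; 0, 0, 1, μ; β, μ * (β - 1), 0, 0; 0, 0, β, μ * (β - 1)]

theorem Pm_mul_conj (μ β : LL F a b) (hμ : μ * star μ = -1) (hβ : β + star β = 1) :
    Pm μ β * (Pm μ β)ᴴ = Phi := by
  refine Matrix.ext fun i j => ?_
  fin_cases i <;> fin_cases j <;> simp [Pm, Phi, Matrix.mul_apply, Fin.sum_univ_four] <;>
    first
      | linear_combination hμ
      | linear_combination (star β - 1) * hμ
      | linear_combination (β - 1) * hμ
      | linear_combination ((β - 1) * (star β - 1)) * hμ + hβ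

section conj

variable (P : Matrix (Fin 4) (Fin 4) (LL F a b)) (hP : P * Pᴴ = Phi)
include hP

theorem P_mul_P' : P * (Pᴴ * Phi) = 1 := by
  rw [← Matrix.mul_assoc, hP, Phi_mul_Phi]

theorem P'_mul_P : Pᴴ * Phi * P = 1 := mul_eq_one_comm.mp (P_mul_P' P hP)

theorem P'_Phi : (Pᴴ * Phi) * Phi * (Pᴴ * Phi)ᴴ = 1 := by
  rw [Matrix.conjTranspose_mul, Matrix.conjTranspose_conjTranspose, Phi_conjTranspose]
  calc Pᴴ * Phi * Phi * (Phi * P) = Pᴴ * (Phi * Phi) * Phi * P := by simp only [Matrix.mul_assoc]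
    _ = 1 := by rw [Phi_mul_Phi, Matrix.mul_one, P'_mul_P P hP]

end conj

section transport

variable {K : Type*} [Field K] [Fintype K] {q : ℕ}

theorem map_star_map_star (G : Matrix (Fin 4) (Fin 4) (LL F a b)) : (G.map star).map star = G := by
  refine Matrix.ext fun i j => ?_
  simp

theorem one_map_star : (1 : Matrix (Fin 4) (Fin 4) (LL F a b)).map star = 1 :=
  Matrix.map_one _ (star_zero _) (star_one _)

/-- unitarity of the image of an element of `SU₄` over `K` -/
theorem map_unitary (hK : Fintype.card K = q ^ 2) (e : K ≃+* LL F a b)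
    (hst : ∀ z : LL F a b, z ^ q = star z) (g : SU 4 K q) :
    (g.1.1.map e)ᴴ * g.1.1.map e = 1 := by
  have h := (isFr_iff_mul (q := q) (g.1 : Matrix (Fin 4) (Fin 4) K)).mp
    ((mem_SU_iff_isFr hK g.1).mp g.2)
  have h1 : (g.1.1ᵀ * g.1.1.map (· ^ q)).map e = (1 : Matrix (Fin 4) (Fin 4) K).map e := by
    rw [h]
  rw [Matrix.map_mul (f := e), Matrix.map_one _ (map_zero e) (map_one e)] at h1
  have h2 : (g.1.1.map (· ^ q)).map e = (g.1.1.map e).map star := by
    refine Matrix.ext fun i j => ?_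
    simp only [Matrix.map_apply]
    rw [map_pow, hst]
  rw [h2] at h1
  have h3 : ((g.1.1ᵀ).map e * (g.1.1.map e).map star).map star =
      (1 : Matrix (Fin 4) (Fin 4) (LL F a b)).map star := by rw [h1]
  rw [map_star_mul, map_star_map_star, one_map_star] at h3
  exact h3

/-- an element of `SU₄` over `K` from a unitary matrix over `L` -/
theorem exists_su_map (hK : Fintype.card K = q ^ 2) (e : K ≃+* LL F a b)
    (hst : ∀ z : LL F a b, z ^ q = star z) (G : Matrix (Fin 4) (Fin 4) (LL F a b))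
    (hdet : G.det = 1) (hG : Gᴴ * G = 1) : ∃ g : SU 4 K q, g.1.1.map e = G := by
  have hM : (G.map e.symm).map e = G := by
    refine Matrix.ext fun i j => ?_
    simp
  have hdet' : (G.map e.symm).det = 1 := by
    have h := (RingHom.map_det (e.symm : LL F a b →+* K) G).symm
    have h' : (G.map e.symm).det = e.symm G.det := h
    rw [h', hdet, map_one]
  have hfr : IsFr q 4 4 (colFr (G.map e.symm)) := by
    rw [isFr_iff_mul]
    apply Matrix.map_injective e.injective
    show ((G.map e.symm)ᵀ * (G.map e.symm).map (· ^ q)).map e =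
      (1 : Matrix (Fin 4) (Fin 4) K).map e
    rw [Matrix.map_mul (f := e), Matrix.map_one _ (map_zero e) (map_one e)]
    have h2 : ((G.map e.symm).map (· ^ q)).map e = G.map star := by
      refine Matrix.ext fun i j => ?_
      simp only [Matrix.map_apply]
      rw [map_pow, RingEquiv.apply_symm_apply, hst]
    have h1 : ((G.map e.symm)ᵀ).map e = Gᵀ := by
      refine Matrix.ext fun i j => ?_
      simp
    rw [h2, h1]
    have h3 : (Gᴴ * G).map star = (1 : Matrix (Fin 4) (Fin 4) (LL F a b)).map star := by rw [hG]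
    rw [map_star_mul, one_map_star] at h3
    have h4 : Gᴴ.map star = Gᵀ := by
      refine Matrix.ext fun i j => ?_
      simp
    rw [h4] at h3
    exact h3
  exact ⟨suMk hK _ hdet' hfr, hM⟩

variable (hK : Fintype.card K = q ^ 2) (e : K ≃+* LL F a b)
  (hst : ∀ z : LL F a b, z ^ q = star z)
  (P : Matrix (Fin 4) (Fin 4) (LL F a b)) (hP : P * Pᴴ = Phi)
include hK hst hP

theorem isU_conj (g : SU 4 K q) : IsU (P * g.1.1.map e * (Pᴴ * Phi)) := by
  have hG := map_unitary hK e hst g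
  have hG' : g.1.1.map e * (g.1.1.map e)ᴴ = 1 := mul_eq_one_comm.mp hG
  refine ⟨?_, ?_⟩
  · rw [det_mul, det_mul]
    have h1 : P.det * (Pᴴ * Phi).det = 1 := by rw [← det_mul, P_mul_P' P hP, det_one]
    have h2 : (g.1.1.map e).det = 1 := by
      have h := (RingHom.map_det (e : K →+* LL F a b) g.1.1).symm
      have h' : (g.1.1.map e).det = e g.1.1.det := h
      rw [h', g.1.2, map_one]
    rw [h2, mul_one]
    exact h1
  · rw [Matrix.conjTranspose_mul (P * g.1.1.map e) (Pᴴ * Phi),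
      Matrix.conjTranspose_mul P (g.1.1.map e)]
    calc P * g.1.1.map e * (Pᴴ * Phi) * Phi * ((Pᴴ * Phi)ᴴ * ((g.1.1.map e)ᴴ * Pᴴ))
        = P * (g.1.1.map e * ((Pᴴ * Phi) * Phi * (Pᴴ * Phi)ᴴ) * (g.1.1.map e)ᴴ) * Pᴴ := by
          simp only [Matrix.mul_assoc]
      _ = Phi := by rw [P'_Phi P hP, Matrix.mul_one, hG', Matrix.mul_one, hP]

/-- the isomorphism from `SU₄` over `K` to `SUh`, as a hom -/
def tau : SU 4 K q →* SUh (a := a) (b := b) where
  toFun g := ⟨⟨P * g.1.1.map e * (Pᴴ * Phi), (isU_conj hK e hst P hP g).1⟩,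
    (isU_conj hK e hst P hP g).2⟩
  map_one' := by
    apply Subtype.ext
    apply Subtype.ext
    show P * (1 : Matrix (Fin 4) (Fin 4) K).map e * (Pᴴ * Phi) = 1
    rw [Matrix.map_one _ (map_zero e) (map_one e), Matrix.mul_one, P_mul_P' P hP]
  map_mul' g h := by
    apply Subtype.ext
    apply Subtype.ext
    show P * (g.1.1 * h.1.1).map e * (Pᴴ * Phi) =
      (P * g.1.1.map e * (Pᴴ * Phi)) * (P * h.1.1.map e * (Pᴴ * Phi))
    rw [Matrix.map_mul (f := e)]
    calc P * (g.1.1.map e * h.1.1.map e) * (Pᴴ * Phi)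
        = P * g.1.1.map e * 1 * (h.1.1.map e * (Pᴴ * Phi)) := by
          rw [Matrix.mul_one]
          simp only [Matrix.mul_assoc]
      _ = P * g.1.1.map e * (Pᴴ * Phi * P) * (h.1.1.map e * (Pᴴ * Phi)) := by
          rw [P'_mul_P P hP]
      _ = _ := by simp only [Matrix.mul_assoc]

theorem tau_coe (g : SU 4 K q) :
    (tau hK e hst P hP g).1.1 = P * g.1.1.map e * (Pᴴ * Phi) := rfl

theorem tau_injective : Function.Injective (tau hK e hst P hP) := by
  intro g g' h
  have h1 : P * g.1.1.map e * (Pᴴ * Phi) = P * g'.1.1.map e * (Pᴴ * Phi) := by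
    rw [← tau_coe hK e hst P hP, ← tau_coe hK e hst P hP, h]
  have h2 : ∀ G : Matrix (Fin 4) (Fin 4) (LL F a b),
      (Pᴴ * Phi) * (P * G * (Pᴴ * Phi)) * P = G := by
    intro G
    calc (Pᴴ * Phi) * (P * G * (Pᴴ * Phi)) * P = (Pᴴ * Phi * P) * G * (Pᴴ * Phi * P) := by
          simp only [Matrix.mul_assoc]
      _ = G := by rw [P'_mul_P P hP, Matrix.one_mul, Matrix.mul_one]
  have h3 : g.1.1.map e = g'.1.1.map e := by rw [← h2 (g.1.1.map e), h1, h2]
  apply Subtype.ext
  apply Subtype.ext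
  exact Matrix.map_injective e.injective h3

theorem tau_surjective : Function.Surjective (tau hK e hst P hP) := by
  intro h
  have hU := isU_coe h
  have hdet : ((Pᴴ * Phi) * h.1.1 * P).det = 1 := by
    rw [det_mul, det_mul, hU.1, mul_one, ← det_mul, P'_mul_P P hP, det_one]
  have hG' : ((Pᴴ * Phi) * h.1.1 * P) * ((Pᴴ * Phi) * h.1.1 * P)ᴴ = 1 := by
    rw [Matrix.conjTranspose_mul ((Pᴴ * Phi) * h.1.1) P,
      Matrix.conjTranspose_mul (Pᴴ * Phi) h.1.1]
    calc (Pᴴ * Phi) * h.1.1 * P * (Pᴴ * (h.1.1ᴴ * (Pᴴ * Phi)ᴴ))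
        = (Pᴴ * Phi) * (h.1.1 * (P * Pᴴ) * h.1.1ᴴ) * (Pᴴ * Phi)ᴴ := by
          simp only [Matrix.mul_assoc]
      _ = 1 := by rw [hP, hU.2, P'_Phi P hP]
  obtain ⟨g, hg⟩ := exists_su_map hK e hst _ hdet (mul_eq_one_comm.mp hG')
  refine ⟨g, ?_⟩
  apply Subtype.ext
  apply Subtype.ext
  rw [tau_coe, hg]
  calc P * ((Pᴴ * Phi) * h.1.1 * P) * (Pᴴ * Phi)
      = (P * (Pᴴ * Phi)) * h.1.1 * (P * (Pᴴ * Phi)) := by simp only [Matrix.mul_assoc]
    _ = h.1.1 := by rw [P_mul_P' P hP, Matrix.one_mul, Matrix.mul_one]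

end transport

end Cfsg.Agent.Lib.Helper99.U4
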