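import Mathlib
import Cfsg.Prelude.Def_Classical
import Cfsg.Agent.Lib.Helper99.IsoModel
import Cfsg.Agent.Lib.Helper99.OM4Model
import Cfsg.Agent.Lib.Helper99.U4Field
import Cfsg.Agent.Lib.Helper99.U4Model
import Cfsg.Agent.Lib.Helper99.U4Surj
import Cfsg.Agent.Lib.Helper99.U4Gen
import Cfsg.Agent.Lib.Helper99.U4Trans
import Cfsg.Agent.Lib.Helper7.SUCenter

/-!
# The centre of `PSU₄` is trivial, and the kernel of the action on the 6-dimensional model
-/

set_option autoImplicit false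
set_option linter.unusedSectionVars false
set_option linter.unnecessarySeqFocus false

namespace Cfsg.Agent.Lib.Helper99.U4

open Cfsg Matrix Cfsg.Agent.Lib.Helper99 Cfsg.Agent.Lib.Helper99.Klein
  Cfsg.Agent.Lib.Helper99.OM4 QuadraticAlgebra Cfsg.Agent.Lib.Helper7
open scoped commutatorElement

theorem act4_neg_eq {R : Type*} [Field R] (M : Matrix (Fin 4) (Fin 4) R) :
    act4 (-M) = act4 M := by
  refine LinearMap.ext fun w => ?_
  rw [act4_apply, act4_apply, Matrix.transpose_neg, Matrix.neg_mul, Matrix.neg_mul,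
    Matrix.mul_neg, neg_neg]

/-- if `⁅g, h⁆` is central and `h ^ n = 1` then `⁅g, h⁆ ^ n = 1` -/
theorem comm_pow_eq_one {G : Type*} [Group G] (g h : G) (hc : ⁅g, h⁆ ∈ Subgroup.center G) (n : ℕ)
    (hn : h ^ n = 1) : ⁅g, h⁆ ^ n = 1 := by
  have h1 : g * h * g⁻¹ = ⁅g, h⁆ * h := by rw [commutatorElement_def]; group
  have h2 : (g * h * g⁻¹) ^ n = 1 := by rw [conj_pow, hn, mul_one, mul_inv_cancel]
  have h3 : Commute ⁅g, h⁆ h := (Subgroup.mem_center_iff.mp hc h).symm
  rw [h1, h3.mul_pow, hn, mul_one] at h2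
  exact h2

variable {F : Type*} [Field F] {a b : F} [Fact (∀ r : F, r ^ 2 ≠ -b + a * r)]
variable [hD : Fact (dsc a b ≠ 0)]

theorem act6_neg_one : act6 (-1 : Matrix (Fin 4) (Fin 4) (LL F a b)) = 1 := by
  rw [← act6_one]
  refine LinearMap.ext fun u => ?_
  rw [act6_apply, act6_apply, act4_neg_eq]

theorem exists_norm_neg_one [Fintype (LL F a b)] {q : ℕ}
    (hL : Fintype.card (LL F a b) = q ^ 2) (hst : ∀ z : LL F a b, z ^ q = star z) :
    ∃ μ : LL F a b, μ * star μ = -1 := by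
  obtain ⟨t, -, ht⟩ := herm_norm_surj hL (-1 : LL F a b) (neg_ne_zero.mpr one_ne_zero)
    (by rw [hst, star_neg, star_one])
  exact ⟨t, by rw [← hst, ← pow_succ']; exact ht⟩

theorem dl_ne_zero' : (dl : LL F a b) ≠ 0 := by
  intro h
  have h1 := dl_mul_dl (F := F) (a := a) (b := b)
  rw [h, mul_zero] at h1
  have h2 : algebraMap F (LL F a b) (dsc a b) = algebraMap F (LL F a b) 0 := by
    rw [map_zero]; exact h1.symm
  exact hD.out (QuadraticAlgebra.algebraMap_injective (a := -b) (b := a) h2)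

/-- a matrix commuting with four root elements is scalar -/
theorem scalar_of_comm (M : Matrix (Fin 4) (Fin 4) (LL F a b))
    (h1 : M * uQ !![dl, 0; 0, dl] = uQ !![dl, 0; 0, dl] * M)
    (h2 : M * uQ !![dl, 0; 0, 0] = uQ !![dl, 0; 0, 0] * M)
    (h3 : M * uQ !![0, 1; -1, 0] = uQ !![0, 1; -1, 0] * M)
    (h4 : M * (Phi * uQ !![dl, 0; 0, dl] * Phi) = (Phi * uQ !![dl, 0; 0, dl] * Phi) * M) :
    M = M 0 0 • (1 : Matrix (Fin 4) (Fin 4) (LL F a b)) := by
  have hdl : (dl : LL F a b) ≠ 0 := dl_ne_zero'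
  have a00 := congrFun (congrFun h1 0) 0
  have a01 := congrFun (congrFun h1 0) 1
  have a10 := congrFun (congrFun h1 1) 0
  have a11 := congrFun (congrFun h1 1) 1
  have a02 := congrFun (congrFun h1 0) 2
  have a03 := congrFun (congrFun h1 0) 3
  have a12 := congrFun (congrFun h1 1) 2
  have a13 := congrFun (congrFun h1 1) 3
  have b12 := congrFun (congrFun h2 1) 2
  have b03 := congrFun (congrFun h2 0) 3
  have c03 := congrFun (congrFun h3 0) 3
  have d00 := congrFun (congrFun h4 0) 0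
  have d01 := congrFun (congrFun h4 0) 1
  have d10 := congrFun (congrFun h4 1) 0
  have d11 := congrFun (congrFun h4 1) 1
  simp [uQ, Matrix.mul_apply, Fin.sum_univ_four, hdl] at a00 a01 a10 a11 a02 a03 a12 a13 b12 b03 c03
  simp [uQ, Phi, Matrix.mul_apply, Fin.sum_univ_four, hdl] at d00 d01 d10 d11
  have e22 : M 2 2 = M 0 0 := mul_left_cancel₀ hdl (by linear_combination -a02)
  have e01 : M 0 1 = 0 := by
    have : dl * M 0 1 = dl * 0 := by rw [b03] at a03; linear_combination a03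
    exact mul_left_cancel₀ hdl this
  have e32 : M 3 2 = 0 := by
    have : dl * M 3 2 = dl * 0 := by rw [b12] at a12; linear_combination -a12
    exact mul_left_cancel₀ hdl this
  have e33 : M 3 3 = M 0 0 := by linear_combination -c03
  have e11 : M 1 1 = M 0 0 := by
    have : dl * M 1 1 = dl * M 0 0 := by rw [e33] at a13; linear_combination a13
    exact mul_left_cancel₀ hdl this
  refine Matrix.ext fun i j => ?_
  fin_cases i <;> fin_cases j <;>
    simp [a00, a01, a10, a11, b12, b03, d00, d01, d10, d11, e22, e01, e32, e33, e11]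

theorem conj_Phi_pow (A : Matrix (Fin 4) (Fin 4) (LL F a b)) (n : ℕ) :
    (Phi * A * Phi) ^ n = Phi * A ^ n * Phi := by
  induction n with
  | zero => rw [pow_zero, pow_zero, Matrix.mul_one, Phi_mul_Phi]
  | succ n ih =>
    rw [pow_succ, ih, pow_succ]
    calc Phi * A ^ n * Phi * (Phi * A * Phi) = Phi * A ^ n * (Phi * Phi) * A * Phi := by
          simp only [Matrix.mul_assoc]
      _ = Phi * (A ^ n * A) * Phi := by
          rw [Phi_mul_Phi, Matrix.mul_one]
          simp only [Matrix.mul_assoc]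

theorem skew1 : (!![dl, 0; 0, dl] : Matrix (Fin 2) (Fin 2) (LL F a b))ᴴ = -!![dl, 0; 0, dl] := by
  refine Matrix.ext fun i j => ?_
  fin_cases i <;> fin_cases j <;> simp [star_dl]

theorem skew2 : (!![dl, 0; 0, 0] : Matrix (Fin 2) (Fin 2) (LL F a b))ᴴ = -!![dl, 0; 0, 0] := by
  refine Matrix.ext fun i j => ?_
  fin_cases i <;> fin_cases j <;> simp [star_dl]

theorem skew3 : (!![0, 1; -1, 0] : Matrix (Fin 2) (Fin 2) (LL F a b))ᴴ = -!![0, 1; -1, 0] := by
  refine Matrix.ext fun i j => ?_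
  fin_cases i <;> fin_cases j <;> simp

section center

variable {K : Type*} [Field K] [Fintype K] {q : ℕ}

theorem comm_eq_one_of_pow (hK : Fintype.card K = q ^ 2) (g h : SU 4 K q)
    (hc : ⁅g, h⁆ ∈ Subgroup.center (SU 4 K q)) (hn : h ^ ringChar K = 1) : ⁅g, h⁆ = 1 := by
  have h1 := comm_pow_eq_one g h hc _ hn
  have h2 : ⁅g, h⁆ ^ Nat.gcd 4 (q + 1) = 1 := by
    rw [← card_center_SU hK 4 (by norm_num)]
    have h := pow_card_eq_one' (G := Subgroup.center (SU 4 K q)) (x := ⟨⁅g, h⁆, hc⟩)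
    exact congrArg Subtype.val h
  have h3 := pow_gcd_eq_one.mpr ⟨h1, h2⟩
  have hcop : Nat.gcd (ringChar K) (Nat.gcd 4 (q + 1)) = 1 := by
    have hp : (ringChar K).Prime := CharP.char_is_prime K (ringChar K)
    obtain ⟨j, hj⟩ := herm_exists_pow hK
    have hq := herm_two_le hK
    have hj0 : j ≠ 0 := by
      rintro rfl
      rw [pow_zero] at hj
      omega
    have hpq : ringChar K ∣ q := by
      rw [hj]
      exact dvd_pow_self _ hj0
    have h4 : Nat.Coprime q (q + 1) := by simp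
    have h5 : Nat.Coprime (ringChar K) (q + 1) := Nat.Coprime.coprime_dvd_left hpq h4
    exact Nat.Coprime.coprime_dvd_right (Nat.gcd_dvd_right 4 (q + 1)) h5
  rw [hcop, pow_one] at h3
  exact h3

variable (hK : Fintype.card K = q ^ 2) (e : K ≃+* LL F a b)
  (hst : ∀ z : LL F a b, z ^ q = star z)
  (P : Matrix (Fin 4) (Fin 4) (LL F a b)) (hP : P * Pᴴ = Phi)
include hK e hst hP

theorem comm_root (g : SU 4 K q) (hcomm : ∀ h : SU 4 K q, ⁅g, h⁆ ∈ Subgroup.center (SU 4 K q))
    (R : Matrix (Fin 4) (Fin 4) (LL F a b)) (hR : IsU R) (hRp : R ^ ringChar K = 1) :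
    (tau hK e hst P hP g).1.1 * R = R * (tau hK e hst P hP g).1.1 := by
  obtain ⟨r, hr⟩ := exists_suh R hR
  obtain ⟨h, hh⟩ := tau_surjective hK e hst P hP r
  have hrp : r ^ ringChar K = 1 := by
    apply Subtype.ext
    apply Subtype.ext
    rw [Subgroup.coe_pow, Matrix.SpecialLinearGroup.coe_pow, hr, hRp]
    rfl
  have hhp : h ^ ringChar K = 1 := by
    apply tau_injective hK e hst P hP
    rw [map_pow, hh, hrp, map_one]
  have h1 := comm_eq_one_of_pow hK g h (hcomm h) hhp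
  rw [commutatorElement_eq_one_iff_commute] at h1
  have h2 : tau hK e hst P hP g * r = r * tau hK e hst P hP g := by
    rw [← hh, ← map_mul, ← map_mul, h1.eq]
  have h3 := congrArg (fun s : SUh (a := a) (b := b) => s.1.1) h2
  simp only [Subgroup.coe_mul, Matrix.SpecialLinearGroup.coe_mul, hr] at h3
  exact h3

/-- the centre of `PSU₄` is trivial -/
theorem center_psu_trivial (x : PSU 4 K q) (hx : x ∈ Subgroup.center (PSU 4 K q)) : x = 1 := by
  obtain ⟨g, rfl⟩ := QuotientGroup.mk_surjective x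
  rw [QuotientGroup.eq_one_iff]
  have hcomm : ∀ h : SU 4 K q, ⁅g, h⁆ ∈ Subgroup.center (SU 4 K q) := by
    intro h
    rw [← QuotientGroup.eq_one_iff]
    have h1 : ((⁅g, h⁆ : SU 4 K q) : PSU 4 K q) = ⁅(g : PSU 4 K q), (h : PSU 4 K q)⁆ :=
      map_commutatorElement (QuotientGroup.mk' _) g h
    rw [h1, commutatorElement_eq_one_iff_commute]
    exact (Subgroup.mem_center_iff.mp hx _).symm
  have hp0 : ((ringChar K : ℕ) : LL F a b) = 0 := by
    rw [← map_natCast e, CharP.cast_eq_zero K (ringChar K), map_zero]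
  have hpQ : ∀ Q : Matrix (Fin 2) (Fin 2) (LL F a b), uQ Q ^ ringChar K = 1 := by
    intro Q
    rw [uQ_pow, ← Nat.cast_smul_eq_nsmul (LL F a b), hp0, zero_smul, uQ_zero]
  have c1 := comm_root hK e hst P hP g hcomm _ (isU_uQ _ skew1) (hpQ _)
  have c2 := comm_root hK e hst P hP g hcomm _ (isU_uQ _ skew2) (hpQ _)
  have c3 := comm_root hK e hst P hP g hcomm _ (isU_uQ _ skew3) (hpQ _)
  have c4 := comm_root hK e hst P hP g hcomm (Phi * uQ !![dl, 0; 0, dl] * Phi)
    (isU_mul _ _ (isU_mul _ _ isU_Phi (isU_uQ _ skew1)) isU_Phi)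
    (by rw [conj_Phi_pow, hpQ, Matrix.mul_one, Phi_mul_Phi])
  have hsc := scalar_of_comm _ c1 c2 c3 c4
  rw [Subgroup.mem_center_iff]
  intro h
  apply tau_injective hK e hst P hP
  rw [map_mul, map_mul]
  apply Subtype.ext
  apply Subtype.ext
  rw [Subgroup.coe_mul, Subgroup.coe_mul, Matrix.SpecialLinearGroup.coe_mul,
    Matrix.SpecialLinearGroup.coe_mul, hsc, Matrix.smul_mul, Matrix.mul_smul, Matrix.one_mul,
    Matrix.mul_one]

end center

end Cfsg.Agent.Lib.Helper99.U4
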