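import Mathlib
import Cfsg.Prelude.Def_Classical
import Cfsg.Agent.Lib.Helper99.IsoModel
import Cfsg.Agent.Lib.Helper99.HypExt
import Cfsg.Agent.Lib.Helper99.Klein
import Cfsg.Agent.Lib.Helper99.KleinSurj
import Cfsg.Agent.Lib.Helper99.OM4Model
import Cfsg.Agent.Lib.Helper99.OM4Surj
import Cfsg.Agent.Lib.Helper99.Sp4Surj
import Cfsg.Agent.Lib.Helper99.U4Field
import Cfsg.Agent.Lib.Helper99.U4Model
import Cfsg.Agent.Lib.Helper99.U4Surj
import Cfsg.Agent.Lib.Helper99.U4Gen

/-!
# The complement of the image of `SUh` in the isometry group of the 6-dimensional model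
-/

set_option autoImplicit false
set_option linter.unusedSectionVars false
set_option linter.unnecessarySeqFocus false

namespace Cfsg.Agent.Lib.Helper99.U4

open Cfsg Matrix Cfsg.Agent.Lib.Helper99 Cfsg.Agent.Lib.Helper99.Klein
  Cfsg.Agent.Lib.Helper99.OM4 QuadraticAlgebra
open scoped commutatorElement

variable {F : Type*} [Field F] {a b : F} [Fact (∀ r : F, r ^ 2 ≠ -b + a * r)]
variable [hD : Fact (dsc a b ≠ 0)]

/-- the diagonal inducing `kd6 t` -/
def d1 (t : F) : Fin 4 → LL F a b :=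
  ![algebraMap F (LL F a b) t, algebraMap F (LL F a b) t, 1, 1]

/-- the diagonal inducing the extension of `dd s` -/
def d2 (s : F) : Fin 4 → LL F a b :=
  ![algebraMap F (LL F a b) s, 1, 1, algebraMap F (LL F a b) s]

/-- the diagonal inducing the extension of `rho l` -/
def d3 (l : LL F a b) : Fin 4 → LL F a b := ![l, 1, l, 1]

/-- the diagonal which, with the conjugation, induces the extension of `sig` -/
def d4 : Fin 4 → LL F a b := ![-1, -1, 1, 1]

theorem d1_ne (t : F) (ht : t ≠ 0) (i : Fin 4) : d1 (a := a) (b := b) t i ≠ 0 := by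
  fin_cases i <;> simp [d1, ht]

theorem d2_ne (s : F) (hs : s ≠ 0) (i : Fin 4) : d2 (a := a) (b := b) s i ≠ 0 := by
  fin_cases i <;> simp [d2, hs]

theorem d3_ne (l : LL F a b) (hl : l ≠ 0) (i : Fin 4) : d3 l i ≠ 0 := by
  fin_cases i <;> simp [d3, hl]

theorem d4_ne (i : Fin 4) : d4 (a := a) (b := b) i ≠ 0 := by
  fin_cases i <;> simp [d4]

theorem d1_Phi (t : F) : Matrix.diagonal (d1 (a := a) (b := b) t) * Phi *
    (Matrix.diagonal (d1 (a := a) (b := b) t))ᴴ = algebraMap F (LL F a b) t • Phi := by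
  refine Matrix.ext fun i j => ?_
  fin_cases i <;> fin_cases j <;>
    simp [d1, Phi, Matrix.mul_apply, Fin.sum_univ_four, Matrix.diagonal, star_algebraMap']

theorem d2_Phi (s : F) : Matrix.diagonal (d2 (a := a) (b := b) s) * Phi *
    (Matrix.diagonal (d2 (a := a) (b := b) s))ᴴ = algebraMap F (LL F a b) s • Phi := by
  refine Matrix.ext fun i j => ?_
  fin_cases i <;> fin_cases j <;>
    simp [d2, Phi, Matrix.mul_apply, Fin.sum_univ_four, Matrix.diagonal, star_algebraMap']

theorem d3_Phi (l : LL F a b) (hl : l * star l = 1) : Matrix.diagonal (d3 l) * Phi *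
    (Matrix.diagonal (d3 l))ᴴ = (1 : LL F a b) • Phi := by
  refine Matrix.ext fun i j => ?_
  fin_cases i <;> fin_cases j <;>
    simp [d3, Phi, Matrix.mul_apply, Fin.sum_univ_four, Matrix.diagonal, hl]

theorem d4_Phi : Matrix.diagonal (d4 (a := a) (b := b)) * Phi *
    (Matrix.diagonal (d4 (a := a) (b := b)))ᴴ = (-1 : LL F a b) • Phi := by
  refine Matrix.ext fun i j => ?_
  fin_cases i <;> fin_cases j <;>
    simp [d4, Phi, Matrix.mul_apply, Fin.sum_univ_four, Matrix.diagonal]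

theorem iota6_kd6Lin (t : F) (ht : t ≠ 0) (u : W6 F a b) : iota6 (kd6Lin t u) =
    algebraMap F (LL F a b) t⁻¹ • act4 (Matrix.diagonal (d1 t)) (iota6 u) := by
  have hC : algebraMap F (LL F a b) t ≠ 0 := by simpa using ht
  rw [act4_diagonal, kd6Lin_apply, iota6_apply, iota6_apply]
  apply kw_ext <;> simp [d1] <;> field_simp

theorem iota6_hext_ddLin (s : F) (hs : s ≠ 0) (u : W6 F a b) : iota6 (hext (ddLin s) u) =
    algebraMap F (LL F a b) s⁻¹ • act4 (Matrix.diagonal (d2 s)) (iota6 u) := by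
  have hC : algebraMap F (LL F a b) s ≠ 0 := by simpa using hs
  rw [act4_diagonal, hext_apply, ddLin_apply, iota6_apply, iota6_apply]
  apply kw_ext <;> simp [d2] <;> field_simp

theorem iota6_hext_rhoLin (l : LL F a b) (hl : l * star l = 1) (u : W6 F a b) :
    iota6 (hext (rhoLin l) u) = star l • act4 (Matrix.diagonal (d3 l)) (iota6 u) := by
  rw [act4_diagonal, hext_apply, rhoLin_apply, iota6_apply, iota6_apply]
  apply kw_ext <;> simp [d3]
  · linear_combination (-(algebraMap F (LL F a b) u.1)) * hl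
  · linear_combination (-(algebraMap F (LL F a b) (dsc a b) * algebraMap F (LL F a b) u.2.1)) * hl
  · linear_combination (-(dl * l * u.2.2.2.2)) * hl
  · linear_combination (-(dl * algebraMap F (LL F a b) u.2.2.1)) * hl
  · linear_combination (-(dl * algebraMap F (LL F a b) u.2.2.2.1)) * hl
  · ring

theorem iota6_hext_sigLin (u : W6 F a b) :
    iota6 (hext sigLin u) = cc (act4 (Matrix.diagonal d4) (iota6 u)) := by
  rw [act4_diagonal, hext_apply, sigLin_apply, iota6_apply, iota6_apply, cc]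
  apply kw_ext <;> simp [d4, star_dl, star_algebraMap']

theorem exists_twist_diag (E : Module.End F (W6 F a b)) (d : Fin 4 → LL F a b)
    (hd : ∀ i, d i ≠ 0) (c : LL F a b) (hc : c ≠ 0)
    (hΦ : Matrix.diagonal d * Phi * (Matrix.diagonal d)ᴴ = c • Phi) (c' : LL F a b)
    (hE : ∀ u, iota6 (E u) = c' • act4 (Matrix.diagonal d) (iota6 u))
    (g : SUh (a := a) (b := b)) :
    ∃ g' : SUh (a := a) (b := b), E * act6 g.1.1 = act6 g'.1.1 * E := by
  have hM' := isU_cjd d hd c hc hΦ g.1.1 (isU_coe g)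
  obtain ⟨g', hg'⟩ := exists_suh _ hM'
  refine ⟨g', ?_⟩
  rw [hg']
  exact twist_diag E d hd c' hE _ (isU_coe g) hM'

/-- the semilinear map inducing the extension of `sig` -/
def psiSig (k : KW (LL F a b)) : KW (LL F a b) := cc (act4 (Matrix.diagonal d4) k)

theorem psiSig_act4 (M : Matrix (Fin 4) (Fin 4) (LL F a b)) (k : KW (LL F a b)) :
    psiSig (act4 M k) = act4 ((cjd d4 M).map star) (psiSig k) := by
  unfold psiSig
  rw [← Module.End.mul_apply, ← map_mul, diagonal_mul_eq d4 d4_ne, map_mul,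
    Module.End.mul_apply, cc_act4]

theorem exists_twist_sig (g : SUh (a := a) (b := b)) :
    ∃ g' : SUh (a := a) (b := b), hext (sigLin (a := a) (b := b)) * act6 g.1.1 =
      act6 g'.1.1 * hext (sigLin (a := a) (b := b)) := by
  have hM' : IsU ((cjd d4 g.1.1).map star) :=
    isU_map_star _ (isU_cjd d4 d4_ne (-1) (neg_ne_zero.mpr one_ne_zero) d4_Phi g.1.1 (isU_coe g))
  obtain ⟨g', hg'⟩ := exists_suh _ hM'
  refine ⟨g', ?_⟩
  rw [hg']
  exact twist (hext (sigLin (a := a) (b := b))) psiSig iota6_hext_sigLin g.1.1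
    ((cjd d4 g.1.1).map star) (isU_coe g) hM' (psiSig_act4 g.1.1)

/-! ### the group level -/

/-- the generators of the complement -/
def S6 : Set (isoUnits (F := F) (W := W6 F a b) (hypN NN)) :=
  {k | (∃ (t : F) (ht : t ≠ 0), k = kd6 t ht) ∨ ∃ s ∈ SS (a := a) (b := b), k = hextU s}

theorem S6_inv (k : isoUnits (F := F) (W := W6 F a b) (hypN NN)) (hk : k ∈ S6) : k⁻¹ ∈ S6 := by
  rcases hk with ⟨t, ht, rfl⟩ | ⟨s, hs, rfl⟩
  · refine Or.inl ⟨t⁻¹, inv_ne_zero ht, ?_⟩
    rw [inv_eq_iff_mul_eq_one]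
    apply appHom_injective
    rw [map_mul, appHom_kd6, appHom_kd6, kd6Lin_mul, mul_inv_cancel₀ ht, kd6Lin_one, map_one]
  · exact Or.inr ⟨s⁻¹, SS_inv s hs, (map_inv hextU s).symm⟩

theorem S6_mul_f6 (k : isoUnits (F := F) (W := W6 F a b) (hypN NN)) (hk : k ∈ S6)
    (g : SUh (a := a) (b := b)) : ∃ g', k * f6 g = f6 g' * k := by
  rcases hk with ⟨t, ht, rfl⟩ | ⟨s, hs, rfl⟩
  · obtain ⟨g', h⟩ := exists_twist_diag (kd6Lin t) (d1 t) (d1_ne t ht) _
      (by simpa using ht) (d1_Phi t) _ (iota6_kd6Lin t ht) g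
    refine ⟨g', ?_⟩
    apply appHom_injective
    rw [map_mul, map_mul]
    exact h
  · rcases hs with ⟨t, ht, rfl⟩ | ⟨l, hl, rfl⟩ | rfl
    · obtain ⟨g', h⟩ := exists_twist_diag (hext (ddLin t)) (d2 t) (d2_ne t ht) _
        (by simpa using ht) (d2_Phi t) _ (iota6_hext_ddLin t ht) g
      refine ⟨g', ?_⟩
      apply appHom_injective
      rw [map_mul, map_mul]
      exact h
    · have hl' := mul_star_of_norm l hl
      have hl0 : l ≠ 0 := by
        intro h0
        rw [h0, zero_mul] at hl'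
        exact zero_ne_one hl'
      obtain ⟨g', h⟩ := exists_twist_diag (hext (rhoLin l)) (d3 l) (d3_ne l hl0) _
        one_ne_zero (d3_Phi l hl') _ (iota6_hext_rhoLin l hl') g
      refine ⟨g', ?_⟩
      apply appHom_injective
      rw [map_mul, map_mul]
      exact h
    · obtain ⟨g', h⟩ := exists_twist_sig g
      refine ⟨g', ?_⟩
      apply appHom_injective
      rw [map_mul, map_mul]
      exact h

theorem S6_conj (k : isoUnits (F := F) (W := W6 F a b) (hypN NN)) (hk : k ∈ S6)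
    (n : isoUnits (F := F) (W := W6 F a b) (hypN NN)) (hn : n ∈ (f6 (a := a) (b := b)).range) :
    k * n * k⁻¹ ∈ (f6 (a := a) (b := b)).range ∧ k⁻¹ * n * k ∈ (f6 (a := a) (b := b)).range := by
  obtain ⟨g, rfl⟩ := hn
  constructor
  · obtain ⟨g', hg'⟩ := S6_mul_f6 k hk g
    exact ⟨g', by rw [hg']; group⟩
  · obtain ⟨g', hg'⟩ := S6_mul_f6 k⁻¹ (S6_inv k hk) g
    refine ⟨g', ?_⟩
    have : k⁻¹ * f6 g * k = k⁻¹ * f6 g * k⁻¹⁻¹ := by rw [inv_inv]
    rw [this, hg']; group

theorem S6_comm (x : isoUnits (F := F) (W := W6 F a b) (hypN NN)) (hx : x ∈ S6)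
    (y : isoUnits (F := F) (W := W6 F a b) (hypN NN)) (hy : y ∈ S6) :
    ⁅x, y⁆ ∈ (f6 (a := a) (b := b)).range := by
  have hc : ∀ x y : isoUnits (F := F) (W := W6 F a b) (hypN NN), x * y = y * x →
      ⁅x, y⁆ ∈ (f6 (a := a) (b := b)).range := by
    intro x y h
    have : Commute x y := h
    rw [commutatorElement_eq_one_iff_commute.mpr this]
    exact Subgroup.one_mem _
  rcases hx with ⟨t, ht, rfl⟩ | ⟨s, hs, rfl⟩ <;> rcases hy with ⟨t', ht', rfl⟩ | ⟨s', hs', rfl⟩
  · apply hc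
    apply appHom_injective
    rw [map_mul, map_mul, appHom_kd6, appHom_kd6, kd6Lin_mul, kd6Lin_mul, mul_comm]
  · apply hc
    apply appHom_injective
    rw [map_mul, map_mul]
    rfl
  · apply hc
    apply appHom_injective
    rw [map_mul, map_mul]
    rfl
  · rw [← map_commutatorElement]
    obtain ⟨g₂, hg₂⟩ := SS_comm s hs s' hs'
    rw [← hg₂]
    obtain ⟨g, hg⟩ := hextU_ff g₂
    exact ⟨g, hg⟩

end Cfsg.Agent.Lib.Helper99.U4
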