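import Mathlib
import Cfsg.Prelude.Def_Classical
import Cfsg.Agent.Lib.Helper7.POmegaOrder
import Cfsg.Agent.Lib.Helper7.SUOrder
import Cfsg.Agent.Lib.Helper7.SUCenter

/-!
# Counting: the orders of `SU₄(q)` and of `Ω⁻₆(q)`
-/

set_option autoImplicit false
set_option linter.unusedSectionVars false
set_option linter.unnecessarySeqFocus false

namespace Cfsg.Agent.Lib.Helper99.U4

open Cfsg Cfsg.Agent.Lib.Helper7 Cfsg.Agent.Lib.Helper51

/-- counting: a hom whose image contains `C`, with `|A| = d |C|` and with a subgroup `Z` of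
order at least `d` in the kernel, has image `C` and kernel `Z` -/
theorem range_eq_of_card {A B : Type*} [Group A] [Group B] [Finite A] (f : A →* B)
    (C : Subgroup B) (hC : C ≤ f.range) (d : ℕ) (hcard : Nat.card A = d * Nat.card C)
    (Z : Subgroup A) (hZ : Z ≤ f.ker) (hd : d ≤ Nat.card Z) : f.range = C ∧ f.ker = Z := by
  have hfin : Finite f.range := Set.finite_range f
  have e1 : Nat.card A = Nat.card f.ker * Nat.card f.range := by
    rw [Subgroup.card_eq_card_quotient_mul_card_subgroup f.ker,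
      Nat.card_congr (QuotientGroup.quotientKerEquivRange f).toEquiv, mul_comm]
  have e2 : Nat.card C ≤ Nat.card f.range := Subgroup.card_le_of_le hC
  have e3 : Nat.card Z ≤ Nat.card f.ker := Subgroup.card_le_of_le hZ
  have hr : Nat.card f.range ≤ Nat.card C := by
    by_contra hlt'
    have hlt : Nat.card C < Nat.card f.range := lt_of_not_ge hlt'
    have h1 := Nat.mul_le_mul_right (Nat.card C) (le_trans hd e3)
    have h2 := Nat.mul_le_mul_left (Nat.card f.ker) (Nat.succ_le_of_lt hlt)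
    have h3 : 0 < Nat.card f.ker := Nat.card_pos
    nlinarith
  have hrange : f.range = C := (Subgroup.eq_of_le_of_card_ge hC hr).symm
  refine ⟨hrange, ?_⟩
  have hfinC : Finite C := by rw [← hrange]; exact hfin
  have e5 : 0 < Nat.card C := Nat.card_pos
  have hk : Nat.card f.ker ≤ Nat.card Z := by
    have h4 : Nat.card f.ker * Nat.card C = d * Nat.card C := by
      rw [← hcard, e1, le_antisymm hr e2]
    have h5 := Nat.eq_of_mul_eq_mul_right e5 h4
    omega
  exact (Subgroup.eq_of_le_of_card_ge hZ hk).symm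

open Classical in
theorem card_minus6 {F : Type*} [Field F] [Fintype F] {q : ℕ} (hF : Fintype.card F = q)
    (a b : F) (hab : ∀ z₁ z₂ : F, z₁ ^ 2 + a * z₁ * z₂ + b * z₂ ^ 2 = 0 → z₁ = 0 ∧ z₂ = 0) :
    2 * (q ^ 6 * (q ^ 2 - 1) * (q ^ 3 + 1) * (q ^ 4 - 1)) =
      (if (2 : F) = 0 then 2 else 4) *
        Nat.card (commutator (isometryGroup F (quadFormMinus 2 F a b))) := by
  classical
  have hGO := card_GOMinus hF 2 a b hab
  have hnd := QMinus_nondeg (F := F) 2 a b hab
  have hQ := polarBilin_nondegenerate_of (QMinus 2 F a b) hnd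
  have hcard4 : Fintype.card F ≠ 2 ∨ Fintype.card ((Fin 2 ⊕ Fin 2) ⊕ Fin 2) ≠ 4 :=
    Or.inr (by simp)
  have : Nonempty ((Fin 2 ⊕ Fin 2) ⊕ Fin 2) := ⟨Sum.inr 0⟩
  rw [← coe_QMinus] at hGO ⊢
  have hmul := Subgroup.card_mul_index (commutator (isometryGroup F ⇑(QMinus 2 F a b)))
  rw [hGO] at hmul
  have hprod : ∏ i ∈ Finset.range 2, (q ^ (2 * (i + 1)) - 1) = (q ^ 2 - 1) * (q ^ 4 - 1) := by
    simp [Finset.prod_range_succ]
  rw [hprod] at hmul
  by_cases h2 : (2 : F) = 0
  · have hidx := index_commutator_two (QMinus 2 F a b) h2 hQ hcard4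
    rw [hidx] at hmul
    rw [if_pos h2]
    calc 2 * (q ^ 6 * (q ^ 2 - 1) * (q ^ 3 + 1) * (q ^ 4 - 1))
        = 2 * q ^ ((2 + 1) * 2) * (q ^ (2 + 1) + 1) * ((q ^ 2 - 1) * (q ^ 4 - 1)) := by ring
      _ = 2 * Nat.card (commutator (isometryGroup F ⇑(QMinus 2 F a b))) := by
          rw [← hmul, mul_comm]
  · have hidx := index_commutator_eq_four (QMinus 2 F a b) h2 hQ (by simp)
      (hall_of_finite (QMinus 2 F a b) hQ hcard4)
    rw [hidx] at hmul
    rw [if_neg h2]
    calc 2 * (q ^ 6 * (q ^ 2 - 1) * (q ^ 3 + 1) * (q ^ 4 - 1))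
        = 2 * q ^ ((2 + 1) * 2) * (q ^ (2 + 1) + 1) * ((q ^ 2 - 1) * (q ^ 4 - 1)) := by ring
      _ = 4 * Nat.card (commutator (isometryGroup F ⇑(QMinus 2 F a b))) := by
          rw [← hmul, mul_comm]

theorem card_su4 {K : Type*} [Field K] [Fintype K] {q : ℕ} (hK : Fintype.card K = q ^ 2) :
    Nat.card (SU 4 K q) = q ^ 6 * (q ^ 2 - 1) * (q ^ 3 + 1) * (q ^ 4 - 1) := by
  have h1 := card_SU hK 4 (by norm_num)
  have h2 := card_GU hK 4
  rw [h2] at h1
  have hprod : ∏ i ∈ Finset.range 4, (if Even i then q ^ (i + 1) + 1 else q ^ (i + 1) - 1) =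
      (q + 1) * (q ^ 2 - 1) * (q ^ 3 + 1) * (q ^ 4 - 1) := by
    have e1 : ¬ Even 1 := by decide
    have e2 : Even 2 := by decide
    have e3 : ¬ Even 3 := by decide
    simp [Finset.prod_range_succ, e1, e2, e3]
  rw [hprod] at h1
  have h3 : (q + 1) * Nat.card (SU 4 K q) =
      (q + 1) * (q ^ 6 * (q ^ 2 - 1) * (q ^ 3 + 1) * (q ^ 4 - 1)) := by
    rw [h1]
    norm_num
    ring
  exact Nat.eq_of_mul_eq_mul_left (by omega) h3

open Classical in
/-- `|SU₄(q)| = d |Ω⁻₆(q)|` with `d = 1` in characteristic two and `d = 2` otherwise -/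
theorem card_su4_eq {F K : Type*} [Field F] [Fintype F] [Field K] [Fintype K] {q : ℕ}
    (hF : Fintype.card F = q) (hK : Fintype.card K = q ^ 2) (a b : F)
    (hab : ∀ z₁ z₂ : F, z₁ ^ 2 + a * z₁ * z₂ + b * z₂ ^ 2 = 0 → z₁ = 0 ∧ z₂ = 0) :
    Nat.card (SU 4 K q) = (if (2 : F) = 0 then 1 else 2) *
      Nat.card (commutator (isometryGroup F (quadFormMinus 2 F a b))) := by
  have h1 := card_minus6 hF a b hab
  rw [← card_su4 hK] at h1
  by_cases h2 : (2 : F) = 0
  · rw [if_pos h2] at h1 ⊢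
    omega
  · rw [if_neg h2] at h1 ⊢
    omega

end Cfsg.Agent.Lib.Helper99.U4
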