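import Mathlib
import Cfsg.Prelude.Def_Classical
import Cfsg.Agent.Lib.Helper99.IsoModel
import Cfsg.Agent.Lib.Helper99.HypExt
import Cfsg.Agent.Lib.Helper99.Klein
import Cfsg.Agent.Lib.Helper99.KleinSurj
import Cfsg.Agent.Lib.Helper99.OM4Model
import Cfsg.Agent.Lib.Helper99.OM4Surj
import Cfsg.Agent.Lib.Helper99.Sp4Surj
import Cfsg.Agent.Lib.Helper99.U4Field
import Cfsg.Agent.Lib.Helper99.U4Model
import Cfsg.Agent.Lib.Helper99.U4Surj
import Cfsg.Agent.Lib.Helper99.U4Gen
import Cfsg.Agent.Lib.Helper99.U4Comp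

/-!
# The isometry group of the 6-dimensional model is generated by `SUh` and the complement
-/

set_option autoImplicit false
set_option linter.unusedSectionVars false
set_option linter.unnecessarySeqFocus false

namespace Cfsg.Agent.Lib.Helper99.U4

open Cfsg Matrix Cfsg.Agent.Lib.Helper99 Cfsg.Agent.Lib.Helper99.Klein
  Cfsg.Agent.Lib.Helper99.OM4 QuadraticAlgebra
open scoped commutatorElement

variable {F : Type*} [Field F] {a b : F} [Fact (∀ r : F, r ^ 2 ≠ -b + a * r)]
variable [hD : Fact (dsc a b ≠ 0)]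

theorem iota6_hex : iota6 (hex : W6 F a b) = hex := by
  rw [iota6_apply]
  apply kw_ext <;> simp [hex]

theorem iota6_hey : iota6 (hey : W6 F a b) = (0, algebraMap F (LL F a b) (dsc a b), 0) := by
  rw [iota6_apply]
  apply kw_ext <;> simp [hey]

/-- the matrix fixing the first hyperbolic vector and moving the second to `(-N v, 1, v)` -/
def mv6y (v : WW F a b) : Matrix (Fin 4) (Fin 4) (LL F a b) :=
  uQ ((algebraMap F (LL F a b) (dsc a b)⁻¹ * dl) • Hm v)

theorem isU_mv6y (v : WW F a b) : IsU (mv6y v) := by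
  apply isU_uQ
  rw [Matrix.conjTranspose_smul, Hm_conjTranspose, star_mul', star_dl, star_algebraMap', mul_neg,
    neg_smul]

theorem act6_mv6y_hex (v : WW F a b) : act6 (mv6y v) hex = hex := by
  rw [act6_apply, iota6_hex, mv6y, act4_uQ_hex, ← iota6_hex, pi6_iota6]

theorem act6_mv6y_hey (v : WW F a b) : act6 (mv6y v) hey = (-NN v, 1, v) := by
  have hC : algebraMap F (LL F a b) (dsc a b) ≠ 0 := by simpa using hD.out
  have h2 := dl_sq (a := a) (b := b)
  have hn := algebraMap_norm_eq_mul_star v.2.2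
  apply iota6_injective
  rw [iota6_act6 _ (isU_mv6y v), iota6_hey, mv6y, act4_uQ_y, iota6_apply, Hm_apply]
  apply kw_ext
  · simp [NN]
    rw [hn]
    field_simp
    linear_combination (-(algebraMap F (LL F a b) v.1 * algebraMap F (LL F a b) v.2.1)
      - v.2.2 * star v.2.2) * h2
  · simp
  · simp
    field_simp
  · simp
    field_simp
  · simp
    field_simp
  · simp
    field_simp

theorem omega_sub_star : (ω : LL F a b) - star ω = dl := by
  refine QuadraticAlgebra.ext ?_ ?_ <;> simp [dl] <;> norm_num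

theorem act6_fst (M : Matrix (Fin 4) (Fin 4) (LL F a b)) (u : W6 F a b) :
    (act6 M u).1 = ((act4 M (iota6 u)).1).re := rfl

theorem exists_first_ne6 (u : W6 F a b) (hu : u ≠ 0) :
    ∃ h : SUh (a := a) (b := b), (act6 h.1.1 u).1 ≠ 0 := by
  have hD' := hD.out
  have h2 := dl_sq (a := a) (b := b)
  obtain ⟨x₁, y₁, x₂, y₂, l⟩ := u
  by_cases hx : x₁ = 0
  · by_cases hy : y₁ = 0
    · subst hx hy
      by_cases hx2 : x₂ = 0
      · by_cases hy2 : y₂ = 0
        · subst hx2 hy2
          have hl : l ≠ 0 := by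
            intro hl
            apply hu
            rw [hl]
            rfl
          have hQ : (!![0, ω * l; -star (ω * l), 0] : Matrix (Fin 2) (Fin 2) (LL F a b))ᴴ =
              -!![0, ω * l; -star (ω * l), 0] := by
            refine Matrix.ext fun i j => ?_
            fin_cases i <;> fin_cases j <;> simp
          obtain ⟨h, hh⟩ := exists_suh _ (isU_uQ _ hQ)
          refine ⟨h, ?_⟩
          have hfst : (act4 (uQ !![0, ω * l; -star (ω * l), 0])
              (iota6 ((0, 0, 0, 0, l) : W6 F a b))).1 =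
              algebraMap F (LL F a b) (-(dsc a b * QuadraticAlgebra.norm l)) := by
            rw [act4_uQ_fst, iota6_apply]
            simp
            rw [algebraMap_norm_eq_mul_star, ← h2]
            linear_combination (-(dl * l * star l)) * omega_sub_star (a := a) (b := b)
          rw [hh, act6_fst, hfst]
          simp
          exact ⟨hD', fun h0 => hl (norm_eq_zero_iff_eq_zero.mp h0)⟩
        · have hQ : (!![dl, 0; 0, 0] : Matrix (Fin 2) (Fin 2) (LL F a b))ᴴ = -!![dl, 0; 0, 0] := by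
            refine Matrix.ext fun i j => ?_
            fin_cases i <;> fin_cases j <;> simp [star_dl]
          obtain ⟨h, hh⟩ := exists_suh _ (isU_uQ _ hQ)
          refine ⟨h, ?_⟩
          have hfst : (act4 (uQ !![dl, 0; 0, 0])
              (iota6 ((0, 0, x₂, y₂, l) : W6 F a b))).1 =
              algebraMap F (LL F a b) (-(dsc a b * y₂)) := by
            rw [act4_uQ_fst, iota6_apply]
            simp
            rw [← mul_assoc, h2]
          rw [hh, act6_fst, hfst]
          simp
          exact ⟨hD', hy2⟩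
      · have hQ : (!![0, 0; 0, dl] : Matrix (Fin 2) (Fin 2) (LL F a b))ᴴ = -!![0, 0; 0, dl] := by
          refine Matrix.ext fun i j => ?_
          fin_cases i <;> fin_cases j <;> simp [star_dl]
        obtain ⟨h, hh⟩ := exists_suh _ (isU_uQ _ hQ)
        refine ⟨h, ?_⟩
        have hfst : (act4 (uQ !![0, 0; 0, dl])
            (iota6 ((0, 0, x₂, y₂, l) : W6 F a b))).1 =
            algebraMap F (LL F a b) (dsc a b * x₂) := by
          rw [act4_uQ_fst, iota6_apply]
          simp
          rw [← mul_assoc, h2]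
        rw [hh, act6_fst, hfst]
        simp
        exact ⟨hD', hx2⟩
    · obtain ⟨h, hh⟩ := exists_suh _ (isU_Phi (a := a) (b := b))
      refine ⟨h, ?_⟩
      rw [hh, act6_fst, act4_Phi, iota6_apply]
      simp
      exact ⟨hD', hy⟩
  · refine ⟨1, ?_⟩
    show (act6 (1 : Matrix (Fin 4) (Fin 4) (LL F a b)) _).1 ≠ 0
    rw [act6_one]
    exact hx

theorem sup_eq_top6 :
    (f6 (a := a) (b := b)).range ⊔ Subgroup.closure (S6 (a := a) (b := b)) = ⊤ := by
  refine eq_top_of_hyp (F := F) (V := WW F a b) NN NN_zero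
    ((f6 (a := a) (b := b)).range ⊔ Subgroup.closure (S6 (a := a) (b := b))) ?_ ?_ ?_
  · intro u hu hN
    obtain ⟨h, hh⟩ := exists_first_ne6 u hu
    have hU := isU_coe h
    have hN' : hypN kN₀ (iota6 (act6 h.1.1 u)) = 0 := by
      rw [hypN_iota6, hypN_act6 _ hU, hN, mul_zero, map_zero]
    have hx' : (iota6 (act6 h.1.1 u)).1 ≠ 0 := by
      show algebraMap F (LL F a b) (act6 h.1.1 u).1 ≠ 0
      simpa using hh
    obtain ⟨g, hg⟩ := exists_suh _ (isU_mvx _ hx' (theta_iota6 _))
    have h1 : act6 g.1.1 (hex : W6 F a b) = act6 h.1.1 u := by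
      rw [hg, act6_apply, iota6_hex, Sp4.act4_mvx _ hx' hN', pi6_iota6]
    refine ⟨(f6 h)⁻¹ * f6 g, Subgroup.mul_mem _ (Subgroup.inv_mem _
      (Subgroup.mem_sup_left ⟨h, rfl⟩)) (Subgroup.mem_sup_left ⟨g, rfl⟩), ?_⟩
    rw [map_mul, Module.End.mul_apply]
    have h3 : appHom (hypN NN) (f6 g) (hex : W6 F a b) = act6 g.1.1 (hex : W6 F a b) := rfl
    have h4 : act6 h.1.1 u = appHom (hypN NN) (f6 h) u := rfl
    rw [h3, h1, h4]
    exact appHom_inv_apply (hypN NN) (f6 h) u
  · intro v
    obtain ⟨g, hg⟩ := exists_suh _ (isU_mv6y v)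
    refine ⟨f6 g, Subgroup.mem_sup_left ⟨g, rfl⟩, ?_, ?_⟩
    · have h3 : appHom (hypN NN) (f6 g) (hex : W6 F a b) = act6 g.1.1 (hex : W6 F a b) := rfl
      rw [h3, hg]
      exact act6_mv6y_hex v
    · have h3 : appHom (hypN NN) (f6 g) (hey : W6 F a b) = act6 g.1.1 (hey : W6 F a b) := rfl
      rw [h3, hg]
      exact act6_mv6y_hey v
  · intro T hx hy
    obtain ⟨τ, τ', hτ, hττ', hT⟩ :=
      stab_units (F := F) (V := WW F a b) NN NN_zero T hx hy
    have h1 : τ' * τ = 1 := LinearMap.ext hττ'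
    have h2 : τ * τ' = 1 := mul_eq_one_comm.mp h1
    obtain ⟨u, hu⟩ : ∃ u : isoUnits (F := F) (W := WW F a b) NN, appHom NN u = τ :=
      ⟨mkU NN τ τ' h2 h1 hτ, rfl⟩
    obtain ⟨n, ⟨g₂, rfl⟩, k, hk, huk⟩ := exists_rep u
    have hTe : T = hextU (ff g₂) * hextU k := by
      apply appHom_injective
      rw [hT, ← hu, huk, ← map_mul]
      rfl
    obtain ⟨g, hg⟩ := hextU_ff g₂
    rw [hTe, ← hg]
    refine Subgroup.mul_mem _ (Subgroup.mem_sup_left ⟨g, rfl⟩) (Subgroup.mem_sup_right ?_)
    have hle : Subgroup.map hextU (Subgroup.closure (SS (a := a) (b := b))) ≤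
        Subgroup.closure (S6 (a := a) (b := b)) := by
      rw [MonoidHom.map_closure]
      apply Subgroup.closure_mono
      rintro _ ⟨s, hs, rfl⟩
      exact Or.inr ⟨s, hs, rfl⟩
    exact hle (Subgroup.mem_map_of_mem _ hk)

/-- the commutator subgroup of the isometry group lies in the image of `SUh` -/
theorem commutator_le_range :
    commutator (isoUnits (F := F) (W := W6 F a b) (hypN NN)) ≤ (f6 (a := a) (b := b)).range :=
  (commutator_le_of_sup_eq_top _ S6 S6_conj S6_comm sup_eq_top6).2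

end Cfsg.Agent.Lib.Helper99.U4
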